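import Cfsg.Statements.S5139
import Cfsg.Agent.H8.PPow

set_option autoImplicit false
open Cfsg

namespace Cfsg.Agent.S5139

/-- Let G be a finite group with Sylow p-subgroup S and O^p(G) the subgroup generated by the elements of order prime to p. Then the p-residual subsystem of the fusion system of G on S — the saturated subsystem of p-power index over the hyperfocal subgroup — is the fusion system of O^p(G) on S ∩ O^p(G): its maps are exactly the conjugation maps by elements of O^p(G) between subgroups of S ∩ O^p(G). -/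
theorem result {G : Type*} [Group G] [Finite G] (p : ℕ) [Fact p.Prime] (S : Sylow p G) (E : Cfsg.FusionSystem ((Cfsg.groupFusionSystem (S : Subgroup G)).hyperfocalSubgroup p)) (hE : (Cfsg.groupFusionSystem (S : Subgroup G)).IsPResidual p E) : ∃ h : (S : Subgroup G) ⊓ Cfsg.pResidual p G ≤ Cfsg.pResidual p G, ∀ P : Subgroup G, E.Hom P = (Cfsg.fusionSystemOfSubgroup (Cfsg.pResidual p G) ((S : Subgroup G) ⊓ Cfsg.pResidual p G) h).Hom P := by
  haveI := Cfsg.Agent.H1.pResidual_normal p G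
  have hT := Cfsg.Agent.L.sylow_inf_normal S (Cfsg.pResidual p G)
  have hidx : (Cfsg.fusionSystemOfSubgroup (Cfsg.pResidual p G) ((S : Subgroup G) ⊓ Cfsg.pResidual p G)
      inf_le_right).HasPPowerIndexIn (Cfsg.groupFusionSystem (S : Subgroup G)) p := by
    refine Cfsg.Agent.H8.hasPPowerIndexIn_iff.2 ⟨Cfsg.FusionSystem.isSubsystemOf_iff.2 fun P f hf => ?_,
      (Cfsg.Agent.H8.hyp_group S).le, fun P σ hP hσ => ?_⟩
    · obtain ⟨h1, h2, g, -, h3⟩ := Cfsg.FusionSystem.isMap_ofSubgroup.1 hf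
      exact Cfsg.FusionSystem.isMap_group.2 ⟨h1.trans inf_le_left, fun x hx => (h2 x hx).1, g, h3⟩
    · rw [Cfsg.FusionSystem.group_eq_ofSubgroup] at hσ
      obtain ⟨g, -, h1, h2, h3⟩ := Cfsg.Agent.H8.exists_coprime_of_pEl_ofSubgroup hσ
      exact Cfsg.FusionSystem.isMap_ofSubgroup.2 ⟨hP, fun x hx => hP (hσ.1.mem hx), g,
        Cfsg.Agent.H1.mem_pResidual_of_coprime h1, h3⟩
  have hs := Cfsg.Agent.L.isSaturated_ofSubgroup hT
  refine ⟨inf_le_right, fun P => Set.Subset.antisymm ?_ ?_⟩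
  · exact Cfsg.Agent.H8.isSubsystemOf_of_hasPPowerIndexIn S.isPGroup' hE.1 hE.2.1 hidx
      (Cfsg.Agent.H8.hyp_group S).le P
  · exact Cfsg.Agent.H8.isSubsystemOf_of_hasPPowerIndexIn S.isPGroup' hs hidx.1 hE.2
      (Cfsg.Agent.H8.hyp_group S).ge P

end Cfsg.Agent.S5139
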