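import Cfsg.Statements.S0018
import Cfsg.Agent.H1.Hall

set_option autoImplicit false
open Cfsg

namespace Cfsg.Agent.S0018

/-- A finite solvable group whose Sylow p-subgroups are abelian has p-length one: a Sylow p-subgroup together with the largest normal subgroup of order prime to p generates a normal subgroup. -/
theorem result {G : Type*} [Group G] [Finite G] [Group.IsSolvable G]
    (p : ℕ) [Fact p.Prime] (P : Sylow p G) (hP : IsMulCommutative P) :
    ((P : Subgroup G) ⊔ Cfsg.pPrimeCore p G).Normal := by
  have hsurj := QuotientGroup.mk'_surjective (pPrimeCore p G)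
  have h1 := H1.centralizer_pCore_le_of_solvable (G := G ⧸ pPrimeCore p G) inferInstance
    (H1.pPrimeCore_quotient_pPrimeCore p G)
  have h2 : pCore p (G ⧸ pPrimeCore p G) ≤ (P : Subgroup G).map (QuotientGroup.mk' _) :=
    H1.pCore_le_sylow (P.mapSurjective hsurj)
  have hP' : IsMulCommutative (P : Subgroup G) := hP
  have h3 : (P : Subgroup G).map (QuotientGroup.mk' (pPrimeCore p G)) =
      pCore p (G ⧸ pPrimeCore p G) :=
    le_antisymm (((Subgroup.le_centralizer _).trans (Subgroup.centralizer_le h2)).trans h1) h2
  have h4 := Subgroup.comap_map_eq (QuotientGroup.mk' (pPrimeCore p G)) (P : Subgroup G)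
  rw [QuotientGroup.ker_mk', h3] at h4
  rw [← h4]
  infer_instance

end Cfsg.Agent.S0018
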