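import Cfsg.Statements.S0022
import Cfsg.Agent.H1.Coprime

set_option autoImplicit false
open Cfsg

namespace Cfsg.Agent.S0022

/-- Under coprime action fixed points pass to quotients: with A normalising K, coprime orders, A or K solvable, and N an A-invariant normal subgroup of K, every coset of N in K fixed by conjugation by A contains an element centralised by A. -/
theorem result {G : Type*} [Group G] [Finite G] (A K : Subgroup G) (hAK : A ≤ Subgroup.normalizer (K : Set G))
    (hcop : (Nat.card A).Coprime (Nat.card K)) (hsolv : Group.IsSolvable A ∨ Group.IsSolvable K)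
    (N : Subgroup G) (hNK : N ≤ K) (hNnormal : K ≤ Subgroup.normalizer (N : Set G)) (hNA : A ≤ Subgroup.normalizer (N : Set G))
    (k : G) (hk : k ∈ K) (hfix : ∀ a ∈ A, a * k * a⁻¹ * k⁻¹ ∈ N) :
    ∃ c ∈ K ⊓ Subgroup.centralizer (A : Set G), k⁻¹ * c ∈ N := by
  obtain ⟨n, hn, h⟩ := H1.exists_centralizer_in_coset hNA
    (hcop.coprime_dvd_right (Subgroup.card_dvd_of_le hNK)) (hsolv.imp id (H1.isSolvable_of_le hNK))
    (x := k) fun a ha => by
      have e : k⁻¹ * a * k * a⁻¹ = k⁻¹ * (a * k * a⁻¹ * k⁻¹) * k := by group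
      rw [e]
      exact H1.conj_mem_of_mem_normalizer' (hNnormal hk) (hfix a ha)
  exact ⟨k * n, ⟨K.mul_mem hk (hNK hn), h⟩, by simpa using hn⟩

end Cfsg.Agent.S0022
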