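import Cfsg.Statements.S0029
import Cfsg.Agent.H1.Frattini

set_option autoImplicit false
open Cfsg

namespace Cfsg.Agent.S0029

/-- An action that is trivial on the Frattini quotient and coprime on the Frattini subgroup is trivial: if A normalises K, the orders of A and of the Frattini subgroup of K are coprime, and every commutator of an element of A with an element of K lies in the Frattini subgroup of K, then A centralises K. -/
theorem result {G : Type*} [Group G] [Finite G] (A K : Subgroup G)
    (hAK : A ≤ Subgroup.normalizer (K : Set G))
    (hcop : (Nat.card A).Coprime (Nat.card (frattini K)))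
    (htriv : ∀ a ∈ A, ∀ k ∈ K, a * k * a⁻¹ * k⁻¹ ∈ (frattini K).map K.subtype) :
    A ≤ Subgroup.centralizer (K : Set G) := by
  intro a ha
  let α : MulAut K := K.normalizerMonoidHom ⟨a, hAK ha⟩
  have h1 : α = 1 := by
    apply H1.aut_eq_one_of_frattini
    · refine hcop.coprime_dvd_left ((orderOf_map_dvd _ _).trans ?_)
      rw [Subgroup.orderOf_mk]
      exact A.orderOf_dvd_natCard ha
    · intro x
      obtain ⟨y, hy, e⟩ := htriv a ha x x.2
      have h2 : x⁻¹ * α x = x⁻¹ * y * x := by
        apply Subtype.ext
        change (x : G)⁻¹ * (a * x * a⁻¹) = (x : G)⁻¹ * y * x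
        rw [show (y : G) = _ from e]; group
      rw [h2]
      exact (inferInstance : (frattini K).Normal).conj_mem' y hy x
  intro k hk
  have := congrArg (fun β : MulAut K => ((β ⟨k, hk⟩ : K) : G)) h1
  change a * k * a⁻¹ = k at this
  rw [← mul_inv_eq_iff_eq_mul.mp this]

end Cfsg.Agent.S0029
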