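import Cfsg.Statements.S0031
import Mathlib

set_option autoImplicit false
open Cfsg

namespace Cfsg.Agent.S0031

/-- A fixed-point-free automorphism of a finite group maps some Sylow p-subgroup to itself. -/
theorem result {G : Type*} [Group G] [Finite G] (φ : G ≃* G)
    (hφ : MonoidHom.FixedPointFree (φ : G →* G)) (p : ℕ) [Fact p.Prime] :
    ∃ P : Sylow p G, (P : Subgroup G).map (φ : G →* G) = P := by
  obtain ⟨P⟩ : Nonempty (Sylow p G) := inferInstance
  obtain ⟨g, hg⟩ := MulAction.exists_smul_eq G P ((φ : MulAut G) • P)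
  obtain ⟨x, hx⟩ := hφ.commutatorMap_surjective g⁻¹
  have hx' : x * (φ x)⁻¹ = g⁻¹ := by simpa [div_eq_mul_inv] using hx
  have hg' : g = φ x * x⁻¹ := by rw [← inv_inv g, ← hx']; simp
  refine ⟨x⁻¹ • P, ?_⟩
  have h1 : ∀ y, y ∈ (P : Subgroup G).map (φ : G →* G) ↔ g⁻¹ * y * g ∈ (P : Subgroup G) := by
    intro y
    have : (P : Subgroup G).map (φ : G →* G) = ((g • P : Sylow p G) : Subgroup G) := by
      rw [hg]; rfl
    rw [this, Sylow.coe_subgroup_smul, Subgroup.mem_pointwise_smul_iff_inv_smul_mem]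
    simp
  have h2 : ∀ y, y ∈ ((x⁻¹ • P : Sylow p G) : Subgroup G) ↔ x * y * x⁻¹ ∈ (P : Subgroup G) := by
    intro y
    rw [Sylow.coe_subgroup_smul, Subgroup.mem_pointwise_smul_iff_inv_smul_mem]
    simp
  ext y
  obtain ⟨z, rfl⟩ := φ.surjective y
  have h3 : φ z ∈ ((x⁻¹ • P : Sylow p G) : Subgroup G).map (φ : G →* G) ↔
      z ∈ ((x⁻¹ • P : Sylow p G) : Subgroup G) :=
    Subgroup.mem_map_iff_mem (f := (φ : G →* G)) φ.injective
  have h4 : φ (x * z * x⁻¹) ∈ (P : Subgroup G).map (φ : G →* G) ↔ x * z * x⁻¹ ∈ (P : Subgroup G) :=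
    Subgroup.mem_map_iff_mem (f := (φ : G →* G)) φ.injective
  rw [h3, h2, h2, ← h4, h1, hg']
  simp [mul_assoc]

end Cfsg.Agent.S0031
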