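import Cfsg.Statements.S0038
import Mathlib
import Cfsg.Agent.H2.Frob
import Cfsg.Agent.H3.Frobenius
import Cfsg.Agent.S0069

set_option autoImplicit false
open Pointwise
open Cfsg

namespace Cfsg.Agent.S0038

theorem eq_of_le {G : Type*} [Group G] [Finite G] {H H₁ : Subgroup G}
    (hH : Cfsg.IsFrobeniusComplement H) (hH₁ : Cfsg.IsFrobeniusComplement H₁) (hle : H₁ ≤ H) :
    H₁ = H := by
  obtain ⟨N, -, hN, hc⟩ := H3.frobenius_kernel_theorem H hH
  have h0 := H2.isFrobeniusComplement_iff.mp hH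
  have h1 := H2.isFrobeniusComplement_iff.mp hH₁
  have hNb : N ≠ ⊥ := by
    rintro rfl
    exact h0.2.1 (by simpa using hc.sup_eq_top)
  have hz := S0069.result N H hc hNb h0.1 ((H2.frob_iff_fpf N H hc hNb h0.1).mp hH)
  obtain ⟨⟨⟨z, hzH⟩, hz⟩, hz1⟩ := (Subgroup.ne_bot_iff_exists_ne_one).mp hz
  have hz1' : z ≠ 1 := fun h => hz1 (Subtype.ext (Subtype.ext h))
  have hzc : ∀ h ∈ H, h * z = z * h := fun h hh =>
    congrArg Subtype.val (Subgroup.mem_center_iff.mp hz ⟨h, hh⟩)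
  obtain ⟨⟨x, hx⟩, hx1⟩ := (Subgroup.ne_bot_iff_exists_ne_one).mp h1.1
  have hx1' : x ≠ 1 := fun h => hx1 (Subtype.ext h)
  have hzH₁ : z ∈ H₁ := H2.frob_mem hH₁ hx hx1' (by rw [← hzc x (hle hx)]; simpa using hx)
  refine le_antisymm hle fun h hh => H2.frob_mem hH₁ hzH₁ hz1' ?_
  rw [hzc h hh]; simpa using hzH₁

/-- All Frobenius complements of a finite group are conjugate to one another. -/
theorem result {G : Type*} [Group G] [Finite G] (H H₀ : Subgroup G)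
    (hH : Cfsg.IsFrobeniusComplement H) (hH₀ : Cfsg.IsFrobeniusComplement H₀) :
    ∃ g : G, MulAut.conj g • H₀ = H := by
  rcases le_total (Nat.card H₀) (Nat.card H) with hle | hle
  · obtain ⟨g, hg⟩ := H2.frob_exists_conj_le hH hH₀ hle
    exact ⟨g, eq_of_le hH (H2.frob_conj hH₀ g) hg⟩
  · obtain ⟨g, hg⟩ := H2.frob_exists_conj_le hH₀ hH hle
    refine ⟨g⁻¹, ?_⟩
    rw [← eq_of_le hH₀ (H2.frob_conj hH g) hg, map_inv, inv_smul_smul]

end Cfsg.Agent.S0038
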