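import Cfsg.Statements.S0040
import Mathlib
import Cfsg.Agent.H2.Fpf

set_option autoImplicit false
open Cfsg

namespace Cfsg.Agent.S0040

/-- Sylow subgroups of Frobenius complements: if H complements a nontrivial normal subgroup K and every nonidentity element of H has trivial centraliser in K, then each Sylow subgroup of H is cyclic or isomorphic to a generalized quaternion group. -/
theorem result {G : Type*} [Group G] [Finite G] (K H : Subgroup G) [K.Normal]
    (hc : Subgroup.IsComplement' K H) (hK : K ≠ ⊥) (hfpf : ∀ h ∈ H, h ≠ 1 → K ⊓ Subgroup.centralizer {h} = ⊥)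
    (p : ℕ) [Fact p.Prime] (P : Sylow p H) :
    IsCyclic P ∨ ∃ n : ℕ, Nonempty (P ≃* QuaternionGroup (2 ^ n)) := by
  have hHK : H ≤ Subgroup.normalizer (K : Set G) := by rw [Subgroup.normalizer_eq_top]; exact le_top
  let _ := H2.conjAction H K hHK
  have : Nontrivial K := (Subgroup.nontrivial_iff_ne_bot K).mpr hK
  rcases H2.fpf_isCyclic_or_quaternion (H2.conjAction_fpf H K hHK hfpf) (P : Subgroup H) P.2 with
    h | ⟨-, n, h⟩
  · exact Or.inl h
  · exact Or.inr ⟨n + 1, h⟩

end Cfsg.Agent.S0040
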