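import Cfsg.Statements.S0042
import Mathlib
import Cfsg.Agent.H2.Thompson
import Cfsg.Agent.H2.Frob
import Cfsg.Agent.H3.Frobenius

set_option autoImplicit false
open Cfsg

namespace Cfsg.Agent.S0042

/-- In a finite Frobenius group, the Frobenius kernel is (the carrier of) a normal subgroup which is nilpotent. -/
theorem result {G : Type*} [Group G] [Finite G] (H : Subgroup G) (hH : Cfsg.IsFrobeniusComplement H) :
    ∃ N : Subgroup G, (N : Set G) = Cfsg.frobeniusKernel H ∧ N.Normal ∧ Group.IsNilpotent N := by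
  obtain ⟨N, h1, h2, h3⟩ := H3.frobenius_kernel_theorem H hH
  refine ⟨N, h1, h2, ?_⟩
  by_cases hN : N = ⊥
  · subst hN
    infer_instance
  have hf := (H2.frob_iff_fpf N H h3 hN hH.1).1 hH
  obtain ⟨r, hr, hd⟩ := Nat.exists_prime_and_dvd (H.one_lt_card_iff_ne_bot.2 hH.1).ne'
  haveI := Fact.mk hr
  obtain ⟨h, hh⟩ := exists_prime_orderOf_dvd_card' r hd
  have hα : (MulAut.conjNormal (h : G) : MulAut N) ^ r = 1 := by
    rw [← map_pow, ← Subgroup.coe_pow, ← hh, pow_orderOf_eq_one, Subgroup.coe_one, map_one]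
  refine H2.isNilpotent_of_fpf hr (MulAut.conjNormal (h : G) : MulAut N) (fun g => ?_) fun g hg => ?_
  · have h2 := smul_iterate_apply (MulAut.conjNormal (h : G) : MulAut N) r g
    rw [hα, one_smul] at h2
    exact h2
  · have h4 : (h : G) * g * (h : G)⁻¹ = g := congrArg Subtype.val hg
    have h5 := hf h h.2 (fun e => hr.ne_one (by
      rw [← hh, orderOf_eq_one_iff]; exact Subtype.ext e))
    have h6 : (g : G) ∈ N ⊓ Subgroup.centralizer {(h : G)} :=
      ⟨g.2, Subgroup.mem_centralizer_singleton_iff.2 (mul_inv_eq_iff_eq_mul.1 h4).symm⟩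
    rw [h5] at h6
    exact Subtype.ext h6

end Cfsg.Agent.S0042
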