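import Cfsg.Statements.S0045
import Mathlib
import Cfsg.Agent.H2.Carter

set_option autoImplicit false
open Pointwise
open Cfsg

namespace Cfsg.Agent.S0045

/-- Carter subgroups: a finite solvable group contains a nilpotent subgroup equal to its own normaliser, and all such subgroups are conjugate. -/
theorem result {G : Type*} [Group G] [Finite G] [Group.IsSolvable G] :
    (∃ C : Subgroup G, Group.IsNilpotent C ∧ Subgroup.normalizer (C : Set G) = C) ∧
    ∀ C D : Subgroup G, Group.IsNilpotent C → Subgroup.normalizer (C : Set G) = C →
      Group.IsNilpotent D → Subgroup.normalizer (D : Set G) = D → ∃ g : G, MulAut.conj g • C = D := by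
  exact ⟨H2.exists_carter inferInstance, fun C D h1 h2 h3 h4 =>
    H2.carter_conj inferInstance C D h1 h2 h3 h4⟩

end Cfsg.Agent.S0045
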