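import Cfsg.Statements.S0047
import Mathlib

set_option autoImplicit false
open Cfsg

namespace Cfsg.Agent.S0047

/-- A finite group which is the product AB of two abelian subgroups A and B is solvable. -/
theorem result {G : Type*} [Group G] [Finite G] (A B : Subgroup G)
    [IsMulCommutative A] [IsMulCommutative B] (hAB : ∀ g : G, ∃ a ∈ A, ∃ b ∈ B, g = a * b) :
    Group.IsSolvable G := by
  have hA : ∀ x ∈ A, ∀ y ∈ A, x * y = y * x := fun x hx y hy =>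
    congrArg Subtype.val (mul_comm' (⟨x, hx⟩ : A) ⟨y, hy⟩)
  have hB : ∀ x ∈ B, ∀ y ∈ B, x * y = y * x := fun x hx y hy =>
    congrArg Subtype.val (mul_comm' (⟨x, hx⟩ : B) ⟨y, hy⟩)
  have hBA : ∀ g : G, ∃ b ∈ B, ∃ a ∈ A, g = b * a := by
    intro g
    obtain ⟨a, ha, b, hb, h⟩ := hAB g⁻¹
    exact ⟨b⁻¹, inv_mem hb, a⁻¹, inv_mem ha, by rw [← mul_inv_rev, ← h, inv_inv]⟩
  have key : ∀ a ∈ A, ∀ b ∈ B, ∀ a1 ∈ A, ∀ b1 ∈ B,
      (a1 * b1) * (a * b * a⁻¹ * b⁻¹) * (a1 * b1)⁻¹ =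
        (b1 * a1) * (a * b * a⁻¹ * b⁻¹) * (b1 * a1)⁻¹ := by
    intro a ha b hb a1 ha1 b1 hb1
    obtain ⟨b2, hb2, a2, ha2, h1⟩ := hBA (a1 * b * a1⁻¹)
    obtain ⟨a3, ha3, b3, hb3, h2⟩ := hAB (b1 * a * b1⁻¹)
    have e1 : ∀ x ∈ A, a1 * (x * b * x⁻¹ * b⁻¹) * a1⁻¹ = x * b2 * x⁻¹ * b2⁻¹ := by
      intro x hx
      calc a1 * (x * b * x⁻¹ * b⁻¹) * a1⁻¹
          = (a1 * x) * a1⁻¹ * (a1 * b * a1⁻¹) * ((a1 * x) * a1⁻¹)⁻¹ * (a1 * b * a1⁻¹)⁻¹ := by group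
        _ = x * b2 * (a2 * x⁻¹) * a2⁻¹ * b2⁻¹ := by rw [hA a1 ha1 x hx, h1]; group
        _ = _ := by rw [hA a2 ha2 _ (inv_mem hx)]; group
    have e2 : ∀ y ∈ B, b1 * (a * y * a⁻¹ * y⁻¹) * b1⁻¹ = a3 * y * a3⁻¹ * y⁻¹ := by
      intro y hy
      calc b1 * (a * y * a⁻¹ * y⁻¹) * b1⁻¹
          = (b1 * a * b1⁻¹) * ((b1 * y) * b1⁻¹) * (b1 * a * b1⁻¹)⁻¹ * ((b1 * y) * b1⁻¹)⁻¹ := by
            group
        _ = a3 * (b3 * y) * b3⁻¹ * a3⁻¹ * y⁻¹ := by rw [hB b1 hb1 y hy, h2]; group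
        _ = _ := by rw [hB b3 hb3 _ hy]; group
    calc _ = a1 * (b1 * (a * b * a⁻¹ * b⁻¹) * b1⁻¹) * a1⁻¹ := by group
      _ = a3 * b2 * a3⁻¹ * b2⁻¹ := by rw [e2 b hb, e1 a3 ha3]
      _ = b1 * (a1 * (a * b * a⁻¹ * b⁻¹) * a1⁻¹) * b1⁻¹ := by rw [e1 a ha, e2 b2 hb2]
      _ = _ := by group
  have hsup : A ⊔ B = ⊤ := by
    rw [eq_top_iff]
    intro g _
    obtain ⟨a, ha, b, hb, rfl⟩ := hAB g
    exact Subgroup.mul_mem_sup ha hb
  haveI hn : (⁅A, B⁆ : Subgroup G).Normal := by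
    rw [← Subgroup.normalizer_eq_top_iff, eq_top_iff, ← hsup]
    exact sup_le (Subgroup.normalizer_commutator_ge_left A B)
      (Subgroup.normalizer_commutator_ge_right A B)
  have h1 : commutator G ≤ ⁅A, B⁆ := by
    rw [← Subgroup.Normal.quotient_commutative_iff_commutator_le]
    have hc : ∀ a ∈ A, ∀ b ∈ B, (a : G ⧸ ⁅A, B⁆) * b = b * a := by
      intro a ha b hb
      rw [← QuotientGroup.mk_mul, ← QuotientGroup.mk_mul, QuotientGroup.eq]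
      have := Subgroup.commutator_mem_commutator (inv_mem ha) (inv_mem hb)
      have := inv_mem this
      simpa [commutatorElement_def, mul_assoc] using this
    refine ⟨⟨fun x y => ?_⟩⟩
    obtain ⟨x, rfl⟩ := QuotientGroup.mk_surjective x
    obtain ⟨y, rfl⟩ := QuotientGroup.mk_surjective y
    obtain ⟨a, ha, b, hb, rfl⟩ := hAB x
    obtain ⟨a', ha', b', hb', rfl⟩ := hAB y
    have e1 : (a : G ⧸ ⁅A, B⁆) * a' = a' * a := by
      rw [← QuotientGroup.mk_mul, ← QuotientGroup.mk_mul, hA a ha a' ha']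
    have e2 : (b : G ⧸ ⁅A, B⁆) * b' = b' * b := by
      rw [← QuotientGroup.mk_mul, ← QuotientGroup.mk_mul, hB b hb b' hb']
    simp only [QuotientGroup.mk_mul]
    exact Commute.mul_left (Commute.mul_right e1 (hc a ha b' hb'))
      (Commute.mul_right (hc a' ha' b hb).symm e2)
  have h2 : ⁅(⁅A, B⁆ : Subgroup G), (⁅A, B⁆ : Subgroup G)⁆ = ⊥ := by
    rw [Subgroup.commutator_eq_bot_iff_le_centralizer, Subgroup.commutator_le]
    intro a1 ha1 b1 hb1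
    rw [← Subgroup.zpowers_le, Subgroup.le_centralizer_iff, Subgroup.commutator_le]
    intro a ha b hb
    rw [Subgroup.zpowers_eq_closure, Subgroup.centralizer_closure,
      Subgroup.mem_centralizer_singleton_iff]
    have := key a ha b hb _ (inv_mem ha1) _ (inv_mem hb1)
    simp only [commutatorElement_def]
    calc a * b * a⁻¹ * b⁻¹ * (a1 * b1 * a1⁻¹ * b1⁻¹)
        = (b1⁻¹ * a1⁻¹)⁻¹ * (b1⁻¹ * a1⁻¹ * (a * b * a⁻¹ * b⁻¹) * (b1⁻¹ * a1⁻¹)⁻¹) *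
          (a1⁻¹ * b1⁻¹) := by group
      _ = _ := by rw [← this]; group
  refine ⟨⟨2, ?_⟩⟩
  rw [eq_bot_iff, ← h2]
  exact Subgroup.commutator_mono h1 h1

end Cfsg.Agent.S0047
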