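import Cfsg.Statements.S0053
import Mathlib

set_option autoImplicit false
open Cfsg

namespace Cfsg.Agent.S0053

/-- An abelian minimal normal subgroup N of a finite group is complemented exactly when N is not inside the Frattini subgroup. -/
theorem result {G : Type*} [Group G] [Finite G]
    (N : Subgroup G) [N.Normal] [IsMulCommutative N] (hN : N ≠ ⊥)
    (hmin : ∀ M : Subgroup G, M.Normal → M ≤ N → M = ⊥ ∨ M = N) :
    (∃ H : Subgroup G, Subgroup.IsComplement' N H) ↔ ¬ N ≤ frattini G := by
  constructor
  · rintro ⟨H, hH⟩ hle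
    have h1 : H ⊔ frattini G = ⊤ := by
      rw [eq_top_iff, ← hH.sup_eq_top, sup_comm]
      exact sup_le_sup_left hle H
    have h2 := frattini_nongenerating h1
    rw [h2, Subgroup.isComplement'_top_right] at hH
    exact hN hH
  · intro hle
    have : ∃ M : Subgroup G, IsCoatom M ∧ ¬ N ≤ M := by
      by_contra hc
      push Not at hc
      exact hle (le_iInf₂ hc)
    obtain ⟨M, hM, hNM⟩ := this
    have hsup : N ⊔ M = ⊤ := hM.2 _ (lt_of_le_of_ne le_sup_right fun h => hNM (h ▸ le_sup_left))
    have hnorm : (N ⊓ M).Normal := by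
      rw [← Subgroup.normalizer_eq_top_iff, eq_top_iff, ← hsup]
      apply sup_le
      · rw [Subgroup.le_normalizer_iff]
        intro n hn x hx
        have : n * x = x * n := congrArg Subtype.val (mul_comm' (⟨n, hn⟩ : N) ⟨x, hx.1⟩)
        rw [this]; simpa using hx
      · rw [Subgroup.le_normalizer_iff]
        intro m hm x hx
        exact Subgroup.mem_inf.2 ⟨(inferInstance : N.Normal).conj_mem _ hx.1 _,
          mul_mem (mul_mem hm (Subgroup.mem_inf.1 hx).2) (inv_mem hm)⟩
    rcases hmin _ hnorm inf_le_left with h | h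
    · refine ⟨M, Subgroup.isComplement'_of_disjoint_and_mul_eq_univ (disjoint_iff.2 h) ?_⟩
      rw [← Subgroup.normal_mul, hsup]; rfl
    · exact absurd (inf_eq_left.1 h) hNM

end Cfsg.Agent.S0053
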