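import Cfsg.Statements.S0054
import Mathlib

set_option autoImplicit false
open Cfsg

namespace Cfsg.Agent.S0054

/-- A regular normal subgroup of a finite 2-transitive group is elementary abelian: it is commutative and all its elements have order dividing one prime. -/
theorem result {G : Type*} [Group G] [Finite G]
    {X : Type*} [Nonempty X] [MulAction G X] (h2 : MulAction.IsMultiplyPretransitive G X 2)
    (N : Subgroup G) [N.Normal] (htrans : MulAction.IsPretransitive N X) (hreg : ∀ x : X, MulAction.stabilizer N x = ⊥) :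
    IsMulCommutative N ∧ ∃ p : ℕ, p.Prime ∧ ∀ n ∈ N, n ^ p = 1 := by
  obtain ⟨x⟩ := ‹Nonempty X›
  have hfree : ∀ n ∈ N, n • x = x → n = 1 := by
    intro n hn h
    have : (⟨n, hn⟩ : N) ∈ MulAction.stabilizer N x := h
    rw [hreg, Subgroup.mem_bot] at this
    exact congrArg Subtype.val this
  have hconj : ∀ a ∈ N, ∀ b ∈ N, a ≠ 1 → b ≠ 1 → ∃ g : G, g * a * g⁻¹ = b := by
    intro a ha b hb ha1 hb1
    have h3 : x ≠ a • x := fun h => ha1 (hfree a ha h.symm)
    have h4 : x ≠ b • x := fun h => hb1 (hfree b hb h.symm)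
    obtain ⟨g, hg1, hg2⟩ := MulAction.is_two_pretransitive_iff.1 h2 h3 h4
    refine ⟨g, ?_⟩
    have := hfree (b⁻¹ * (g * a * g⁻¹))
      (mul_mem (inv_mem hb) ((inferInstance : N.Normal).conj_mem _ ha g)) (by
        rw [mul_smul, mul_smul, mul_smul, inv_smul_eq_iff.2 hg1.symm, hg2, inv_smul_smul])
    exact (inv_mul_eq_one.1 this).symm
  by_cases hN : N = ⊥
  · subst hN
    exact ⟨inferInstance, 2, Nat.prime_two, fun n hn => by simp [Subgroup.mem_bot.1 hn]⟩
  obtain ⟨p, hp, hpd⟩ := Nat.exists_prime_and_dvd ((Subgroup.card_eq_one (H := N)).not.2 hN)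
  haveI := Fact.mk hp
  obtain ⟨a, ha⟩ := exists_prime_orderOf_dvd_card' p hpd
  have ha1 : (a : G) ≠ 1 := by
    intro h
    rw [← Subgroup.orderOf_coe, h, orderOf_one] at ha
    exact hp.ne_one ha.symm
  have hpow : ∀ n ∈ N, n ^ p = 1 := by
    intro n hn
    by_cases h1 : n = 1
    · simp [h1]
    obtain ⟨g, rfl⟩ := hconj a a.2 n hn ha1 h1
    rw [conj_pow, ← ha, ← Subgroup.orderOf_coe, pow_orderOf_eq_one]; simp
  refine ⟨?_, p, hp, hpow⟩
  have hP : IsPGroup p N := fun n => ⟨1, Subtype.ext (by simpa using hpow n n.2)⟩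
  haveI : Nontrivial N := (Subgroup.nontrivial_iff_ne_bot N).2 hN
  obtain ⟨z, hz, hz1⟩ := SetLike.exists_of_lt hP.bot_lt_center
  have hz1' : (z : G) ≠ 1 := fun h => hz1 (Subgroup.mem_bot.2 (Subtype.ext h))
  refine ⟨⟨fun u v => ?_⟩⟩
  by_cases h1 : (u : G) = 1
  · rw [show u = 1 from Subtype.ext h1]; simp
  obtain ⟨g, hg⟩ := hconj z z.2 u u.2 hz1' h1
  apply Subtype.ext
  have h3 := congrArg Subtype.val (Subgroup.mem_center_iff.1 hz
    ⟨g⁻¹ * v * g, by simpa using (inferInstance : N.Normal).conj_mem _ v.2 g⁻¹⟩)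
  simp only [Subgroup.coe_mul] at h3 ⊢
  rw [← hg]
  calc g * z * g⁻¹ * v = g * (z * (g⁻¹ * v * g)) * g⁻¹ := by group
    _ = _ := by rw [← h3]; group

end Cfsg.Agent.S0054
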