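import Cfsg.Statements.S0060
import Mathlib

set_option autoImplicit false
open Pointwise
open Cfsg

namespace Cfsg.Agent.S0060

/-- Brodkey's Theorem: in a finite group with abelian Sylow p-subgroups and no nontrivial normal p-subgroup, some conjugate of a Sylow p-subgroup meets it trivially. -/
theorem result {G : Type*} [Group G] [Finite G] (p : ℕ) [Fact p.Prime]
    (S : Sylow p G) (hS : IsMulCommutative S) (hOp : Cfsg.pCore p G = ⊥) :
    ∃ g : G, (S : Subgroup G) ⊓ MulAut.conj g • (S : Subgroup G) = ⊥ := by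
  have hcomm : ∀ T : Sylow p G, ∀ x ∈ T, ∀ y ∈ T, x * y = y * x := by
    intro T x hx y hy
    let e := Sylow.equiv S T
    obtain ⟨a, ha⟩ := e.surjective ⟨x, hx⟩
    obtain ⟨b, hb⟩ := e.surjective ⟨y, hy⟩
    have : (⟨x, hx⟩ : T) * ⟨y, hy⟩ = ⟨y, hy⟩ * ⟨x, hx⟩ := by
      rw [← ha, ← hb, ← map_mul, ← map_mul, mul_comm' a b]
    exact congrArg Subtype.val this
  obtain ⟨T, hT⟩ := exists_minimalFor_of_wellFoundedLT (fun _ : Sylow p G => True)
    (fun T => (S : Subgroup G) ⊓ T) ⟨S, trivial⟩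
  set D := (S : Subgroup G) ⊓ T with hD
  have hTN : (T : Subgroup G) ≤ Subgroup.normalizer (D : Set G) := by
    rw [Subgroup.le_normalizer_iff]
    intro t ht x hx
    rw [hcomm T t ht x hx.2]; simpa using hx
  have hSN : (S : Subgroup G) ≤ Subgroup.normalizer (D : Set G) := by
    rw [Subgroup.le_normalizer_iff]
    intro t ht x hx
    rw [hcomm S t ht x hx.1]; simpa using hx
  have hall : ∀ P : Sylow p G, D ≤ P := by
    intro P
    obtain ⟨Q, hQ⟩ := (P.2.comap_subtype (K := Subgroup.normalizer (D : Set G))).exists_le_sylow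
    obtain ⟨n, hn⟩ := MulAction.exists_smul_eq (Subgroup.normalizer (D : Set G)) Q (T.subtype hTN)
    have h1 : (S : Subgroup G) ⊓ ((n : G) • P : Sylow p G) ≤ D := by
      intro x hx
      refine Subgroup.mem_inf.2 ⟨hx.1, ?_⟩
      have h2 := (Subgroup.mem_inf.1 hx).2
      have h3 : (⟨x, hSN hx.1⟩ : Subgroup.normalizer (D : Set G)) ∈
          ((n • Q : Sylow p _) : Subgroup (Subgroup.normalizer (D : Set G))) := by
        rw [Sylow.coe_subgroup_smul, Subgroup.mem_pointwise_smul_iff_inv_smul_mem] at h2 ⊢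
        exact hQ (by simpa [Subgroup.mem_subgroupOf] using h2)
      rw [hn] at h3
      exact h3
    have h2 := hT.2 trivial h1
    intro x hx
    have h3 := (h2 ((Subgroup.mem_normalizer_iff.1 n.2 x).1 hx)).2
    have h4 : (n : G) * x * (n : G)⁻¹ ∈ (((n : G) • P : Sylow p G) : Subgroup G) := h3
    rw [Sylow.coe_subgroup_smul, Subgroup.mem_pointwise_smul_iff_inv_smul_mem] at h4
    simpa [mul_assoc] using h4
  obtain ⟨g, hg⟩ := MulAction.exists_smul_eq G S T
  refine ⟨g, ?_⟩
  rw [← Sylow.coe_subgroup_smul, hg, eq_bot_iff, ← hOp]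
  refine le_trans ?_ (le_sSup (a := (S : Subgroup G).normalCore)
    ⟨inferInstance, S.2.to_le (Subgroup.normalCore_le _)⟩)
  intro x hx b
  have h4 := hall (b⁻¹ • S) hx
  rw [Sylow.coe_subgroup_smul, Subgroup.mem_pointwise_smul_iff_inv_smul_mem] at h4
  simpa using h4

end Cfsg.Agent.S0060
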