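import Cfsg.Statements.S0062
import Mathlib
import Cfsg.Agent.S0047

set_option autoImplicit false
open Cfsg

namespace Cfsg.Agent.S0062

/-- A finite group of order p^2 * q^2 with p and q prime is solvable. -/
theorem result {G : Type*} [Group G] [Finite G] (p q : ℕ) (hp : p.Prime) (hq : q.Prime)
    (hG : Nat.card G = p ^ 2 * q ^ 2) : Group.IsSolvable G := by
  haveI := Fact.mk hp
  haveI := Fact.mk hq
  by_cases hpq : p = q
  · subst hpq
    haveI := (IsPGroup.of_card (p := p) (n := 4) (by rw [hG]; ring)).isNilpotent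
    infer_instance
  obtain ⟨A, hA⟩ := Sylow.exists_subgroup_card_pow_prime (G := G) p (n := 2) (by rw [hG]; simp)
  obtain ⟨B, hB⟩ := Sylow.exists_subgroup_card_pow_prime (G := G) q (n := 2) (by rw [hG]; simp)
  haveI := IsPGroup.isMulCommutative_of_card_eq_prime_sq hA
  haveI := IsPGroup.isMulCommutative_of_card_eq_prime_sq hB
  have hc : Subgroup.IsComplement' A B := Subgroup.isComplement'_of_coprime (by rw [hA, hB, hG])
    (by rw [hA, hB]; exact Nat.coprime_pow_primes 2 2 hp hq hpq)
  refine Cfsg.Agent.S0047.result A B fun g => ?_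
  obtain ⟨⟨a, b⟩, h⟩ := hc.2 g
  exact ⟨a, a.2, b, b.2, h.symm⟩

end Cfsg.Agent.S0062
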