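import Cfsg.Statements.S0063
import Mathlib

set_option autoImplicit false
open Cfsg

namespace Cfsg.Agent.S0063

theorem aux (p : ℕ) [hp : Fact p.Prime] (m : ℕ) : ∀ (G : Type*) [Group G] [Finite G],
    Nat.card G = p ^ m → Group.nilpotencyClass G ≤ max 1 (m - 1) := by
  induction m using Nat.strong_induction_on with
  | _ m ih =>
  intro G _ _ hG
  have hp' : IsPGroup p G := IsPGroup.of_card hG
  haveI := hp'.isNilpotent
  rcases subsingleton_or_nontrivial G with h | h
  · rw [Group.nilpotencyClass_zero_iff_subsingleton.2 h]; omega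
  obtain ⟨k, hk⟩ := IsPGroup.iff_card.1 (hp'.to_quotient (Subgroup.center G))
  have hkm : k < m := by
    have hcq : Nat.card (G ⧸ Subgroup.center G) < Nat.card G := by
      rw [Subgroup.card_eq_card_quotient_mul_card_subgroup (Subgroup.center G)]
      apply lt_mul_of_one_lt_right Nat.card_pos
      exact (Subgroup.one_lt_card_iff_ne_bot _).mpr (ne_of_gt hp'.bot_lt_center)
    rw [hk, hG] at hcq
    exact (Nat.pow_lt_pow_iff_right hp.out.one_lt).1 hcq
  by_cases hk1 : k ≤ 1
  · have : IsCyclic (G ⧸ Subgroup.center G) := by
      apply isCyclic_of_card_dvd_prime (p := p)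
      rw [hk]
      simpa using pow_dvd_pow p hk1
    have := isMulCommutative_of_isCyclic_quotient_center_self G
    exact (Group.IsNilpotent.nilpotencyClass_le_one_iff.2 this).trans (le_max_left _ _)
  · have := ih k hkm _ hk
    rw [Group.nilpotencyClass_eq_quotient_center_plus_one]
    omega

/-- A finite group of prime-power order p ^ m with m > 1 is nilpotent of class at most m - 1. -/
theorem result {G : Type*} [Group G] [Finite G] (p m : ℕ) [Fact p.Prime]
    (hG : Nat.card G = p ^ m) (hm : 1 < m) : Group.nilpotencyClass G ≤ m - 1 := by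
  have := aux p m G hG
  omega

end Cfsg.Agent.S0063
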