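import Cfsg.Statements.S0157
import Cfsg.Agent.H3.Orth

set_option autoImplicit false
open Cfsg

namespace Cfsg.Agent.S0157

/-- For a transitive action of a finite group on a finite set with at least two points: the action is 2-transitive if and only if the function sending g to (number of fixed points of g) − 1 is an irreducible character. -/
theorem result {G : Type*} [Group G] [Finite G] (X : Type*) [MulAction G X] [Finite X] [MulAction.IsPretransitive G X] (hX : 2 ≤ Nat.card X) : Cfsg.IsIrrCharacter G (fun g => (Nat.card (MulAction.fixedBy X g) : ℂ) - 1) ↔ MulAction.IsMultiplyPretransitive G X 2 := by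
  exact Cfsg.Agent.H3.isIrrCharacter_permChar_sub_one_iff X hX

end Cfsg.Agent.S0157
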