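import Cfsg.Statements.S0166
import Cfsg.Agent.H4.SplitField

set_option autoImplicit false
open Cfsg

namespace Cfsg.Agent.S0166

/-- Brauer's splitting field Theorem: a complex representation of a finite group of exponent m is equivalent to a representation by matrices with entries in ℚ adjoined exp(2πi/m). -/
theorem result {G : Type*} [Group G] [Finite G] (n : ℕ) (ρ : Representation ℂ G (Fin n → ℂ)) : ∃ σ : Representation ℂ G (Fin n → ℂ), Nonempty (ρ.Equiv σ) ∧ ∀ g : G, ∀ i j : Fin n, LinearMap.toMatrix' (σ g) i j ∈ Algebra.adjoin ℚ ({Complex.exp (2 * Real.pi * Complex.I / (Monoid.exponent G : ℂ))} : Set ℂ) := by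
  have hm : Monoid.exponent G ≠ 0 := Monoid.exponent_ne_zero_of_finite
  have : NeZero (Monoid.exponent G) := ⟨hm⟩
  have hζ := Complex.isPrimitiveRoot_exp (Monoid.exponent G) hm
  set ζ := Complex.exp (2 * Real.pi * Complex.I / (Monoid.exponent G : ℂ))
  let K := IntermediateField.adjoin ℚ ({ζ} : Set ℂ)
  have hK : K.toSubalgebra = Algebra.adjoin ℚ {ζ} :=
    IntermediateField.adjoin_simple_toSubalgebra_of_isAlgebraic
      ((hζ.isIntegral (Nat.pos_of_ne_zero hm)).tower_top (A := ℚ)).isAlgebraic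
  obtain ⟨τ, hτ⟩ := H4.exists_equiv_repExt (f := algebraMap K ℂ) ρ (H4.isKChar_of_roots _ (by
    intro z hz
    obtain ⟨j, -, rfl⟩ := hζ.eq_pow_of_pow_eq_one hz
    exact ⟨(⟨ζ ^ j, pow_mem (IntermediateField.mem_adjoin_simple_self ℚ ζ) j⟩ : K), rfl⟩)
    (H3.isCharacter_character ρ))
  refine ⟨_, hτ, fun g i j => ?_⟩
  rw [H4.toMatrix_repExt, ← hK]
  exact (LinearMap.toMatrix' (τ g) i j).2

end Cfsg.Agent.S0166
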