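import Cfsg.Statements.S0174
import Cfsg.Agent.H4.Clifford

set_option autoImplicit false
open Cfsg

namespace Cfsg.Agent.S0174

/-- The Clifford Theorem for characters: if θ is an irreducible character of a finite group G, N is a normal subgroup and χ is an irreducible character of N occurring in the restriction of θ, then θ restricted to N equals e times the sum of the distinct G-conjugates of χ, where e is the inner product of the restriction with χ. -/
theorem result {G : Type*} [Group G] [Fintype G] (N : Subgroup G) [Fintype N] (hN : N.Normal) (θ : G → ℂ) (hθ : Cfsg.IsIrrCharacter G θ) (χ : N → ℂ) (hχ : Cfsg.IsIrrCharacter N χ) (hconst : Cfsg.classInner (fun n : N => θ n) χ ≠ 0) : (fun n : N => θ n) = Cfsg.classInner (fun n : N => θ n) χ • ∑ᶠ ψ ∈ {ψ : N → ℂ | ∃ g : G, ψ = fun n : N => χ ⟨g * n * g⁻¹, hN.conj_mem n n.2 g⟩}, ψ := by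
  classical
  have h := H4.clifford_res N hθ hχ hconst
  have hs : {ψ : N → ℂ | ∃ g : G, ψ = fun n : N => χ ⟨g * n * g⁻¹, hN.conj_mem n n.2 g⟩} =
      ↑((H4.conjIrr N χ).map ⟨Subtype.val, Subtype.val_injective⟩) := by
    ext ψ
    simp only [Set.mem_ofPred_eq, Finset.coe_map, Set.mem_image, Finset.mem_coe, H4.mem_conjIrr,
      Function.Embedding.coeFn_mk]
    constructor
    · rintro ⟨g, rfl⟩
      exact ⟨⟨_, H4.isIrr_conjFun N hχ g⟩, ⟨g, rfl⟩, rfl⟩
    · rintro ⟨φ, ⟨g, hg⟩, rfl⟩
      exact ⟨g, hg.symm⟩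
  rw [hs, finsum_mem_coe_finset, Finset.sum_map]
  exact h

end Cfsg.Agent.S0174
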