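import Cfsg.Statements.S0181
import Cfsg.Agent.H4.Degree
import Cfsg.Agent.H4.FrobGroup

set_option autoImplicit false
open Cfsg

namespace Cfsg.Agent.S0181

/-- Let H be a normal subgroup of a finite group G and ρ an irreducible complex representation whose kernel does not contain H. If g commutes with no non-identity element of H, then the character of ρ vanishes at g. -/
theorem result {G : Type*} [Group G] [Finite G] {V : Type*} [AddCommGroup V] [Module ℂ V] [FiniteDimensional ℂ V] (ρ : Representation ℂ G V) [ρ.IsIrreducible] (H : Subgroup G) [H.Normal] (hker : ∃ h ∈ H, ρ h ≠ LinearMap.id) (g : G) (hg : ∀ h ∈ H, h * g = g * h → h = 1) : ρ.character g = 0 := by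
  classical
  have := Fintype.ofFinite G
  -- the sum of `ρ h` over `H` vanishes
  have hsum : ∑ h : H, ρ h = 0 := by
    let U : Submodule ℂ V :=
      { carrier := {v | ∀ h ∈ H, ρ h v = v}
        add_mem' := fun {a b} ha hb h hh => by rw [map_add, ha h hh, hb h hh]
        zero_mem' := fun h _ => map_zero _
        smul_mem' := fun c v hv h hh => by rw [map_smul, hv h hh] }
    have hU : U = ⊥ := by
      refine (((H4.isIrreducible_iff_submodule ρ).1 inferInstance).2 U ?_).resolve_right ?_
      · intro x v hv h hh
        have := hv (x⁻¹ * h * x) (by simpa using Subgroup.Normal.conj_mem inferInstance h hh x⁻¹)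
        rw [← Module.End.mul_apply, ← map_mul, show h * x = x * (x⁻¹ * h * x) by group, map_mul,
          Module.End.mul_apply, this]
      · intro htop
        obtain ⟨h, hh, hne⟩ := hker
        apply hne
        ext v
        have : v ∈ U := htop ▸ Submodule.mem_top
        exact this h hh
    ext v
    have : (∑ h : H, ρ h) v ∈ U := by
      intro k hk
      simp only [LinearMap.sum_apply, map_sum]
      exact Fintype.sum_equiv (Equiv.mulLeft (⟨k, hk⟩ : H)) _ _ (fun x => by simp)
    rw [hU] at this
    simpa using this
  have hconj : ∀ h : H, ρ.character (h * g) = ρ.character g := by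
    intro h
    obtain ⟨u, -, hu⟩ := H4.exists_conj_of_fpf (K := H) (h := g)
      (fun k hk e => hg k hk e.symm) h.2
    rw [hu, ρ.char_conj]
  have h1 : ∑ h : H, ρ.character (h * g) = 0 := by
    simp only [Representation.character, map_mul]
    rw [← map_sum, ← Finset.sum_mul, hsum, zero_mul, map_zero]
  simp only [hconj, Finset.sum_const, Finset.card_univ, nsmul_eq_mul] at h1
  exact (mul_eq_zero.1 h1).resolve_left (Nat.cast_ne_zero.2 Fintype.card_ne_zero)

end Cfsg.Agent.S0181
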