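import Cfsg.Statements.S0184
import Cfsg.Agent.H3.FS

set_option autoImplicit false
open Cfsg

namespace Cfsg.Agent.S0184

/-- A finite p-group admits a faithful irreducible complex representation if and only if its centre is cyclic. -/
theorem result {G : Type*} [Group G] [Finite G] (p : ℕ) [Fact p.Prime] (hG : IsPGroup p G) : (∃ (n : ℕ) (ρ : Representation ℂ G (Fin n → ℂ)), ρ.IsIrreducible ∧ Function.Injective ρ) ↔ IsCyclic (Subgroup.center G) := by
  constructor
  · rintro ⟨n, ρ, h1, h2⟩
    exact (Cfsg.Agent.H3.isIrrCharacter_character ρ).isCyclic_center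
      (Cfsg.Agent.H3.faithful_of_injective ρ h2)
  · intro h
    obtain ⟨_, ⟨n, ρ, h1, rfl⟩, h2⟩ := Cfsg.Agent.H3.exists_faithful_irr_of_isCyclic_center hG h
    exact ⟨n, ρ, h1, Cfsg.Agent.H3.injective_of_faithful ρ h2⟩

end Cfsg.Agent.S0184
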