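import Cfsg.Statements.S0192
import Cfsg.Agent.H4.Degree

set_option autoImplicit false
open Cfsg

namespace Cfsg.Agent.S0192

/-- Brauer's generation criterion. Let G be a finite simple group, H₁ and H₂ subgroups, and χ a non-principal irreducible character. If the multiplicity of the principal character in χ restricted to H₁ ⊓ H₂ is less than the sum of the corresponding multiplicities for H₁ and H₂, then H₁ and H₂ do not generate G. -/
theorem result {G : Type*} [Group G] [Fintype G] [IsSimpleGroup G] (H₁ H₂ : Subgroup G) [Fintype H₁] [Fintype H₂] [Fintype ↥(H₁ ⊓ H₂)] (χ : G → ℂ) (hχ : Cfsg.IsIrrCharacter G χ) (hχ1 : χ ≠ fun _ => 1) (hlt : (Cfsg.classInner (fun x : ↥(H₁ ⊓ H₂) => χ x) (fun _ => 1)).re < (Cfsg.classInner (fun x : H₁ => χ x) (fun _ => 1)).re + (Cfsg.classInner (fun x : H₂ => χ x) (fun _ => 1)).re) : H₁ ⊔ H₂ ≠ ⊤ := by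
  classical
  obtain ⟨n, ρ, hρ, rfl⟩ := hχ
  have key : ∀ (H : Subgroup G) [Fintype H], Cfsg.classInner (fun x : H => ρ.character x) (fun _ => 1) =
      Module.finrank ℂ (Representation.invariants (ρ.comp H.subtype)) := by
    intro H _
    let _ : Invertible (Nat.card H : ℂ) := invertibleOfNonzero (H4.natCard_ne_zero_C H)
    rw [← Representation.card_inv_mul_sum_char_eq_finrank]
    simp only [Cfsg.classInner, map_one, mul_one]
    rfl
  rw [key, key, key] at hlt
  simp only [Complex.natCast_re] at hlt
  rw [← Nat.cast_add, Nat.cast_lt] at hlt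
  intro htop
  set U₁ := Representation.invariants (ρ.comp H₁.subtype)
  set U₂ := Representation.invariants (ρ.comp H₂.subtype)
  have hle : U₁ ⊔ U₂ ≤ Representation.invariants (ρ.comp (H₁ ⊓ H₂).subtype) := by
    apply sup_le
    · intro v hv x
      exact hv ⟨x, x.2.1⟩
    · intro v hv x
      exact hv ⟨x, x.2.2⟩
  have h1 := Submodule.finrank_mono hle
  have h2 := Submodule.finrank_sup_add_finrank_inf_eq U₁ U₂
  have h3 : U₁ ⊓ U₂ ≠ ⊥ := by
    intro h
    rw [h, finrank_bot] at h2
    omega
  obtain ⟨v, ⟨hv1, hv2⟩, hv0⟩ := Submodule.exists_mem_ne_zero_of_ne_bot h3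
  have hfix : ∀ g, ρ g v = v := by
    intro g
    let S : Subgroup G :=
      { carrier := {g | ρ g v = v}
        one_mem' := by simp
        mul_mem' := fun {a b} ha hb => by
          simp only [Set.mem_ofPred_eq] at ha hb ⊢
          rw [map_mul, Module.End.mul_apply, hb, ha]
        inv_mem' := fun {a} ha => by
          simp only [Set.mem_ofPred_eq] at ha ⊢
          rw [Representation.inv_apply_eq_iff, ha] }
    have : H₁ ⊔ H₂ ≤ S := sup_le (fun x hx => hv1 ⟨x, hx⟩) (fun x hx => hv2 ⟨x, hx⟩)
    exact this (htop ▸ Subgroup.mem_top g)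
  have hspan : Submodule.span ℂ {v} = ⊤ := by
    refine (((H4.isIrreducible_iff_submodule ρ).1 hρ).2 _ ?_).resolve_left (by simpa using hv0)
    intro g w hw
    obtain ⟨c, rfl⟩ := Submodule.mem_span_singleton.1 hw
    rw [map_smul, hfix]
    exact hw
  have hdim : Module.finrank ℂ (Fin n → ℂ) = 1 := by
    rw [← finrank_top, ← hspan, finrank_span_singleton hv0]
  apply hχ1
  funext g
  have : ρ g = LinearMap.id := by
    apply LinearMap.ext
    intro w
    have hw : w ∈ Submodule.span ℂ {v} := hspan ▸ Submodule.mem_top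
    obtain ⟨c, rfl⟩ := Submodule.mem_span_singleton.1 hw
    rw [map_smul, hfix]; rfl
  rw [Representation.character, this, LinearMap.trace_id, hdim, Nat.cast_one]

end Cfsg.Agent.S0192
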