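import Cfsg.Statements.S0194
import Cfsg.Agent.H4.BrauerPerm

set_option autoImplicit false
open scoped ComplexConjugate
open Cfsg

namespace Cfsg.Agent.S0194

/-- Let G have odd order, H be a normal subgroup and θ a non-principal irreducible character of H. Then the function induced from θ is orthogonal to its complex conjugate. -/
theorem result {G : Type*} [Group G] [Fintype G] (hodd : Odd (Nat.card G)) (H : Subgroup G) [H.Normal] (θ : H → ℂ) (hθ : Cfsg.IsIrrCharacter H θ) (hθ1 : θ ≠ fun _ => 1) : Cfsg.classInner (fun g => conj (Cfsg.indFun H θ g)) (Cfsg.indFun H θ) = 0 := by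
  have := Fintype.ofFinite H
  have h1 : (fun g => conj (Cfsg.indFun H θ g)) = Cfsg.indFun H (fun h => conj (θ h)) := by
    funext g; rw [H4.indFun_star]
  rw [h1]
  exact H4.classInner_indFun_normal_eq_zero H hθ.conj hθ
    (H4.conjFun_ne_star_of_odd hodd H hθ hθ1)

end Cfsg.Agent.S0194
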