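import Cfsg.Statements.S0196
import Cfsg.Agent.H4.FrobGroup

set_option autoImplicit false
open Cfsg

namespace Cfsg.Agent.S0196

/-- Let A be a subgroup of a finite group G that equals the centralizer of each of its non-identity elements, and let N be its normalizer. Then the index of A in N divides |A| − 1 (N/A permutes the non-identity elements of A in orbits of full length). -/
theorem result {G : Type*} [Group G] [Finite G] (A : Subgroup G) (hA : ∀ x ∈ A, x ≠ 1 → Subgroup.centralizer ({x} : Set G) = A) : (A.subgroupOf (Subgroup.normalizer (A : Set G))).index ∣ Nat.card A - 1 := by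
  classical
  set N := Subgroup.normalizer (A : Set G) with hN
  let X := {x : G // x ∈ A ∧ x ≠ 1}
  let _ : MulAction N X :=
    { smul := fun n x => ⟨n * x.1 * (n : G)⁻¹, (Subgroup.mem_normalizer_iff.1 n.2 x.1).1 x.2.1,
        fun h => x.2.2 (by simpa using h)⟩
      one_smul := fun x => Subtype.ext (by
        change ((1 : N) : G) * x.1 * ((1 : N) : G)⁻¹ = x.1
        simp)
      mul_smul := fun a b x => Subtype.ext (by
        change ((a * b : N) : G) * x.1 * ((a * b : N) : G)⁻¹ =
          a * (b * x.1 * (b : G)⁻¹) * (a : G)⁻¹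
        simp [mul_assoc]) }
  have hX : Nat.card X = Nat.card A - 1 := by
    have e : X ≃ {a : A // a ≠ 1} :=
      ⟨fun x => ⟨⟨x.1, x.2.1⟩, fun h => x.2.2 (congrArg Subtype.val h)⟩,
        fun a => ⟨a.1.1, a.1.2, fun h => a.2 (Subtype.ext h)⟩, fun _ => rfl, fun _ => rfl⟩
    have := Fintype.ofFinite A
    rw [Nat.card_congr e, Nat.card_eq_fintype_card, Fintype.card_subtype_compl,
      Nat.card_eq_fintype_card]
    simp
  rw [← hX]
  apply H4.dvd_card_of_forall_dvd_index_stabilizer (G := N)
  intro x
  have : MulAction.stabilizer N x = A.subgroupOf N := by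
    ext n
    rw [MulAction.mem_stabilizer_iff, Subgroup.mem_subgroupOf]
    conv_rhs => rw [← hA x.1 x.2.1 x.2.2, Subgroup.mem_centralizer_singleton_iff]
    rw [Subtype.ext_iff]
    change (n : G) * x.1 * (n : G)⁻¹ = x.1 ↔ _
    rw [mul_inv_eq_iff_eq_mul]
  rw [this]

end Cfsg.Agent.S0196
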