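import Cfsg.Statements.S0901
import Cfsg.Agent.H5.Loc

set_option autoImplicit false
open Cfsg

namespace Cfsg.Agent.S0901

/-- Let M be a maximal ideal of the ring of algebraic integers containing the prime p, and let U be the set of complex roots of unity of order prime to p. Then reduction modulo M is injective on U, and every algebraic integer not in M is congruent modulo M to an element of U (so U maps bijectively onto the nonzero residues). -/
theorem result (p : ℕ) [Fact p.Prime] (M : Ideal Cfsg.AlgInt) (hM : Cfsg.IsPModular p M) : (∀ ε₁ ε₂ : Cfsg.AlgInt, (∃ m : ℕ, ¬ p ∣ m ∧ (ε₁ : ℂ) ^ m = 1) → (∃ m : ℕ, ¬ p ∣ m ∧ (ε₂ : ℂ) ^ m = 1) → ε₁ - ε₂ ∈ M → ε₁ = ε₂) ∧ (∀ a : Cfsg.AlgInt, a ∉ M → ∃ ε : Cfsg.AlgInt, (∃ m : ℕ, ¬ p ∣ m ∧ (ε : ℂ) ^ m = 1) ∧ a - ε ∈ M) := by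
  have := hM.2.1
  have := H5.charP_res hM
  have hp : p.Prime := hM.1
  constructor
  · rintro ε₁ ε₂ ⟨m₁, hm₁, h₁⟩ ⟨m₂, hm₂, h₂⟩ h
    have hm₂0 : m₂ ≠ 0 := by rintro rfl; exact hm₂ (dvd_zero _)
    have e1 : H5.red M (ε₁ : ℂ) = H5.red M (ε₂ : ℂ) := by
      rw [← H5.memLocalIdeal_sub_iff (H5.algInt_mem_locRing M _) (H5.algInt_mem_locRing M _)]
      exact (H5.memLocalIdeal_algInt M (ε₁ - ε₂)).2 h
    have e2 : H5.red M (ε₂ : ℂ) ≠ 0 := by
      intro h0
      have := congrArg (H5.red M) h₂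
      rw [H5.red_pow (H5.algInt_mem_locRing M _), h0, zero_pow hm₂0, H5.red_one] at this
      exact zero_ne_one this
    have e3 : (ε₁ : ℂ) / ε₂ = 1 := by
      apply H5.eq_one_of_red_eq_one (M := M) (p := p) (m := m₁ * m₂)
      · intro hd; exact (hp.dvd_mul.1 hd).elim hm₁ hm₂
      · rw [div_pow, pow_mul, h₁, one_pow, mul_comm, pow_mul, h₂, one_pow, div_one]
      · rw [H5.red_div (H5.algInt_mem_locRing M _) e2, e1, div_self e2]
    exact Subtype.ext (by rwa [div_eq_one_iff_eq (H5.ne_zero_of_red_ne_zero e2)] at e3)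
  · intro a ha
    have ha' := H5.algInt_mem_locRing M a
    have h0 : H5.red M (a : ℂ) ≠ 0 := by
      rw [Ne, H5.red_eq_zero_iff ha', H5.memLocalIdeal_algInt]; exact ha
    have hint : IsIntegral ℤ (H5.red M (a : ℂ)) := by
      rw [H5.red_of_mem ha']
      have : IsIntegral ℤ (⟨a, ha'⟩ : H5.locRing M) :=
        (isIntegral_algHom_iff ((H5.locRing M).subtype.toIntAlgHom) Subtype.val_injective).1 a.2
      exact this.map (H5.resHom M).toIntAlgHom
    let := ZMod.algebra (H5.Res M) p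
    have hint' : IsIntegral (ZMod p) (H5.red M (a : ℂ)) := hint.tower_top
    set x := H5.red M (a : ℂ) with hx
    have hfd := IntermediateField.adjoin.finiteDimensional hint'
    set K := IntermediateField.adjoin (ZMod p) {x}
    have hfin : Finite K := Module.finite_of_finite (ZMod p)
    let := Fintype.ofFinite K
    have hxK : x ∈ K := IntermediateField.mem_adjoin_simple_self _ x
    have hpow := FiniteField.pow_card_sub_one_eq_one (⟨x, hxK⟩ : K)
      (fun h => h0 (congrArg Subtype.val h))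
    have hchar : CharP K p := by
      exact (algebraMap K (H5.Res M)).charP (algebraMap K (H5.Res M)).injective p
    obtain ⟨n, -, hn⟩ := FiniteField.card K p
    set m := Fintype.card K - 1 with hm
    have hxm : x ^ m = 1 := congrArg Subtype.val hpow
    have hpm : ¬ p ∣ m := by
      intro hd
      have h1 : p ∣ Fintype.card K := by rw [hn]; exact dvd_pow_self p n.ne_zero
      have h2 : p ∣ Fintype.card K - m := Nat.dvd_sub h1 hd
      have h3 : Fintype.card K - m = 1 := by
        have := Fintype.card_pos (α := K); omega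
      rw [h3] at h2
      exact hp.one_lt.ne' (Nat.dvd_one.1 h2)
    have hm0 : 0 < m := Nat.pos_of_ne_zero (by rintro h; exact hpm (h ▸ dvd_zero _))
    have hζ := Complex.isPrimitiveRoot_exp m hm0.ne'
    have hprod := congrArg (Polynomial.eval (a : ℂ)) (Polynomial.X_pow_sub_one_eq_prod hm0 hζ)
    simp only [Polynomial.eval_sub, Polynomial.eval_pow, Polynomial.eval_X, Polynomial.eval_one,
      Polynomial.eval_prod, Polynomial.eval_C] at hprod
    have hint2 : ∀ ζ ∈ Polynomial.nthRootsFinset m (1 : ℂ), IsIntegral ℤ ζ := fun ζ hζ =>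
      IsIntegral.of_pow hm0 (by rw [(Polynomial.mem_nthRootsFinset hm0 1).1 hζ]; exact isIntegral_one)
    have hred := congrArg (H5.red M) hprod
    rw [H5.red_sub (pow_mem ha' m) (one_mem _), H5.red_pow ha', ← hx, hxm, H5.red_one, sub_self,
      H5.red_prod _ fun ζ hζ => sub_mem ha' (H5.mem_locRing_of_isIntegral M (hint2 ζ hζ))] at hred
    obtain ⟨ζ, hζ1, hζ2⟩ := Finset.prod_eq_zero_iff.1 hred.symm
    refine ⟨⟨ζ, hint2 ζ hζ1⟩, ⟨m, hpm, (Polynomial.mem_nthRootsFinset hm0 1).1 hζ1⟩, ?_⟩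
    rw [← H5.memLocalIdeal_algInt]
    exact (H5.red_eq_zero_iff (sub_mem ha' (H5.mem_locRing_of_isIntegral M (hint2 ζ hζ1)))).1 hζ2

end Cfsg.Agent.S0901
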