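import Cfsg.Statements.S0903
import Cfsg.Agent.H5.GA

set_option autoImplicit false
open Cfsg

namespace Cfsg.Agent.S0903

/-- Let P be a p-subgroup of the finite group G, let c centralize P and let g, h ∈ G. The number of pairs (x, y) with x conjugate to g, y conjugate to h and x * y = c is congruent modulo p to the number of such pairs in which x and y both centralize P. (This is why the Brauer map on class sums is multiplicative.) -/
theorem result {G : Type*} [Group G] [Finite G] (p : ℕ) [Fact p.Prime] (P : Subgroup G) (hP : IsPGroup p P) (c : G) (hc : c ∈ Subgroup.centralizer (P : Set G)) (g h : G) : Nat.card {xy : G × G // IsConj g xy.1 ∧ IsConj h xy.2 ∧ xy.1 * xy.2 = c} ≡ Nat.card {xy : G × G // IsConj g xy.1 ∧ IsConj h xy.2 ∧ xy.1 * xy.2 = c ∧ xy.1 ∈ Subgroup.centralizer (P : Set G) ∧ xy.2 ∈ Subgroup.centralizer (P : Set G)} [MOD p] := by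
  classical
  have := Fintype.ofFinite G
  have key : ∀ (q : G → G → Prop), (Nat.card {xy : G × G // q xy.1 xy.2 ∧ xy.1 * xy.2 = c} :
      ZMod p) = ∑ x, if q x (x⁻¹ * c) then 1 else 0 := by
    intro q
    rw [Nat.card_congr (β := {x : G // q x (x⁻¹ * c)})
      ⟨fun xy => ⟨xy.1.1, by rw [inv_mul_eq_of_eq_mul xy.2.2.symm]; exact xy.2.1⟩,
        fun x => ⟨(x.1, x.1⁻¹ * c), x.2, mul_inv_cancel_left _ _⟩,
        fun xy => Subtype.ext (Prod.ext rfl (inv_mul_eq_of_eq_mul xy.2.2.symm)), fun x => rfl⟩,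
      Nat.card_eq_fintype_card, Fintype.card_subtype, Finset.card_filter]
    push_cast
    rfl
  rw [← ZMod.natCast_eq_natCast_iff,
    Nat.card_congr (Equiv.subtypeEquivRight (q := fun xy : G × G =>
      (IsConj g xy.1 ∧ IsConj h xy.2) ∧ xy.1 * xy.2 = c) fun _ => by tauto),
    Nat.card_congr (Equiv.subtypeEquivRight (p := fun xy : G × G =>
      IsConj g xy.1 ∧ IsConj h xy.2 ∧ xy.1 * xy.2 = c ∧ xy.1 ∈ Subgroup.centralizer (P : Set G) ∧
        xy.2 ∈ Subgroup.centralizer (P : Set G)) (q := fun xy : G × G =>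
      (IsConj g xy.1 ∧ IsConj h xy.2 ∧ xy.1 ∈ Subgroup.centralizer (P : Set G) ∧
        xy.2 ∈ Subgroup.centralizer (P : Set G)) ∧ xy.1 * xy.2 = c) fun _ => by tauto),
    key (fun x y => IsConj g x ∧ IsConj h y),
    key (fun x y => IsConj g x ∧ IsConj h y ∧ x ∈ Subgroup.centralizer (P : Set G) ∧
        y ∈ Subgroup.centralizer (P : Set G)),
    H5.sum_eq_sum_centralizer hP (fun a => by rw [nsmul_eq_mul, ZMod.natCast_self, zero_mul])
      _ fun u hu x => ?_, Finset.sum_filter]
  · refine Finset.sum_congr rfl fun x _ => ?_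
    by_cases hx : x ∈ Subgroup.centralizer (P : Set G)
    · simp [hx, mul_mem (inv_mem hx) hc]
    · simp [hx]
  · have h1 : (u * x * u⁻¹)⁻¹ * c = u * (x⁻¹ * c) * u⁻¹ := by
      have := Subgroup.mem_centralizer_iff.1 hc u⁻¹ (P.inv_mem hu)
      rw [show (u * x * u⁻¹)⁻¹ * c = u * x⁻¹ * (u⁻¹ * c) by group, this]
      group
    rw [h1, H5.isConj_conj_iff, H5.isConj_conj_iff]

end Cfsg.Agent.S0903
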