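import Cfsg.Statements.S0904
import Cfsg.Agent.H3.BlkMisc

set_option autoImplicit false
open Cfsg

namespace Cfsg.Agent.S0904

/-- Let G be a finite simple group of order p ^ a * q ^ b * r with p, q, r distinct primes. Then every Sylow r-subgroup S of G satisfies C_G(S) = S. -/
theorem result {G : Type*} [Group G] [Finite G] [IsSimpleGroup G] (p q r a b : ℕ) (hp : p.Prime) (hq : q.Prime) [Fact r.Prime] (hpq : p ≠ q) (hpr : p ≠ r) (hqr : q ≠ r) (hcard : Nat.card G = p ^ a * q ^ b * r) (S : Sylow r G) : Subgroup.centralizer (S : Set G) = (S : Subgroup G) := by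
  have hr : r.Prime := Fact.out
  have hcop : ¬ r ∣ p ^ a * q ^ b := fun h5 => by
    rcases (Nat.Prime.dvd_mul hr).mp h5 with h | h
    · exact hpr ((Nat.prime_dvd_prime_iff_eq hr hp).mp (hr.dvd_of_dvd_pow h)).symm
    · exact hqr ((Nat.prime_dvd_prime_iff_eq hr hq).mp (hr.dvd_of_dvd_pow h)).symm
  have hS : Nat.card S = r := by
    rw [S.card_eq_multiplicity, hcard, Nat.factorization_mul (mul_ne_zero (pow_ne_zero _ hp.ne_zero) (pow_ne_zero _ hq.ne_zero)) hr.ne_zero,
      Finsupp.add_apply, Nat.factorization_eq_zero_of_not_dvd hcop, hr.factorization_self]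
    simp
  have hcyc : IsCyclic S := isCyclic_of_prime_card hS
  have hle : (S : Subgroup G) ≤ Subgroup.centralizer (S : Set G) := fun x hx y hy =>
    congrArg Subtype.val (hcyc.isMulCommutative.is_comm.comm (⟨y, hy⟩ : S) ⟨x, hx⟩)
  obtain ⟨x, hx⟩ := exists_prime_orderOf_dvd_card' (G := S) r (by rw [hS])
  rw [← Subgroup.orderOf_coe] at hx
  refine (S.3 (IsPGroup.iff_card.mpr ⟨_, Nat.eq_prime_pow_of_unique_prime_dvd Nat.card_pos.ne'
    fun {s} hs hd => ?_⟩) hle)
  have := Fact.mk hs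
  obtain ⟨y, hy⟩ := exists_prime_orderOf_dvd_card' s hd
  rw [← Subgroup.orderOf_coe] at hy
  have hxy : Commute (x : G) y := y.2 x x.2
  have h1 : s ∣ p ^ a * q ^ b * r := hcard ▸ hd.trans (Subgroup.card_subgroup_dvd_card _)
  rcases (Nat.Prime.dvd_mul hs).mp h1 with h | h
  · exfalso
    rcases (Nat.Prime.dvd_mul hs).mp h with h | h
    · obtain rfl := (Nat.prime_dvd_prime_iff_eq hs hp).mp (hs.dvd_of_dvd_pow h)
      exact H3.not_commute_of_simple_paqbr hq hr hpr hqr hcard hx hy hxy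
    · obtain rfl := (Nat.prime_dvd_prime_iff_eq hs hq).mp (hs.dvd_of_dvd_pow h)
      exact H3.not_commute_of_simple_paqbr hp hr hqr hpr (by rw [hcard, mul_comm (p ^ a)]) hx hy hxy
  · exact (Nat.prime_dvd_prime_iff_eq hs hr).mp h

end Cfsg.Agent.S0904
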