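import Cfsg.Statements.S0914
import Cfsg.Agent.H5.More

set_option autoImplicit false
open Cfsg

namespace Cfsg.Agent.S0914

/-- Let χ be an irreducible character of the finite group G, p a prime and M a maximal ideal of the algebraic integers containing p. Then p does not divide the integer (Nat.card G) / χ(1) if and only if the block of χ relative to M consists of χ alone. -/
theorem result {G : Type*} [Group G] [Finite G] (p : ℕ) [Fact p.Prime] (M : Ideal Cfsg.AlgInt) (hM : Cfsg.IsPModular p M) (χ : Cfsg.IrrCharacter G) : ¬ p ∣ Nat.card G / Cfsg.charDegree (χ : G → ℂ) ↔ Cfsg.blockOf M (χ : G → ℂ) = {χ} := by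
  have := hM.2.1; have := H5.charP_res hM
  rw [H5.blockOf_eq_singleton_iff (p := p)]
  obtain ⟨m, hm⟩ := χ.2.charDegree_dvd_card
  have hd := H5.charDegree_ne_zero χ
  have hm0 : m ≠ 0 := by
    rintro rfl
    exact Nat.card_pos.ne' (hm.trans (mul_zero _))
  rw [H5.nu, hm, Nat.mul_div_cancel_left _ (Nat.pos_of_ne_zero hd), Nat.factorization_mul hd hm0,
    Finsupp.add_apply, left_eq_add, Nat.factorization_eq_zero_iff]
  simp [hM.1, hm0]

end Cfsg.Agent.S0914
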