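import Cfsg.Statements.S0918
import Cfsg.Agent.H5.Induce

set_option autoImplicit false
open Cfsg

namespace Cfsg.Agent.S0918

/-- Let P be a p-subgroup of the finite group G and H a subgroup with P·C_G(P) ≤ H ≤ N_G(P); let b be a block of H and B a block of G relative to a maximal ideal M of the algebraic integers containing p. Then b induces B if and only if, for every g ∈ G, every ξ ∈ b and every χ ∈ B, the central character of χ at g is congruent modulo the local ideal at M to the sum of ξ h / ξ 1 over the elements h of H conjugate in G to g and centralizing P. -/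
theorem result {G : Type*} [Group G] [Finite G] (p : ℕ) [Fact p.Prime] (M : Ideal Cfsg.AlgInt) (hM : Cfsg.IsPModular p M) (P H : Subgroup G) (hP : IsPGroup p P) (hPH : P ≤ H) (hCH : Subgroup.centralizer (P : Set G) ≤ H) (hHN : H ≤ Subgroup.normalizer (P : Set G)) (b : Set (Cfsg.IrrCharacter H)) (hb : Cfsg.IsPBlock M b) (B : Set (Cfsg.IrrCharacter G)) (hB : Cfsg.IsPBlock M B) : Cfsg.IsInducedBlock M H b B ↔ ∀ ξ ∈ b, ∀ χ ∈ B, ∀ g : G, Cfsg.MemLocalIdeal M (Cfsg.brauerCentralChar P H (ξ : H → ℂ) g - Cfsg.centralChar (χ : G → ℂ) g) := by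
  have := hM.2.1; have := H5.charP_res hM
  have key : ∀ (ξ : IrrCharacter H) (χ : IrrCharacter G) (g : G),
      MemLocalIdeal M (brauerCentralChar P H (ξ : H → ℂ) g - centralChar (χ : G → ℂ) g) ↔
      MemLocalIdeal M (inducedCentralChar H (ξ : H → ℂ) g - centralChar (χ : G → ℂ) g) := by
    intro ξ χ g
    have h1 : H5.trunc H (H5.br P (H5.classSum ℂ g)) ∈ H5.Zc ℂ H :=
      H5.trunc_mem_Zc_of_invAlg (H5.br_mem_invAlg hHN (H5.Zc_le_invAlg _ (H5.classSum_mem_Zc g)))
    have h2 : H5.trunc H (H5.br P (H5.classSum ℂ g)) ∈ H5.intAlg M H :=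
      H5.trunc_mem_intAlg H (H5.cut_mem_intAlg _ (H5.classSum_mem_intAlg g))
    rw [H5.memLocalIdeal_induced_iff, H5.brauerCentralChar_eq, H5.memLocalIdeal_sub_iff
      (H5.om_mem ξ.2 h1 h2) (H5.centralChar_mem χ.2 g), ← H5.lam_redA ξ.2 h1 h2, H5.redA_trunc,
      H5.redA_cut, H5.redA_classSum, H5.lam_classSum χ.2.isClassFunction,
      H5.lam_trunc_br hP hPH hHN ξ (H5.Zc_le_invAlg _ (H5.classSum_mem_Zc g))]
  simp only [key]
  exact ⟨fun h => h.2.2, fun h => ⟨hb, hB, h⟩⟩

end Cfsg.Agent.S0918
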