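import Cfsg.Statements.S0919
import Cfsg.Agent.H5.Induce

set_option autoImplicit false
open Cfsg

namespace Cfsg.Agent.S0919

/-- Let P be a p-subgroup of the finite group G and H a subgroup with P·C_G(P) ≤ H ≤ N_G(P). Then for every block b of H relative to a maximal ideal M of the algebraic integers containing p, the induced block of b in G is defined: some block B of G has its central character congruent modulo M, at every element, to the central character of b induced to G. -/
theorem result {G : Type*} [Group G] [Finite G] (p : ℕ) [Fact p.Prime] (M : Ideal Cfsg.AlgInt) (hM : Cfsg.IsPModular p M) (P H : Subgroup G) (hP : IsPGroup p P) (hPH : P ≤ H) (hCH : Subgroup.centralizer (P : Set G) ≤ H) (hHN : H ≤ Subgroup.normalizer (P : Set G)) (b : Set (Cfsg.IrrCharacter H)) (hb : Cfsg.IsPBlock M b) : Cfsg.InducedBlockDefined M H b := by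
  have := hM.2.1; have := H5.charP_res hM
  exact H5.inducedBlockDefined_of_normal hP hPH hCH hHN hb

end Cfsg.Agent.S0919
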