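import Cfsg.Statements.S0923
import Cfsg.Agent.H5.Induce

set_option autoImplicit false
open Cfsg

namespace Cfsg.Agent.S0923

/-- Brauer's Second Main Theorem, in terms of ordinary characters. Let x be a p-element of the finite group G with centralizer C, let χ lie in the block B of G and let b be a block of C that does not induce B (relative to a maximal ideal M of the algebraic integers containing p). Form the class function ϑ(c) = χ(x c) on C and its b-part (the sum over ψ ∈ b of the inner product of ϑ with ψ, times ψ). Then the b-part of ϑ vanishes at every p-regular element of C. (Equivalently, the generalized decomposition numbers of χ with respect to b are zero.) -/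
theorem result {G : Type*} [Group G] [Finite G] (p : ℕ) [Fact p.Prime] (M : Ideal Cfsg.AlgInt) (hM : Cfsg.IsPModular p M) (x : G) (hx : ∃ k : ℕ, orderOf x = p ^ k) (B : Set (Cfsg.IrrCharacter G)) (hB : Cfsg.IsPBlock M B) (χ : Cfsg.IrrCharacter G) (hχ : χ ∈ B) (b : Set (Cfsg.IrrCharacter (Subgroup.centralizer ({x} : Set G)))) (hb : Cfsg.IsPBlock M b) (hnot : ¬ Cfsg.IsInducedBlock M (Subgroup.centralizer ({x} : Set G)) b B) (y : Subgroup.centralizer ({x} : Set G)) (hy : ¬ p ∣ orderOf y) : Cfsg.blockPart b (fun c : Subgroup.centralizer ({x} : Set G) => (χ : G → ℂ) (x * (c : G))) y = 0 := by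
  have := hM.2.1; have := H5.charP_res hM
  have := Fintype.ofFinite (H5.cz x)
  let x' : H5.cz x := ⟨x, H5.self_mem_cz x⟩
  have hc : ∀ c : H5.cz x, x' * c = c * x' := fun c => Subtype.ext (H5.mem_cz.1 c.2).symm
  have h1 := H5.second_main hx hB hχ hb hnot (x' * y)
    (H5.pPart_mul_of (H5.mem_cz.1 y.2).symm hx (by rwa [Subgroup.orderOf_coe]))
  have hcl : IsClassFunction (H5.cz x) (fun c : H5.cz x => (χ : G → ℂ) (x * (c : G))) := by
    rw [H3.isClassFunction_iff]
    intro g h hgh
    obtain ⟨u, rfl⟩ := isConj_iff.1 hgh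
    refine χ.2.isClassFunction.eq_of_isConj (isConj_iff.2 ⟨u, ?_⟩)
    have := H5.mem_cz.1 u.2
    simp only [Subgroup.coe_mul, Subgroup.coe_inv]
    rw [← mul_assoc, this]
    group
  rw [H5.blockPart_eq_ev (χ.2.isClassFunction.restrict _), H5.ev_mul_single] at h1
  rw [H5.blockPart_eq_ev hcl, H5.ev_mul_single, ← h1]
  refine Finset.sum_congr rfl fun c _ => ?_
  rw [← mul_assoc c, ← hc, mul_assoc]
  rfl

end Cfsg.Agent.S0923
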