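import Cfsg.Statements.S0927
import Cfsg.Agent.H5.Height

set_option autoImplicit false
open Cfsg

namespace Cfsg.Agent.S0927

/-- Let B be a block of the finite group G relative to a maximal ideal M of the algebraic integers containing p, let y represent a defect class of B and let P be a Sylow p-subgroup of the centralizer of y. (a) If x ∈ P and χ ∈ B has height zero, then χ (x * y) is not in the local ideal at M. (b) If x lies in the centre of P, then for every χ ∈ B the central character of χ at x * y is not in the local ideal at M. -/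
theorem result {G : Type*} [Group G] [Finite G] (p : ℕ) [Fact p.Prime] (M : Ideal Cfsg.AlgInt) (hM : Cfsg.IsPModular p M) (B : Set (Cfsg.IrrCharacter G)) (hB : Cfsg.IsPBlock M B) (y : G) (hy : Cfsg.IsDefectClass M B y) (P : Sylow p (Subgroup.centralizer ({y} : Set G))) (x : Subgroup.centralizer ({y} : Set G)) (hx : x ∈ (P : Subgroup (Subgroup.centralizer ({y} : Set G)))) : (∀ χ ∈ B, Cfsg.blockHeight p B (χ : G → ℂ) = 0 → ¬ Cfsg.MemLocalIdeal M ((χ : G → ℂ) ((x : G) * y))) ∧ ((∀ w ∈ (P : Subgroup (Subgroup.centralizer ({y} : Set G))), x * w = w * x) → ∀ χ ∈ B, ¬ Cfsg.MemLocalIdeal M (Cfsg.centralChar (χ : G → ℂ) ((x : G) * y))) := by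
  have := hM.2.1; have := H5.charP_res hM
  have hP := L.isSylowIn_map_subtype P
  have hxP : (x : G) ∈ (P : Subgroup (H5.cz y)).map (H5.cz y).subtype := ⟨x, hx, rfl⟩
  refine ⟨fun χ hχ h0 => ?_, fun hc χ hχ => ?_⟩
  · exact (H5.red_ne_zero_iff.1 (H5.IsDefectClass.red_mul_ne_zero hB hy hχ h0
      (H5.mem_cz.1 x.2) (H5.isPElt_of_mem hP.isPGroup hxP))).2
  · refine (H5.lam_classSum_ne_zero_iff χ _).1
      (H5.IsDefectClass.lam_mul_ne_zero hB hy hP hxP ?_ hχ)
    rintro _ ⟨w, hw, rfl⟩
    exact H5.mem_cz.2 (congrArg Subtype.val (hc w hw)).symm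

end Cfsg.Agent.S0927
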