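import Cfsg.Statements.S0935
import Cfsg.Agent.H5.Reg

set_option autoImplicit false
open Cfsg

namespace Cfsg.Agent.S0935

/-- Let H be a subgroup of the finite group G and χ an irreducible character of G whose restriction to H is irreducible; fix a maximal ideal M of the algebraic integers containing the prime p and suppose χ and its restriction have height zero in their blocks B and b. If e is a block of H whose induced block is defined, then e induces B if and only if e = b. -/
theorem result {G : Type*} [Group G] [Finite G] (p : ℕ) [Fact p.Prime] (M : Ideal Cfsg.AlgInt) (hM : Cfsg.IsPModular p M) (H : Subgroup G) (χ : Cfsg.IrrCharacter G) (hres : Cfsg.IsIrrCharacter H (fun h : H => (χ : G → ℂ) h)) (hχ0 : Cfsg.blockHeight p (Cfsg.blockOf M (χ : G → ℂ)) (χ : G → ℂ) = 0) (hψ0 : Cfsg.blockHeight p (Cfsg.blockOf M (fun h : H => (χ : G → ℂ) h)) (fun h : H => (χ : G → ℂ) h) = 0) (e : Set (Cfsg.IrrCharacter H)) (he : Cfsg.InducedBlockDefined M H e) : Cfsg.IsInducedBlock M H e (Cfsg.blockOf M (χ : G → ℂ)) ↔ e = Cfsg.blockOf M (fun h : H => (χ : G → ℂ) h) := by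
  have := hM.2.1; have := H5.charP_res hM
  exact H5.InducedBlockDefined.iff_of_restrict he χ hres hχ0 hψ0

end Cfsg.Agent.S0935
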