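import Cfsg.Statements.S0940
import Cfsg.Agent.H3.Kuls

set_option autoImplicit false
open Cfsg

namespace Cfsg.Agent.S0940

/-- Let G be a finite group and M a maximal ideal of the algebraic integers containing the prime p. For every p-regular g, the idempotent coefficient of the principal block at g (the inverse of the group order times the sum over χ in the principal block of χ 1 * conj (χ g)) is congruent modulo the local ideal at M to N / R, where N is the number of pairs (x, y) with x of p-power order, y of order prime to p and x * y = g, and R is the number of elements of G of order prime to p. -/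
theorem result {G : Type*} [Group G] [Finite G] (p : ℕ) [Fact p.Prime] (M : Ideal Cfsg.AlgInt) (hM : Cfsg.IsPModular p M) (g : G) (hg : ¬ p ∣ orderOf g) : Cfsg.MemLocalIdeal M (Cfsg.blockCoeff (Cfsg.principalBlock M G) g - (Nat.card {xy : G × G // (∃ k : ℕ, orderOf xy.1 = p ^ k) ∧ ¬ p ∣ orderOf xy.2 ∧ xy.1 * xy.2 = g} : ℂ) / (Nat.card {y : G // ¬ p ∣ orderOf y} : ℂ)) := by
    have := hM.2.1; have := H5.charP_res hM
    have h1 := H3.red_card_pReg_ne_zero (M := M) (G := G) (p := p)
    rw [H5.memLocalIdeal_sub_iff (a := blockCoeff _ _) ((H5.IsPBlock.isUnion H5.isPBlock_principalBlock).fA_mem g)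
      (H5.div_mem_of_red_ne_zero (natCast_mem _ _) h1), H5.red_div (natCast_mem _ _) h1,
      eq_div_iff h1, H5.red_natCast, H5.red_natCast]
    exact H3.kulshammer hg

end Cfsg.Agent.S0940
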