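import Cfsg.Statements.S0942
import Cfsg.Agent.H3.Princ

set_option autoImplicit false
open Cfsg

namespace Cfsg.Agent.S0942

/-- Let u be a p-element of the finite group G, let v lie in the largest normal subgroup of C_G(u) of order prime to p, and let χ belong to the principal block (relative to a maximal ideal M of the algebraic integers containing p). Then χ (u * v) = χ u. -/
theorem result {G : Type*} [Group G] [Finite G] (p : ℕ) [Fact p.Prime] (M : Ideal Cfsg.AlgInt) (hM : Cfsg.IsPModular p M) (u : G) (hu : ∃ k : ℕ, orderOf u = p ^ k) (v : G) (hv : v ∈ Cfsg.centralizerPPrimeCore p u) (χ : Cfsg.IrrCharacter G) (hχ : χ ∈ Cfsg.principalBlock M G) : (χ : G → ℂ) (u * v) = (χ : G → ℂ) u := by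
  have := hM.2.1; have := H5.charP_res hM
  obtain ⟨v, hv, rfl⟩ := hv
  exact H3.apply_mul_eq_of_mem_principalBlock hu _ (H1.not_dvd_card_pPrimeCore p _) hv hχ

end Cfsg.Agent.S0942
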