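import Cfsg.Statements.S0944
import Cfsg.Agent.H3.Integral

set_option autoImplicit false
open Cfsg

namespace Cfsg.Agent.S0944

/-- Let χ be an irreducible character of the finite group G and u an involution. Then χ u is a rational integer n with n ≡ χ 1 (mod 2). -/
theorem result {G : Type*} [Group G] [Finite G] (χ : Cfsg.IrrCharacter G) (u : G) (hu : orderOf u = 2) : ∃ n : ℤ, (χ : G → ℂ) u = (n : ℂ) ∧ (2 : ℤ) ∣ (Cfsg.charDegree (χ : G → ℂ) : ℤ) - n := by
  obtain ⟨n, ε, h1, hε, h⟩ := χ.2.isCharacter.exists_zpow_eq_sum u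
  have h2 := h 1
  simp only [zpow_one] at h2
  have h3 : ∀ i, ∃ m : ℤ, ε i = m ∧ (2 : ℤ) ∣ 1 - m := fun i => by
    have := hε i
    rw [hu, sq_eq_one_iff] at this
    rcases this with h | h
    · exact ⟨1, by simp [h], by simp⟩
    · exact ⟨-1, by simp [h], by norm_num⟩
  choose m hm hm' using h3
  refine ⟨∑ i, m i, by rw [h2]; push_cast; exact Finset.sum_congr rfl fun i _ => hm i, ?_⟩
  rw [H3.charDegree_eq h1]
  have := Finset.dvd_sum (s := Finset.univ) fun i _ => hm' i
  simpa [Finset.sum_sub_distrib] using this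

end Cfsg.Agent.S0944
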