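import Cfsg.Statements.S0948
import Cfsg.Agent.H3.Klein

set_option autoImplicit false
open Cfsg

namespace Cfsg.Agent.S0948

/-- Let the finite group G have a Sylow 2-subgroup P that is a Klein four-group, suppose all involutions of G are conjugate, and fix a maximal ideal M of the algebraic integers containing 2. Then the principal block consists of exactly four irreducible characters, the principal character and ζ₂, ζ₃, ζ₄, and there is a sign ε such that for every involution z: ζ₂ z = 1, ζ₃ z = ε, ζ₄ z = -1; moreover ζ₂ 1 ≡ 1, ζ₃ 1 ≡ ε, ζ₄ 1 ≡ -1 (mod 4), and 1 + ζ₂ y + ε ζ₃ y - ζ₄ y = 0 for every y of odd order. -/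
theorem result {G : Type*} [Group G] [Finite G] (M : Ideal Cfsg.AlgInt) (hM : Cfsg.IsPModular 2 M) (P : Sylow 2 G) (hP : IsKleinFour (P : Subgroup G)) (hone : ∀ s t : G, orderOf s = 2 → orderOf t = 2 → IsConj s t) : ∃ ζ₂ ζ₃ ζ₄ : Cfsg.IrrCharacter G, ∃ ε : ℤ, (ε = 1 ∨ ε = -1) ∧ (ζ₂ : G → ℂ) ≠ (fun _ => 1) ∧ (ζ₃ : G → ℂ) ≠ (fun _ => 1) ∧ ζ₂ ≠ ζ₃ ∧ ζ₂ ≠ ζ₄ ∧ ζ₃ ≠ ζ₄ ∧ Cfsg.principalBlock M G = {χ : Cfsg.IrrCharacter G | (χ : G → ℂ) = (fun _ => 1) ∨ χ = ζ₂ ∨ χ = ζ₃ ∨ χ = ζ₄} ∧ (∀ z : G, orderOf z = 2 → (ζ₂ : G → ℂ) z = 1 ∧ (ζ₃ : G → ℂ) z = (ε : ℂ) ∧ (ζ₄ : G → ℂ) z = -1) ∧ (4 : ℤ) ∣ (Cfsg.charDegree (ζ₂ : G → ℂ) : ℤ) - 1 ∧ (4 : ℤ) ∣ (Cfsg.charDegree (ζ₃ : G → ℂ) : ℤ) - ε ∧ (4 : ℤ) ∣ (Cfsg.charDegree (ζ₄ : G → ℂ) : ℤ) + 1 ∧ ∀ y : G, Odd (orderOf y) → 1 + (ζ₂ : G → ℂ) y + (ε : ℂ) * (ζ₃ : G → ℂ) y - (ζ₄ : G → ℂ) y = 0 := by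
    have := hM.2.1; have := H5.charP_res hM
    obtain ⟨δ, a, b, c, h1, h2, h3, h4, h5, h6, h7, h8, hm, hδ, hs⟩ :=
      H3.kleinFour_principal' (M := M) P hP hone
    have ha := hδ a ((hm a).mpr (by simp))
    have hb := hδ b ((hm b).mpr (by simp))
    have hc := hδ c ((hm c).mpr (by simp))
    refine ⟨a, b, c, δ b, hb.1, fun h => h1 (Subtype.ext h), fun h => h2 (Subtype.ext h), h4, h5, h6,
      Set.ext fun χ => (hm χ).trans (or_congr_left Subtype.ext_iff), fun z hz => ⟨?_, ?_, ?_⟩,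
      h7 ▸ ha.2.2, hb.2.2, by simpa [h8] using hc.2.2, fun y hy => ?_⟩
    · rw [ha.2.1 z (hz ▸ dvd_rfl), h7, Int.cast_one]
    · rw [hb.2.1 z (hz ▸ dvd_rfl)]
    · rw [hc.2.1 z (hz ▸ dvd_rfl), h8]; simp
    · have := hs y (Nat.two_dvd_ne_zero.mpr (Nat.odd_iff.mp hy))
      rw [h7, h8] at this
      rw [← this]; push_cast; ring

end Cfsg.Agent.S0948
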