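import Cfsg.Statements.S0949
import Cfsg.Agent.H5.Homocyclic

set_option autoImplicit false
open Cfsg

namespace Cfsg.Agent.S0949

/-- Let the finite group G have a Sylow 2-subgroup P isomorphic to Z/2^m × Z/2^m with m ≥ 2, and suppose G has no nontrivial normal subgroup of odd order. Then P is normal in G, C_G(P) = P, and the index of P is 1 or 3. -/
theorem result {G : Type*} [Group G] [Finite G] (P : Sylow 2 G) (m : ℕ) (hm : 2 ≤ m) (e : (P : Subgroup G) ≃* Multiplicative (ZMod (2 ^ m) × ZMod (2 ^ m))) (hO : ∀ N : Subgroup G, N.Normal → Odd (Nat.card N) → N = ⊥) : (P : Subgroup G).Normal ∧ Subgroup.centralizer (P : Set G) = (P : Subgroup G) ∧ ((P : Subgroup G).index = 1 ∨ (P : Subgroup G).index = 3) := by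
  refine H5.brauer_homocyclic P (H3.RankTwo.of_equiv e (H3.rankTwo_homocyclic m)) ?_
    (x := e.symm (Multiplicative.ofAdd (1, 0))) ?_ (H1.pPrimeCore_eq_bot_iff.2 fun N hN hc =>
      hO N hN (Nat.coprime_two_right.1 hc))
  · rw [Nat.card_congr e.toEquiv]
    show 16 ∣ Nat.card (ZMod (2 ^ m) × ZMod (2 ^ m))
    rw [Nat.card_prod, Nat.card_zmod]
    exact Nat.mul_dvd_mul (pow_dvd_pow 2 hm) (pow_dvd_pow 2 hm)
  · rw [← map_mul, Ne, MulEquiv.map_eq_one_iff]
    intro h
    have h1 : ((2 : ℕ) : ZMod (2 ^ m)) = 0 := by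
      have := congrArg (fun x => (Multiplicative.toAdd x).1) h
      simpa [one_add_one_eq_two] using this
    have h2 := Nat.le_of_dvd two_pos ((ZMod.natCast_eq_zero_iff _ _).1 h1)
    have h3 : 2 ^ 2 ≤ 2 ^ m := Nat.pow_le_pow_right two_pos hm
    omega

end Cfsg.Agent.S0949
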