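import Cfsg.Statements.S0951
import Cfsg.Agent.H3.BSQ8

set_option autoImplicit false
open Cfsg

namespace Cfsg.Agent.S0951

/-- Let S be a Sylow 2-subgroup of the finite group G isomorphic to the quaternion group of order 8. Suppose G has no nontrivial normal subgroup of odd order and G ≠ S. Then, relative to any maximal ideal M of the algebraic integers containing 2, the principal block of G consists of exactly 7 irreducible characters. -/
theorem result {G : Type*} [Group G] [Finite G] (M : Ideal Cfsg.AlgInt) (hM : Cfsg.IsPModular 2 M) (S : Sylow 2 G) (e : (S : Subgroup G) ≃* QuaternionGroup 2) (hO : ∀ N : Subgroup G, N.Normal → Odd (Nat.card N) → N = ⊥) (hG : (S : Subgroup G) ≠ ⊤) : Nat.card (Cfsg.principalBlock M G) = 7 := by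
    classical
    have := hM.2.1; have := H5.charP_res hM
    obtain ⟨z, h⟩ := H3.exists_isQ8 e
    have hn : ¬HasNormalPComplement 2 G := fun hc => by
      obtain ⟨N, hN, hc'⟩ := H3.exists_complement_of_hasNormalPComplement hc S
      rw [hO N hN (Nat.odd_iff.mpr (Nat.two_dvd_ne_zero.mp (hc'.index_eq_card ▸ S.not_dvd_index))),
        Subgroup.isComplement'_bot_left] at hc'
      exact hG hc'
    rw [← (h.principal (M := M) hn).1, Nat.card_eq_fintype_card, Fintype.card_subtype]

end Cfsg.Agent.S0951
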