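import Cfsg.Statements.S0957
import Cfsg.Agent.H5.Defect

set_option autoImplicit false
open Cfsg

namespace Cfsg.Agent.S0957

/-- Let P be a Sylow p-subgroup of the finite group G, let g, h ∈ G and let p ^ d be the order of a Sylow p-subgroup of the centralizer of g. Then the number of pairs (y, z) with y conjugate to g, z conjugate to h and z * y⁻¹ ∈ P is divisible by the order of P divided by p ^ d. -/
theorem result {G : Type*} [Group G] [Finite G] (p : ℕ) [Fact p.Prime] (P : Sylow p G) (g h : G) (S : Sylow p (Subgroup.centralizer ({g} : Set G))) : Nat.card P / Nat.card S ∣ Nat.card {yz : G × G // IsConj g yz.1 ∧ IsConj h yz.2 ∧ yz.2 * yz.1⁻¹ ∈ (P : Subgroup G)} := by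
  classical
  let X := {yz : G × G // IsConj g yz.1 ∧ IsConj h yz.2 ∧ yz.2 * yz.1⁻¹ ∈ (P : Subgroup G)}
  let act : MulAction (P : Subgroup G) X :=
    { smul := fun u x => ⟨((u : G) * x.1.1 * (u : G)⁻¹, (u : G) * x.1.2 * (u : G)⁻¹),
        (H5.isConj_conj_iff _ _ _).2 x.2.1, (H5.isConj_conj_iff _ _ _).2 x.2.2.1, by
          have := mul_mem (mul_mem u.2 x.2.2.2) (inv_mem u.2)
          convert this using 1
          group⟩
      one_smul := fun x => Subtype.ext (Prod.ext
        (show ((1 : (P : Subgroup G)) : G) * x.1.1 * ((1 : (P : Subgroup G)) : G)⁻¹ = _ by simp)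
        (show ((1 : (P : Subgroup G)) : G) * x.1.2 * ((1 : (P : Subgroup G)) : G)⁻¹ = _ by simp))
      mul_smul := fun u v x => Subtype.ext (Prod.ext
        (show ((u * v : (P : Subgroup G)) : G) * x.1.1 * ((u * v : (P : Subgroup G)) : G)⁻¹ =
          (u : G) * ((v : G) * x.1.1 * (v : G)⁻¹) * (u : G)⁻¹ by simp [mul_assoc])
        (show ((u * v : (P : Subgroup G)) : G) * x.1.2 * ((u * v : (P : Subgroup G)) : G)⁻¹ =
          (u : G) * ((v : G) * x.1.2 * (v : G)⁻¹) * (u : G)⁻¹ by simp [mul_assoc])) }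
  have := Fintype.ofFinite X
  have : Fintype (MulAction.orbitRel.Quotient (P : Subgroup G) X) := Fintype.ofFinite _
  change _ ∣ Nat.card X
  rw [Nat.card_congr (MulAction.selfEquivSigmaOrbits (P : Subgroup G) X), Nat.card_sigma]
  refine Finset.dvd_sum fun q _ => ?_
  rw [Nat.card_coe_set_eq, ← MulAction.index_stabilizer]
  set x : X := q.out
  obtain ⟨t, ht⟩ := isConj_iff.1 x.2.1
  have hS := H5.isSylowIn_cj (L.isSylowIn_map_subtype S) t
  rw [H5.cj_cz, ht] at hS
  have h1 := hS.card_dvd (Q := (MulAction.stabilizer (P : Subgroup G) x).map (P : Subgroup G).subtype)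
    ((P.isPGroup'.to_subgroup _).map _) (by
      rintro _ ⟨u, hu, rfl⟩
      have h2 : (u : G) * x.1.1 * (u : G)⁻¹ = x.1.1 := congrArg (fun y : X => y.1.1) hu
      exact H5.mem_cz.2 (mul_inv_eq_iff_eq_mul.1 h2))
  rw [H5.card_cj, Subgroup.card_map_of_injective (Subgroup.subtype_injective _),
    Subgroup.card_map_of_injective (Subgroup.subtype_injective _)] at h1
  obtain ⟨m, hm⟩ := h1
  have h2 := (MulAction.stabilizer (P : Subgroup G) x).card_mul_index
  change Nat.card (P : Subgroup G) / Nat.card (S : Subgroup (H5.cz g)) ∣ _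
  rw [← h2, hm, Nat.mul_div_mul_left _ _ Nat.card_pos]
  have hdvd : m ∣ (MulAction.stabilizer (P : Subgroup G) x).index := by
    have h3 := (L.isSylowIn_top P).card_dvd (L.isSylowIn_map_subtype S).isPGroup le_top
    rw [Subgroup.card_map_of_injective (Subgroup.subtype_injective _), ← h2, hm] at h3
    exact Nat.dvd_of_mul_dvd_mul_left Nat.card_pos h3
  exact Nat.div_dvd_of_dvd hdvd

end Cfsg.Agent.S0957
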