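import Cfsg.Statements.S0968
import Cfsg.Agent.H3.Central

set_option autoImplicit false
open Cfsg

namespace Cfsg.Agent.S0968

/-- Let P be a p-subgroup of the finite group G with P ⊔ C_G(P) = G, and let B be a block with defect group P relative to a maximal ideal M of the algebraic integers containing p. Then there is exactly one θ ∈ B with θ x = θ 1 for all x ∈ P; for this θ the exponent of p in θ(1) equals the exponent of p in the index of P; and the number of members of B equals the number of conjugacy classes of P. -/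
theorem result {G : Type*} [Group G] [Finite G] (p : ℕ) [Fact p.Prime] (M : Ideal Cfsg.AlgInt) (hM : Cfsg.IsPModular p M) (P : Subgroup G) (hP : IsPGroup p P) (hG : P ⊔ Subgroup.centralizer (P : Set G) = ⊤) (B : Set (Cfsg.IrrCharacter G)) (hB : Cfsg.IsPBlock M B) (hD : Cfsg.IsDefectGroup p M B P) : (∃! θ : Cfsg.IrrCharacter G, θ ∈ B ∧ ∀ x ∈ P, (θ : G → ℂ) x = (θ : G → ℂ) 1) ∧ (∀ θ ∈ B, (∀ x ∈ P, (θ : G → ℂ) x = (θ : G → ℂ) 1) → (Cfsg.charDegree (θ : G → ℂ)).factorization p = P.index.factorization p) ∧ Nat.card B = Nat.card (ConjClasses P) := by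
    have := hM.2.1; have := H5.charP_res hM
    have := H3.normal_of_sup_centralizer hG
    have hf := QuotientGroup.mk'_surjective P
    have hk := QuotientGroup.ker_mk' P
    have hc := H3.le_cz_of_sup_centralizer hP hG
    obtain ⟨θ, hθ⟩ := H3.preimage_eq_singleton _ hf (by rwa [hk]) hB (by rwa [hk])
    refine ⟨⟨H3.inflIrr _ hf θ, ⟨hθ.ge rfl, fun x hx => (H3.mem_range_inflIrr _ hf).mp ⟨θ, rfl⟩ x
      (hk.ge hx)⟩, fun ψ hψ => ?_⟩, fun ψ hψ h => ?_, ?_⟩
    · obtain ⟨φ, rfl⟩ := H3.exists_inflIrr_eq _ hf (ψ := ψ) (by rw [hk]; exact hψ.2)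
      rw [show φ = θ from hθ.le hψ.1]
    · obtain ⟨φ, rfl⟩ := H3.exists_inflIrr_eq _ hf (ψ := ψ) (by rw [hk]; exact h)
      rw [Subgroup.index_eq_card, ← H3.nu_eq_of_inflIrr_mem _ hf hB (by rwa [hk]) hψ]
      simp [H5.nu, charDegree]
    · rw [H3.card_block_of_sup_centralizer hG hB hD, H3.card_irr_eq_card_conjClasses]

end Cfsg.Agent.S0968
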