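import Cfsg.Statements.S0972
import Cfsg.Agent.H3.Height0

set_option autoImplicit false
open Cfsg

namespace Cfsg.Agent.S0972

/-- Let B be a block of the finite group G (relative to a maximal ideal M of the algebraic integers containing the prime p) with a defect group P that is normal in G. Then P is commutative if and only if every member of B has height zero. -/
theorem result {G : Type*} [Group G] [Finite G] (p : ℕ) [Fact p.Prime] (M : Ideal Cfsg.AlgInt) (hM : Cfsg.IsPModular p M) (B : Set (Cfsg.IrrCharacter G)) (hB : Cfsg.IsPBlock M B) (P : Subgroup G) [P.Normal] (hP : Cfsg.IsDefectGroup p M B P) : (∀ a ∈ P, ∀ c ∈ P, a * c = c * a) ↔ ∀ χ ∈ B, Cfsg.blockHeight p B (χ : G → ℂ) = 0 := by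
    have := hM.2.1; have := H5.charP_res hM
    refine ⟨fun h χ hχ => ?_, H3.commute_of_height_zero hB hP⟩
    rw [H5.blockHeight_eq, ← H3.factorization_index_defectGroup hB hP, Nat.sub_eq_zero_iff_le]
    exact (Nat.factorization_le_iff_dvd (H5.charDegree_ne_zero χ) Subgroup.index_ne_zero_of_finite).mpr
      (H4.degree_dvd_index_of_abelian_normal χ.2 P h χ.2.cast_charDegree.symm) p

end Cfsg.Agent.S0972
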