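import Cfsg.Statements.S1176
import Cfsg.Agent.H6.Basic

set_option autoImplicit false
open Cfsg

namespace Cfsg.Agent.S1176

set_option linter.unusedVariables false
open Cfsg.Agent.H6


/-- Let x₀ be an involution of the finite group G and D its conjugacy class. Assume (a) for each x ∈ D the subgroup W(x) generated by the members of D commuting with x is a 2-group of nilpotency class at most 2, and (b) the product of two distinct commuting members of D again lies in D. Then for all x, y ∈ D, if xy has even order greater than 2, its order is 4. -/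
theorem result {G : Type*} [Group G] [Finite G] (x₀ : G) (hx₀ : orderOf x₀ = 2) (ha : ∀ x : G, IsConj x₀ x → IsPGroup 2 ↥(Subgroup.closure {y : G | IsConj x₀ y ∧ Commute y x}) ∧ ⁅⁅Subgroup.closure {y : G | IsConj x₀ y ∧ Commute y x}, Subgroup.closure {y : G | IsConj x₀ y ∧ Commute y x}⁆, Subgroup.closure {y : G | IsConj x₀ y ∧ Commute y x}⁆ = ⊥) (hb : ∀ x y : G, IsConj x₀ x → IsConj x₀ y → x ≠ y → Commute x y → IsConj x₀ (x * y)) (x y : G) (hx : IsConj x₀ x) (hy : IsConj x₀ y) (heven : Even (orderOf (x * y))) (hgt : 2 < orderOf (x * y)) : orderOf (x * y) = 4 := by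
  have ord : ∀ u : G, IsConj x₀ u → u * u = 1 := by
    intro u hu
    obtain ⟨c, rfl⟩ := isConj_iff.1 hu
    exact conj_mul_self (mul_self_of_orderOf_two hx₀) c
  have hx2 := ord x hx
  have hy2 := ord y hy
  obtain ⟨w, -, hw2, hwx, hwy, d, -, hd⟩ := exists_central_involution_of_even hx2 hy2 heven
  have hwxD : IsConj x₀ (w * x) := by
    rcases hd with hd | hd
    · exact hx.trans (isConj_iff.2 ⟨d, hd⟩)
    · exact hy.trans (isConj_iff.2 ⟨d, hd⟩)
  have hwD : IsConj x₀ w := by
    have := hb (w * x) x hwxD hx (by simpa using ne_one_of_orderOf_two hw2)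
      (hwx.mul_left (Commute.refl x))
    rwa [mul_assoc, hx2, mul_one] at this
  have h2 := (ha w hwD).2
  have hxW : x ∈ Subgroup.closure {y : G | IsConj x₀ y ∧ Commute y w} :=
    Subgroup.subset_closure ⟨hx, hwx.symm⟩
  have hyW : y ∈ Subgroup.closure {y : G | IsConj x₀ y ∧ Commute y w} :=
    Subgroup.subset_closure ⟨hy, hwy.symm⟩
  have h3 := Subgroup.commutator_mem_commutator (Subgroup.commutator_mem_commutator hxW hyW) hxW
  rw [h2, Subgroup.mem_bot, commutatorElement_eq_one_iff_commute, commutatorElement_def,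
    inv_eq_of_mul_self hx2, inv_eq_of_mul_self hy2] at h3
  have h4 := inverts_pow (inverts_mul_left hx2 hy2) 2
  have h5 : (x * y) ^ 2 = x * y * x * y := by rw [pow_two]; group
  rw [← h5] at h3
  rw [commute_iff_conj_eq.1 h3.symm] at h4
  have h6 : (x * y) ^ 2 ^ 2 = 1 := by
    rw [show 2 ^ 2 = 2 + 2 by norm_num, pow_add]
    nth_rewrite 1 [h4]
    simp
  obtain ⟨j, hj, hj'⟩ := (Nat.dvd_prime_pow Nat.prime_two).1 (orderOf_dvd_of_pow_eq_one h6)
  rw [hj'] at hgt ⊢
  interval_cases j <;> omega

end Cfsg.Agent.S1176
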