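import Cfsg.Statements.S1177
import Cfsg.Agent.H6.Basic

set_option autoImplicit false
open Cfsg

namespace Cfsg.Agent.S1177

set_option linter.unusedVariables false
open Cfsg.Agent.H6


/-- Let A be a nontrivial elementary abelian 2-subgroup of a finite group G which is a T.I. set (each conjugate of A meets A trivially or equals A) and which does not commute elementwise with any conjugate of A other than A itself. Then for every a ∈ A, a ≠ 1, every conjugate of A contained in C_G(a) is equal to A (A is weakly closed in C_G(a)). -/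
theorem result {G : Type*} [Group G] [Finite G] (A : Subgroup G) (hA : Cfsg.IsElementaryAbelian 2 A) (hA1 : A ≠ ⊥) (hTI : ∀ g : G, A.map (MulAut.conj g).toMonoidHom ⊓ A = ⊥ ∨ A.map (MulAut.conj g).toMonoidHom = A) (hb : ∀ g : G, (∀ a ∈ A, ∀ b ∈ A.map (MulAut.conj g).toMonoidHom, a * b = b * a) → A.map (MulAut.conj g).toMonoidHom = A) (a : G) (ha : a ∈ A) (ha1 : a ≠ 1) (g : G) (hg : A.map (MulAut.conj g).toMonoidHom ≤ Subgroup.centralizer ({a} : Set G)) : A.map (MulAut.conj g).toMonoidHom = A := by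
  set B := cj A g with hB
  have comm : ∀ x ∈ A, ∀ y ∈ A, x * y = y * x := fun x hx y hy =>
    congrArg Subtype.val (hA.1.is_comm.comm (⟨x, hx⟩ : A) ⟨y, hy⟩)
  have sqA : ∀ x ∈ A, x * x = 1 := fun x hx => by rw [← pow_two]; exact hA.2 x hx
  -- centralizers of nontrivial elements normalize
  have key : ∀ x ∈ A, x ≠ 1 → ∀ c : G, Commute c x → c ∈ Subgroup.normalizer (A : Set G) := by
    intro x hx hx1 c hc
    rcases hTI c with h | h
    · exfalso; apply hx1
      rw [← Subgroup.mem_bot, ← h]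
      refine ⟨?_, hx⟩
      have := conj_mem_cj c hx
      rwa [commute_iff_conj_eq.1 hc] at this
    · exact cj_eq_iff_mem_normalizer.1 h
  have keyB : ∀ x ∈ B, x ≠ 1 → ∀ c : G, Commute c x → c ∈ Subgroup.normalizer (B : Set G) := by
    intro x hx hx1 c hc
    rw [hB, ← cj_normalizer, mem_cj]
    refine key _ (mem_cj.1 hx) (fun h => hx1 ?_) _ ?_
    · calc x = g * (g⁻¹ * x * g) * g⁻¹ := by group
        _ = 1 := by rw [h]; group
    · simpa using hc.conj g⁻¹
  have hBA : B ≤ Subgroup.normalizer (A : Set G) := fun b hb =>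
    key a ha ha1 b (mem_centralizer_singleton.1 (hg hb))
  by_contra hne
  have hdisj : B ⊓ A = ⊥ := (hTI g).resolve_right hne
  -- an element of `A` commuting with some nontrivial element of `B` commutes with all of `B`
  have cent : ∀ x ∈ A, ∀ b ∈ B, b ≠ 1 → Commute x b → ∀ b' ∈ B, Commute x b' := by
    intro x hx b hb hb1 hc b' hb'
    have h1 : x * b' * x⁻¹ * b'⁻¹ ∈ B ⊓ A := by
      refine ⟨B.mul_mem (conj_mem_of_mem_normalizer (keyB b hb hb1 x hc) hb') (B.inv_mem hb'), ?_⟩
      have := A.mul_mem hx (conj_mem_of_mem_normalizer (hBA hb') (A.inv_mem hx))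
      simpa [mul_assoc] using this
    rw [hdisj, Subgroup.mem_bot, mul_inv_eq_one] at h1
    exact commute_iff_conj_eq.2 h1
  apply hne
  apply hb g
  intro x hx
  by_contra hx0
  have sqB : ∀ b ∈ B, b * b = 1 := by
    intro b hb
    obtain ⟨y, hy, rfl⟩ := mem_cj'.1 hb
    exact conj_mul_self (sqA y hy) g
  set A0 := A ⊓ Subgroup.centralizer (B : Set G) with hA0
  have hmem : ∀ b : B, x * ((b : G) * x * (b : G)⁻¹) ∈ A0 := by
    intro ⟨b, hb⟩
    have h1 : b * x * b⁻¹ ∈ A := conj_mem_of_mem_normalizer (hBA hb) hx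
    refine Subgroup.mem_inf.2 ⟨A.mul_mem hx h1, ?_⟩
    show x * (b * x * b⁻¹) ∈ _
    by_cases hb1 : b = 1
    · subst hb1; simp [sqA x hx]
    · rw [Subgroup.mem_centralizer_iff]
      intro b' hb'
      refine (cent _ (A.mul_mem hx h1) b hb hb1 ?_ b' hb').symm
      rw [Commute.symm_iff, commute_iff_conj_eq]
      calc b * (x * (b * x * b⁻¹)) * b⁻¹ = (b * x * b⁻¹) * ((b * b) * x * (b * b)⁻¹) := by group
        _ = _ := by rw [sqB b hb, comm _ hx _ h1]; group
  have hinj : Function.Injective (fun b : B => (⟨_, hmem b⟩ : A0)) := by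
    intro ⟨b, hb⟩ ⟨b', hb'⟩ h
    have h1 : b * x * b⁻¹ = b' * x * b'⁻¹ := mul_left_cancel (congrArg Subtype.val h)
    by_contra hbb
    apply hx0
    refine cent x hx (b'⁻¹ * b) (B.mul_mem (B.inv_mem hb') hb) (fun h2 => hbb ?_) ?_
    · exact Subtype.ext (inv_mul_eq_one.1 h2).symm
    · rw [Commute.symm_iff, commute_iff_conj_eq]
      calc b'⁻¹ * b * x * (b'⁻¹ * b)⁻¹ = b'⁻¹ * (b * x * b⁻¹) * b' := by group
        _ = x := by rw [h1]; group
  have hcard := Nat.card_le_card_of_injective _ hinj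
  rw [hB, card_cj] at hcard
  have : A0 = A := Subgroup.eq_of_le_of_card_ge inf_le_left hcard
  have hxA0 : x ∈ A0 := this ▸ hx
  exact hx0 fun b hb => (Subgroup.mem_centralizer_iff.1 hxA0.2 b hb).symm

end Cfsg.Agent.S1177
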