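import Cfsg.Statements.S1178
import Cfsg.Agent.H6.Basic

set_option autoImplicit false
open Cfsg

namespace Cfsg.Agent.S1178

set_option linter.unusedVariables false
open Cfsg.Agent.H6


/-- Let A be a subgroup of a Sylow 2-subgroup S of the finite group G which is weakly closed in S. If a conjugate g A g⁻¹ commutes elementwise with A, then g A g⁻¹ = A. -/
theorem result {G : Type*} [Group G] [Finite G] (S : Sylow 2 G) (A : Subgroup G) (hW : Cfsg.IsWeaklyClosed A (S : Subgroup G)) (g : G) (hc : ∀ a ∈ A, ∀ b ∈ A.map (MulAut.conj g).toMonoidHom, a * b = b * a) : A.map (MulAut.conj g).toMonoidHom = A := by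
  have hA : IsPGroup 2 A := S.2.to_le hW.1
  have hB : IsPGroup 2 (cj A g) := isPGroup_cj hA g
  have hle : A ≤ Subgroup.normalizer (cj A g : Set G) := by
    refine le_trans ?_ (centralizer_le_normalizer' _)
    intro a ha
    rw [Subgroup.mem_centralizer_iff]
    intro b hb
    exact (hc a ha b hb).symm
  obtain ⟨x, hx⟩ := exists_conj_mem_sylow (isPGroup_sup_of_le_normalizer hA hB hle) S
  have h1 : cj A x = A := hW.2 x (cj_le_iff.2 fun a ha => hx a (Subgroup.mem_sup_left ha))
  have h2 : cj A (x * g) = A := hW.2 _ (by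
    rw [← cj, cj_mul]
    exact cj_le_iff.2 fun a ha => hx a (Subgroup.mem_sup_right ha))
  apply cj_injective x
  rw [← cj_mul, h1, h2]

end Cfsg.Agent.S1178
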