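import Cfsg.Statements.S1181
import Cfsg.Agent.H6.Isolated

set_option autoImplicit false
open Cfsg

namespace Cfsg.Agent.S1181

open Cfsg.Agent.H6


/-- Let z be an isolated involution of the finite group G and N a normal subgroup with z ∉ N. Then the centralizer of zN in G/N is the image of C_G(z), and zN is an isolated involution of G/N. -/
theorem result {G : Type*} [Group G] [Finite G] (z : G) (hz : Cfsg.IsIsolatedInvolution z) (N : Subgroup G) [N.Normal] (hzN : z ∉ N) : Subgroup.centralizer ({(QuotientGroup.mk z : G ⧸ N)} : Set (G ⧸ N)) = (Subgroup.centralizer ({z} : Set G)).map (QuotientGroup.mk' N) ∧ Cfsg.IsIsolatedInvolution (QuotientGroup.mk z : G ⧸ N) := by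
  refine ⟨?_, Iso.quotient hz N hzN⟩
  ext x
  obtain ⟨g, rfl⟩ := QuotientGroup.mk_surjective x
  rw [mem_centralizer_singleton]
  constructor
  · intro hc
    obtain ⟨d, hd, hdz⟩ := Iso.exists_conj hz g
    have h1 : z * (g * z * g⁻¹) ∈ N := by
      rw [← QuotientGroup.eq_one_iff]
      simp only [QuotientGroup.mk_mul, QuotientGroup.mk_inv]
      rw [commute_iff_conj_eq.1 hc, ← QuotientGroup.mk_mul, Iso.sq hz, QuotientGroup.mk_one]
    have hdN : d ∈ N := (Subgroup.zpowers_le.2 h1) hd
    refine ⟨d⁻¹ * g, ?_, ?_⟩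
    · rw [SetLike.mem_coe, mem_centralizer_singleton, commute_iff_conj_eq]
      calc d⁻¹ * g * z * (d⁻¹ * g)⁻¹ = d⁻¹ * (g * z * g⁻¹) * d := by group
        _ = z := by rw [← hdz]; group
    · simp [(QuotientGroup.eq_one_iff d).2 hdN]
  · rintro ⟨c, hc, hcg⟩
    rw [SetLike.mem_coe, mem_centralizer_singleton] at hc
    rw [← hcg]
    exact hc.map (QuotientGroup.mk' N)

end Cfsg.Agent.S1181
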