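import Cfsg.Statements.S1183
import Cfsg.Agent.H6.Transfer
import Cfsg.Agent.H6.Isolated

set_option autoImplicit false
open Cfsg

namespace Cfsg.Agent.S1183

set_option linter.unusedVariables false
open Cfsg.Agent.H6


/-- Let z be an isolated involution of the finite group G and C = C_G(z). Then the subgroup of G generated by its elements of odd order is all of G if and only if the subgroup of C generated by its elements of odd order is all of C. -/
theorem result {G : Type*} [Group G] [Finite G] (z : G) (hz : Cfsg.IsIsolatedInvolution z) : Cfsg.pResidual 2 G = ⊤ ↔ Cfsg.pResidual 2 ↥(Subgroup.centralizer ({z} : Set G)) = ⊤ := by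
  set C := Subgroup.centralizer ({z} : Set G) with hC
  constructor
  · intro h
    apply pResidual_eq_top_of_sup_commutator
    have := controls_transfer (p := 2) C
      ((Nat.coprime_two_left).2 (Iso.odd_index_centralizer hz)) (by
        intro g hg _ a ha
        obtain ⟨c, -, hc1, hc2⟩ := Iso.controls_fusion hz ⊤ (Subgroup.le_normalizer trivial) g _
          (mem_centralizer_singleton.1 hg) (mem_centralizer_singleton.1 ha) a trivial rfl
        exact ⟨c, mem_centralizer_singleton.2 hc1, hc2⟩)
    rw [h, top_sup_eq, top_inf_eq] at this
    apply Subgroup.map_injective C.subtype_injective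
    rw [← this, ← MonoidHom.range_eq_map, Subgroup.range_subtype]
  · intro h
    have hCle : C ≤ pResidual 2 G := by
      have := pResidual_map_le (p := 2) C
      rwa [h, ← MonoidHom.range_eq_map, Subgroup.range_subtype] at this
    rw [eq_top_iff]
    intro g _
    obtain ⟨k, -, hk1, -, hk3⟩ := Iso.exists_inverted hz g
    have h1 : k⁻¹ * g ∈ C := by
      rw [mem_centralizer_singleton, commute_iff_conj_eq]
      calc k⁻¹ * g * z * (k⁻¹ * g)⁻¹ = k⁻¹ * (g * z * g⁻¹) * k := by group
        _ = z := by rw [← hk3]; group
    have h2 : k ∈ pResidual 2 G := H2.mem_pResidual_of_coprime (Nat.coprime_two_right.2 hk1)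
    simpa using mul_mem h2 (hCle h1)

end Cfsg.Agent.S1183
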