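import Cfsg.Statements.S1184
import Cfsg.Agent.H6.Isolated

set_option autoImplicit false
open Cfsg

namespace Cfsg.Agent.S1184

open Cfsg.Agent.H6


/-- Let z be an isolated involution of the finite group G. If s and t are distinct conjugates of z, then st does not commute with z. -/
theorem result {G : Type*} [Group G] [Finite G] (z : G) (hz : Cfsg.IsIsolatedInvolution z) (g h : G) (hne : g * z * g⁻¹ ≠ h * z * h⁻¹) : ¬ Commute (g * z * g⁻¹ * (h * z * h⁻¹)) z := by
  intro hc
  set a := g * z * g⁻¹ with ha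
  set b := h * z * h⁻¹ with hb
  have hodd : Odd (orderOf (a * b)) := Iso.odd_conj_mul_conj hz g h
  have ha2 : a * a = 1 := conj_mul_self (Iso.sq hz) g
  have hb2 : b * b = 1 := conj_mul_self (Iso.sq hz) h
  have hinv : a * (a * b) * a⁻¹ = (a * b)⁻¹ := inverts_mul_left ha2 hb2
  have hodd2 : Odd (orderOf (z * a)) := Iso.odd_mul_conj hz g
  have hinv2 : (z * a) * (a * b) * (z * a)⁻¹ = (a * b)⁻¹ := by
    calc (z * a) * (a * b) * (z * a)⁻¹ = z * (a * (a * b) * a⁻¹) * z⁻¹ := by group
      _ = _ := by rw [hinv]; exact commute_iff_conj_eq.1 hc.symm.inv_right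
  have hcomm : Commute ((z * a) ^ 2) (a * b) := by
    rw [commute_iff_conj_eq]
    have h3 := inverts_zpow hinv2 (-1)
    simp only [zpow_neg, zpow_one, inv_inv] at h3
    calc (z * a) ^ 2 * (a * b) * ((z * a) ^ 2)⁻¹
        = (z * a) * ((z * a) * (a * b) * (z * a)⁻¹) * (z * a)⁻¹ := by rw [pow_two]; group
      _ = _ := by rw [hinv2, h3]
  have h4 := commute_iff_conj_eq.1 (commute_of_commute_sq hodd2 hcomm)
  rw [hinv2] at h4
  have h5 : a * b = 1 := eq_one_of_odd_of_sq hodd (by
    calc a * b * (a * b) = (a * b)⁻¹ * (a * b) := by rw [h4]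
      _ = 1 := by group)
  apply hne
  rw [eq_inv_of_mul_eq_one_left h5, inv_eq_of_mul_self hb2]

end Cfsg.Agent.S1184
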