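import Cfsg.Statements.S1185
import Cfsg.Agent.H6.Isolated

set_option autoImplicit false
open Cfsg

namespace Cfsg.Agent.S1185

open Cfsg.Agent.H6


/-- Let z be an isolated involution of the finite group G with centralizer C. Then for every g ∈ G there is exactly one element k in the coset gC that has odd order and is inverted by z. -/
theorem result {G : Type*} [Group G] [Finite G] (z : G) (hz : Cfsg.IsIsolatedInvolution z) (g : G) : ∃! k : G, (Odd (orderOf k) ∧ z * k * z⁻¹ = k⁻¹) ∧ g⁻¹ * k ∈ Subgroup.centralizer ({z} : Set G) := by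
  obtain ⟨k, -, hk1, hk2, hk3⟩ := Iso.exists_inverted hz g
  have key : ∀ l : G, g⁻¹ * l ∈ Subgroup.centralizer ({z} : Set G) ↔ l * z * l⁻¹ = g * z * g⁻¹ := by
    intro l
    rw [mem_centralizer_singleton, commute_iff_conj_eq]
    constructor
    · intro h
      calc l * z * l⁻¹ = g * (g⁻¹ * l * z * (g⁻¹ * l)⁻¹) * g⁻¹ := by group
        _ = _ := by rw [h]
    · intro h
      calc g⁻¹ * l * z * (g⁻¹ * l)⁻¹ = g⁻¹ * (l * z * l⁻¹) * g := by group
        _ = _ := by rw [h]; group
  refine ⟨k, ⟨⟨hk1, hk2⟩, (key k).2 hk3⟩, fun l hl => ?_⟩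
  exact Iso.inverted_unique hl.1.1 hk1 hl.1.2 hk2 (by rw [(key l).1 hl.2, hk3])

end Cfsg.Agent.S1185
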