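import Cfsg.Statements.S1186
import Cfsg.Agent.H6.Isolated

set_option autoImplicit false
open Cfsg

namespace Cfsg.Agent.S1186

set_option linter.unusedVariables false
open Cfsg.Agent.H6


/-- Let z be an isolated involution of the finite group G, C = C_G(z), K the set of elements of odd order inverted by z, and s an involution of C. Then |G| = |C| · |C_K(sz)| · |C_K(s)|. -/
theorem result {G : Type*} [Group G] [Finite G] (z : G) (hz : Cfsg.IsIsolatedInvolution z) (s : G) (hs : orderOf s = 2) (hsz : Commute s z) : Nat.card G = Nat.card (Subgroup.centralizer ({z} : Set G)) * Nat.card {k : G // Odd (orderOf k) ∧ z * k * z⁻¹ = k⁻¹ ∧ Commute k (s * z)} * Nat.card {k : G // Odd (orderOf k) ∧ z * k * z⁻¹ = k⁻¹ ∧ Commute k s} := by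
  have hz2 := Iso.sq hz
  have hs2 := mul_self_of_orderOf_two hs
  have hsz2 : (s * z) * (s * z) = 1 := by
    calc (s * z) * (s * z) = s * (z * s) * z := by group
      _ = 1 := by rw [← hsz.eq, ← mul_assoc, hs2, one_mul, hz2]
  rw [← Nat.card_prod, ← Nat.card_prod]
  symm
  refine Nat.card_eq_of_bijective
    (fun t : (Subgroup.centralizer ({z} : Set G) × {k : G // Odd (orderOf k) ∧ z * k * z⁻¹ = k⁻¹ ∧ Commute k (s * z)}) × {k : G // Odd (orderOf k) ∧ z * k * z⁻¹ = k⁻¹ ∧ Commute k s} =>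
      (t.2 : G) * (t.1.2 : G) * (t.1.1 : G)) ⟨?_, ?_⟩
  · rintro ⟨⟨⟨c, hc⟩, ⟨l, hl1, hl2, hl3⟩⟩, ⟨k, hk1, hk2, hk3⟩⟩
      ⟨⟨⟨c', hc'⟩, ⟨l', hl1', hl2', hl3'⟩⟩, ⟨k', hk1', hk2', hk3'⟩⟩ h
    simp only at h
    rw [mem_centralizer_singleton] at hc hc'
    have key : ∀ c l k : G, Commute c z → z * l * z⁻¹ = l⁻¹ → Commute l (s * z) → Commute k s →
        ∀ N : ℕ, Odd N → l ^ N = 1 →
        ((k * l * c) * z * (k * l * c)⁻¹ * s) ^ N = k * z * k⁻¹ * s := by
      intro c l k hc hl2 hl3 hk3 N hN hlN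
      have e1 : (k * l * c) * z * (k * l * c)⁻¹ * s = k * (l ^ 2 * (s * z)) * k⁻¹ := by
        calc (k * l * c) * z * (k * l * c)⁻¹ * s
            = k * (l * (c * z * c⁻¹) * l⁻¹) * (k⁻¹ * s * k⁻¹⁻¹) * k⁻¹ := by group
          _ = _ := by
            rw [commute_iff_conj_eq.1 hc, commute_iff_conj_eq.1 hk3.inv_left, conj_eq_sq_mul hl2,
              hsz.eq]; group
      obtain ⟨m, rfl⟩ := hN
      rw [e1, conj_pow, (hl3.pow_left 2).mul_pow, ← pow_mul, mul_comm 2 (2 * m + 1), pow_mul, hlN,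
        one_pow, one_mul, pow_succ, pow_mul, pow_two, hsz2, one_pow, one_mul, hsz.eq]
      calc k * (z * s) * k⁻¹ = k * z * k⁻¹ * (k * s * k⁻¹) := by group
        _ = _ := by rw [commute_iff_conj_eq.1 hk3]
    have hN : Odd (orderOf l * orderOf l') := hl1.mul hl1'
    have e1 := key c l k hc hl2 hl3 hk3 _ hN (by rw [pow_mul, pow_orderOf_eq_one, one_pow])
    have e2 := key c' l' k' hc' hl2' hl3' hk3' _ hN
      (by rw [mul_comm, pow_mul, pow_orderOf_eq_one, one_pow])
    rw [h, e2] at e1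
    have ek : k' = k := Iso.inverted_unique hk1' hk1 hk2' hk2 (mul_right_cancel e1)
    subst ek
    have h' : l * c = l' * c' := by
      rw [mul_assoc, mul_assoc] at h; exact mul_left_cancel h
    have el : l = l' := by
      refine Iso.inverted_unique hl1 hl1' hl2 hl2' ?_
      calc l * z * l⁻¹ = l * (c * z * c⁻¹) * l⁻¹ := by rw [commute_iff_conj_eq.1 hc]
        _ = (l * c) * z * (l * c)⁻¹ := by group
        _ = l' * (c' * z * c'⁻¹) * l'⁻¹ := by rw [h']; group
        _ = _ := by rw [commute_iff_conj_eq.1 hc']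
    subst el
    have ec : c = c' := mul_left_cancel h'
    subst ec
    rfl
  · intro g
    set u := g * z * g⁻¹ with hu
    have hu2 : u * u = 1 := conj_mul_self hz2 g
    have hodd : Odd (orderOf ((u * s) ^ 2)) := by
      have := Iso.odd_conj_mul_conj hz g (s * g)
      convert this using 2
      rw [pow_two, hu, mul_inv_rev, inv_eq_of_mul_self hs2]; group
    obtain ⟨m, hm⟩ := id hodd
    set w := (u * s) ^ (2 * m + 1) with hw
    have hw2 : w * w = 1 := by
      rw [hw, ← pow_add, ← two_mul, pow_mul, ← hm, pow_orderOf_eq_one]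
    have hwmem : w ∈ Subgroup.zpowers (u * s) := Subgroup.npow_mem_zpowers _ _
    have hwu : Commute u w := by
      have := inverts_of_mem_zpowers (inverts_mul_left hu2 hs2) hwmem
      rw [inv_eq_of_mul_self hw2] at this
      exact commute_iff_conj_eq.2 this
    have hws : Commute s w := by
      have := inverts_of_mem_zpowers (inverts_mul_right hu2 hs2) hwmem
      rw [inv_eq_of_mul_self hw2] at this
      exact commute_iff_conj_eq.2 this
    set e := ((u * s) ^ (m + 1))⁻¹ with he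
    have hemem : e ∈ Subgroup.zpowers (u * s) := inv_mem (Subgroup.npow_mem_zpowers _ _)
    have ha : e * u * e⁻¹ = s * w := by
      rw [conj_eq_sq_mul (inverts_of_mem_zpowers (inverts_mul_left hu2 hs2) hemem), he, inv_pow,
        ← pow_mul, show (m + 1) * 2 = (2 * m + 1) + 1 by ring, pow_succ', ← hw, mul_inv_rev,
        mul_inv_rev, inv_eq_of_mul_self hw2, inv_eq_of_mul_self hs2, inv_eq_of_mul_self hu2,
        mul_assoc, mul_assoc, hu2, mul_one, hws.eq]
    obtain ⟨k, hk0, hk1, hk2, hk3⟩ := Iso.exists_inverted hz (e * g)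
    have e1 : e * g * z * (e * g)⁻¹ = s * w := by rw [← ha, hu]; group
    rw [e1] at hk0 hk3
    have hks : Commute k s := by
      obtain ⟨j, rfl⟩ := hk0
      exact (hsz.symm.mul_left ((Commute.refl s).mul_left hws.symm)).zpow_left j
    obtain ⟨l, hl0, hl1, hl2, hl3⟩ := Iso.exists_inverted hz (k⁻¹ * g)
    have e2 : k⁻¹ * w * k⁻¹⁻¹ = s * z := by
      have : w = s * (k * z * k⁻¹) := by rw [hk3, ← mul_assoc, hs2, one_mul]
      rw [this]
      calc k⁻¹ * (s * (k * z * k⁻¹)) * k⁻¹⁻¹ = (k⁻¹ * s * k⁻¹⁻¹) * z := by group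
        _ = _ := by rw [commute_iff_conj_eq.1 hks.inv_left]
    have hls : Commute l (s * z) := by
      obtain ⟨j, rfl⟩ := hl0
      refine Commute.zpow_left (Commute.mul_left (hsz.symm.mul_right (Commute.refl z)) ?_) j
      have := hwu.conj k⁻¹
      rw [e2] at this
      rwa [show k⁻¹ * g * z * (k⁻¹ * g)⁻¹ = k⁻¹ * u * k⁻¹⁻¹ by rw [hu]; group]
    refine ⟨⟨⟨⟨l⁻¹ * k⁻¹ * g, ?_⟩, ⟨l, hl1, hl2, hls⟩⟩, ⟨k, hk1, hk2, hks⟩⟩, by simp only; group⟩
    rw [mem_centralizer_singleton, commute_iff_conj_eq]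
    calc l⁻¹ * k⁻¹ * g * z * (l⁻¹ * k⁻¹ * g)⁻¹ = l⁻¹ * (k⁻¹ * g * z * (k⁻¹ * g)⁻¹) * l := by group
      _ = z := by rw [← hl3]; group

end Cfsg.Agent.S1186
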