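import Cfsg.Statements.S1224
import Cfsg.Agent.H6.StrongEmb

set_option autoImplicit false
open Cfsg

namespace Cfsg.Agent.S1224

set_option linter.unusedVariables false
open Cfsg.Agent.H6


/-- Let H be a strongly embedded subgroup of the finite group G and x ≠ y two cosets in G/H. Then the number of involutions i of G with i • x = y equals the number of involutions lying in H. -/
theorem result {G : Type*} [Group G] [Finite G] (H : Subgroup G) (hH : Cfsg.IsStronglyEmbedded H) (x y : G ⧸ H) (hxy : x ≠ y) : Nat.card {i : G // orderOf i = 2 ∧ i • x = y} = Nat.card {t : G // orderOf t = 2 ∧ t ∈ H} := by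
  obtain ⟨a, rfl⟩ := QuotientGroup.mk_surjective x
  obtain ⟨b, rfl⟩ := QuotientGroup.mk_surjective y
  have hg : (a⁻¹ * b) ∉ H := fun h => hxy (QuotientGroup.eq.2 h)
  rw [← SE.card_involutions_coset hH hg]
  refine Nat.card_congr (Equiv.subtypeEquiv (MulAut.conj a⁻¹).toEquiv fun i => ?_)
  refine and_congr ?_ ?_
  · show _ ↔ orderOf (a⁻¹ * i * a⁻¹⁻¹) = 2
    rw [orderOf_conj]
  · show (QuotientGroup.mk (i * a) : G ⧸ H) = QuotientGroup.mk b ↔ (a⁻¹ * b)⁻¹ * (a⁻¹ * i * a⁻¹⁻¹) ∈ H
    rw [eq_comm, QuotientGroup.eq]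
    exact iff_of_eq (by congr 1; group)

end Cfsg.Agent.S1224
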