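import Cfsg.Statements.S1228
import Cfsg.Agent.H6.BSW

set_option autoImplicit false
open Cfsg

namespace Cfsg.Agent.S1228

set_option linter.unusedVariables false
open Cfsg.Agent.H6


/-- Let G be a finite group with a Sylow 2-subgroup T that is neither cyclic nor normal, such that the centralizer of every involution is an elementary abelian 2-group; put H = N_G(T), let u be an involution outside H and D = H ∩ uHu⁻¹. Then N_G(D) = D ⊔ ⟨u⟩, and a coset gH is fixed by every element of D exactly when gH = H or gH = uH. -/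
theorem result {G : Type*} [Group G] [Finite G] (T : Sylow 2 G) (hnc : ¬ IsCyclic (T : Subgroup G)) (hnn : ¬ (T : Subgroup G).Normal) (hC : ∀ t : G, orderOf t = 2 → IsMulCommutative (Subgroup.centralizer ({t} : Set G)) ∧ ∀ c ∈ Subgroup.centralizer ({t} : Set G), c ^ 2 = 1) (u : G) (hu : orderOf u = 2) (huH : u ∉ Subgroup.normalizer ((T : Subgroup G) : Set G)) : Subgroup.normalizer ((Subgroup.normalizer ((T : Subgroup G) : Set G) ⊓ (Subgroup.normalizer ((T : Subgroup G) : Set G)).map (MulAut.conj u).toMonoidHom : Subgroup G) : Set G) = (Subgroup.normalizer ((T : Subgroup G) : Set G) ⊓ (Subgroup.normalizer ((T : Subgroup G) : Set G)).map (MulAut.conj u).toMonoidHom) ⊔ Subgroup.zpowers u ∧ ∀ g : G, ((∀ d ∈ Subgroup.normalizer ((T : Subgroup G) : Set G) ⊓ (Subgroup.normalizer ((T : Subgroup G) : Set G)).map (MulAut.conj u).toMonoidHom, d • (QuotientGroup.mk g : G ⧸ Subgroup.normalizer ((T : Subgroup G) : Set G)) = QuotientGroup.mk g) ↔ (QuotientGroup.mk g : G ⧸ Subgroup.normalizer ((T : Subgroup G) : Set G)) = QuotientGroup.mk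 1 ∨ (QuotientGroup.mk g : G ⧸ Subgroup.normalizer ((T : Subgroup G) : Set G)) = QuotientGroup.mk u) := by
  have h : BSW T := ⟨hnc, hnn, hC⟩
  have huu := mul_self_of_orderOf_two hu
  set H := Subgroup.normalizer ((T : Subgroup G) : Set G) with hH
  obtain ⟨d₀, hd₀, hud₀, hd1⟩ := h.exists_D_ne_one huH huu
  have hd₀' := BSW.conj_mem_of_inverted huu hd₀ hud₀
  have hfix : ∀ g : G, (∀ d ∈ H ⊓ cj H u, g⁻¹ * d * g ∈ H) → g ∈ H ∨ u⁻¹ * g ∈ H := by
    intro g hg
    by_cases hgH : g ∈ H
    · exact Or.inl hgH
    · exact Or.inr (h.three huH hgH hd₀ hd₀' (hg d₀ ⟨hd₀, mem_cj.2 hd₀'⟩) hd1)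
  have huN : u ∈ Subgroup.normalizer ((H ⊓ cj H u : Subgroup G) : Set G) := by
    refine mem_normalizer_of_forall fun d hd => ?_
    rw [h.inverts huH huu hd.1 (mem_cj.1 hd.2)]
    exact inv_mem hd
  constructor
  · apply le_antisymm
    · have key : ∀ n ∈ Subgroup.normalizer ((H ⊓ cj H u : Subgroup G) : Set G), n ∈ H →
          n ∈ H ⊓ cj H u := by
        intro n hn hnH
        refine ⟨hnH, mem_cj.2 ?_⟩
        rcases hfix (n * u) (fun d hd => by
          have := mem_cj.1 (conj_mem_of_mem_normalizer' hn hd).2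
          convert this using 1; group) with h1 | h1
        · exact absurd (by simpa using H.mul_mem (H.inv_mem hnH) h1) huH
        · rwa [mul_assoc]
      intro n hn
      rcases hfix n (fun d hd => (conj_mem_of_mem_normalizer' hn hd).1) with h1 | h1
      · exact Subgroup.mem_sup_left (key n hn h1)
      · have h2 := key (n⁻¹ * u) (mul_mem (inv_mem hn) huN) (by simpa using H.inv_mem h1)
        have : n = u * (n⁻¹ * u)⁻¹ * 1 := by
          rw [mul_inv_rev, inv_eq_of_mul_self huu, ← mul_assoc, huu]; group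
        rw [this, mul_one]
        exact mul_mem (Subgroup.mem_sup_right (Subgroup.mem_zpowers u))
          (Subgroup.mem_sup_left (inv_mem h2))
    · exact sup_le Subgroup.le_normalizer (Subgroup.zpowers_le.2 huN)
  · intro g
    simp only [BSW.smul_mk_eq_iff]
    rw [eq_comm, QuotientGroup.eq, eq_comm, QuotientGroup.eq]
    constructor
    · intro hg
      simpa using hfix g fun d hd => by rw [mul_assoc]; exact hg d hd
    · rintro (h1 | h1) d hd
      · have h2 : g ∈ H := by simpa using h1
        exact H.mul_mem (H.inv_mem h2) (H.mul_mem hd.1 h2)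
      · have := H.mul_mem (H.mul_mem (H.inv_mem h1) (mem_cj.1 hd.2)) h1
        convert this using 1; group

end Cfsg.Agent.S1228
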