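import Cfsg.Statements.S1231
import Cfsg.Agent.H6.StrongEmb

set_option autoImplicit false
open Cfsg

namespace Cfsg.Agent.S1231

set_option linter.unusedVariables false
open Cfsg.Agent.H6


/-- Let H be a subgroup of the finite group G, p a prime, k ≥ 1, and P a Sylow p-subgroup of H whose p-rank is at least k. Then N_G(X) ≤ H for every subgroup X of P of p-rank at least k if and only if H ∩ gHg⁻¹ has p-rank less than k for every g ∉ H. -/
theorem result {G : Type*} [Group G] [Finite G] {p : ℕ} [Fact p.Prime] (k : ℕ) (hk : 1 ≤ k) (H : Subgroup G) (P : Sylow p ↥H) (hP : ¬ Cfsg.PRankLE p (k - 1) ↥(P : Subgroup ↥H)) : (∀ X : Subgroup G, X ≤ (P : Subgroup ↥H).map H.subtype → ¬ Cfsg.PRankLE p (k - 1) ↥X → Subgroup.normalizer (X : Set G) ≤ H) ↔ (∀ g : G, g ∉ H → Cfsg.PRankLE p (k - 1) ↥(H ⊓ H.map (MulAut.conj g).toMonoidHom)) := by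
  have hPs : IsSylowIn p ((P : Subgroup H).map H.subtype) H := IsSylowIn.of_sylow P
  constructor
  · intro h g hg
    by_contra hc
    obtain ⟨A, hA, hA1, hA2, hA3⟩ := not_pRankLE_iff.1 hc
    have hAp : IsPGroup p A := fun a => ⟨1, Subtype.ext (by simpa using hA2 a a.2)⟩
    have key : ∀ X : Subgroup G, IsPGroup p X → X ≤ H → ¬ PRankLE p (k - 1) X →
        Subgroup.normalizer (X : Set G) ≤ H := by
      intro X hX hXH hXr
      obtain ⟨x, hx, hxX⟩ := hPs.exists_conj hX hXH
      have := h (cj X x) (cj_le_iff.2 hxX) (by rwa [pRankLE_cj])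
      rw [← cj_normalizer] at this
      intro y hy
      have h1 := this (conj_mem_cj x hy)
      simpa [mul_assoc] using H.mul_mem (H.mul_mem (H.inv_mem hx) h1) hx
    obtain ⟨R, hR, hAR⟩ := exists_isSylowIn hAp hA
    have hRr : ¬ PRankLE p (k - 1) R := not_pRankLE_iff.2 ⟨A, hAR, hA1, hA2, hA3⟩
    have hRH : R ≤ H := hR.le.trans inf_le_left
    have hRH' : cj R g⁻¹ ≤ H := by
      have := cj_mono g⁻¹ (hR.le.trans inf_le_right)
      rwa [cj_cj_inv] at this
    have hN1 := key R hR.pgroup hRH hRr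
    have hN2 : Subgroup.normalizer (R : Set G) ≤ cj H g := by
      have := cj_mono g (key _ (isPGroup_cj hR.pgroup g⁻¹) hRH' (by rwa [pRankLE_cj]))
      rwa [cj_normalizer, cj_inv_cj] at this
    have hSyl : IsSylowIn p R ⊤ := by
      refine isSylowIn_of_max hR.pgroup le_top fun Q hQ _ hRQ => ?_
      by_contra hne
      obtain ⟨x, hxQ, hxR, hxN⟩ := exists_mem_normalizer_of_lt hQ (lt_of_le_of_ne hRQ (Ne.symm hne))
      have := hR.eq_of_le (Q := Q ⊓ Subgroup.normalizer (R : Set G)) hQ.to_inf_left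
        (inf_le_right.trans (le_inf hN1 hN2)) (le_inf hRQ Subgroup.le_normalizer)
      exact hxR (this ▸ ⟨hxQ, hxN⟩)
    have h1 : IsSylowIn p R H := hSyl.mono hRH le_top
    have h2 : IsSylowIn p (cj R g⁻¹) H :=
      isSylowIn_of_card_le h1 (isPGroup_cj hR.pgroup g⁻¹) hRH' (card_cj _ _).ge
    obtain ⟨x, hx, hxe⟩ := h1.exists_cj_eq h2
    rw [← cj_mul, cj_eq_iff_mem_normalizer] at hxe
    exact hg (by simpa using H.mul_mem (H.inv_mem (hN1 hxe)) hx)
  · intro h X hX hXr g hg
    by_contra hc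
    refine hXr (pRankLE_of_le (h g hc) (le_inf (hX.trans hPs.le) ?_))
    rw [← cj_eq_iff_mem_normalizer.2 hg]
    exact cj_mono g (hX.trans hPs.le)

end Cfsg.Agent.S1231
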