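import Cfsg.Statements.S1233
import Cfsg.Agent.H2.Harada4

set_option autoImplicit false
open Cfsg

namespace Cfsg.Agent.S1233

open Subgroup Cfsg.Agent.H1 Cfsg.Agent.L Cfsg.Agent.FT Cfsg.Agent.H2.Har
open scoped Pointwise commutatorElement

theorem cen : ∀ x : QuaternionGroup 2, x ≠ 1 → (∀ u, u * x = x * u) → x = .a 2 := by decide

theorem cz : ∀ x : QuaternionGroup 2, x * .a 2 = .a 2 * x := by decide

theorem cq : ∀ x y : QuaternionGroup 2, ⁅x, y⁆ = 1 ∨ ⁅x, y⁆ = .a 2 := by decide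

theorem facts {S : Type*} [Group S] {Q : Subgroup S} (e : Q ≃* QuaternionGroup 2) :
    #|Q| = 8 ∧ (∀ x, Q.subtype.comp e.symm.toMonoidHom x ∈ Q) ∧
      Function.Injective (Q.subtype.comp e.symm.toMonoidHom) ∧
      ∀ q ∈ Q, ∃ x, Q.subtype.comp e.symm.toMonoidHom x = q :=
  ⟨by rw [Nat.card_congr e.toEquiv, Nat.card_eq_fintype_card, QuaternionGroup.card],
    fun x => (e.symm x).2, Q.subtype_injective.comp e.symm.injective,
    fun q hq => ⟨e ⟨q, hq⟩, by simp⟩⟩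

/-- Let S be a finite 2-group and Q a subgroup of order 32 generated by two elementwise-commuting subgroups Q₁, Q₂ each isomorphic to the quaternion group of order 8 (so Q = Q₁ ∗ Q₂). If C_S(Q) ≤ Q, then every section of S has 2-rank at most 4. -/
theorem result {S : Type*} [Group S] [Finite S] (hS : IsPGroup 2 S) (Q Q₁ Q₂ : Subgroup S) (e₁ : Q₁ ≃* QuaternionGroup 2) (e₂ : Q₂ ≃* QuaternionGroup 2) (hcomm : ∀ a ∈ Q₁, ∀ b ∈ Q₂, a * b = b * a) (hQ : Q₁ ⊔ Q₂ = Q) (hQ32 : Nat.card Q = 32) (hC : Subgroup.centralizer (Q : Set S) ≤ Q) : Cfsg.SectionalPRankLE 2 4 S := by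
  let f₁ := Q₁.subtype.comp e₁.symm.toMonoidHom
  let f₂ := Q₂.subtype.comp e₂.symm.toMonoidHom
  obtain ⟨c1, m1, i1, s1⟩ := facts e₁
  obtain ⟨c2, m2, i2, s2⟩ := facts e₂
  have cc : Q₂ ≤ 𝐂(Q₁) := le_cent_iff.2 fun b hb a ha => hcomm a ha b hb
  have ez : f₁ (.a 2) = f₂ (.a 2) := by
    have h := (setProd_sup (Or.inl (cc.trans (cent_le_norm _)))).card
    rw [hQ, hQ32, c1, c2] at h
    obtain ⟨w, hw, w1⟩ := exists_mem_ne_one (H := Q₁ ⊓ Q₂) fun e => by rw [e, card_bot] at h; omega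
    obtain ⟨x, rfl⟩ := s1 w hw.1
    obtain ⟨y, e⟩ := s2 _ hw.2
    have hx := cen x (fun e => w1 (by rw [e, map_one])) fun u => i1 (by
      rw [map_mul, map_mul]; exact hcomm _ (m1 u) _ hw.2)
    have hy := cen y (fun e' => w1 (by rw [← e, e', map_one])) fun u => i2 (by
      rw [map_mul, map_mul, e]; exact (hcomm _ hw.1 _ (m2 u)).symm)
    rw [hx, hy] at e; exact e.symm
  let F := f₁.noncommCoprod f₂ fun x y => hcomm _ (m1 x) _ (m2 y)
  have mF : ∀ x, F x ∈ Q := fun x => hQ ▸ mul_mem (mem_sup_left (m1 _)) (mem_sup_right (m2 _))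
  have sF : ∀ q ∈ Q, ∃ x, F x = q := fun q hq => by
    obtain ⟨a, ha, b, hb, rfl⟩ := (CProd.mk cc hQ).mem_iff.1 hq
    obtain ⟨x, rfl⟩ := s1 a ha
    obtain ⟨y, rfl⟩ := s2 b hb
    exact ⟨(x, y), rfl⟩
  have Fa : ∀ x y, F (x, y) = f₁ x * f₂ y := fun _ _ => rfl
  have z1 : F (.a 2, 1) ≠ 1 := fun e => absurd (i1 (show f₁ (.a 2) = f₁ 1 by
    rw [map_one, ← e, Fa, map_one, mul_one])) (by decide)
  have z2 : F (1, .a 2) = F (.a 2, 1) := by rw [Fa, Fa, map_one, map_one, one_mul, mul_one, ez]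
  have zz : F (.a 2, 1) * F (.a 2, 1) = 1 := by rw [← map_mul, ← map_one F]; rfl
  have z3 : F (.a 2, .a 2) = 1 := by rw [← zz]; nth_rw 2 [← z2]; rw [← map_mul]; rfl
  have sq : ∀ x, x * x = (.a 2, .a 2) → F x * F x = 1 := fun x e => by rw [← map_mul, e, z3]
  have cm : ∀ x y, ⁅x, y⁆ = (.a 2, .a 2) → F x ∈ 𝐂[F y] := fun x y e => mem_cent1.2
    (B9.commEl_eq_one_iff.1 (by rw [← map_commutatorElement, e, z3]))
  have nc : ∀ x y, ⁅x, y⁆ = (.a 2, 1) → F x ∉ 𝐂[F y] := fun x y e c => z1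
    (by rw [← e, map_commutatorElement, cm_one c])
  have nc' : ∀ x y, ⁅x, y⁆ = (1, .a 2) → F x ∉ 𝐂[F y] := fun x y e c => z1
    (by rw [← z2, ← e, map_commutatorElement, cm_one c])
  obtain ⟨A, B, h⟩ := Ex.ex2 (Q := Q) (z := F (.a 2, 1)) (e₁ := F (.a 1, .a 1))
    (e₂ := F (.xa 1, .xa 1)) (f₁ := F (.a 1, .xa 0)) (f₂ := F (.xa 0, .xa 1))
    ⟨hQ32, mF _, z1, zz, fun q hq => by
      obtain ⟨x, rfl⟩ := sF q hq
      rw [mem_cent1, ← map_mul, ← map_mul,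
        show x * (.a 2, 1) = (.a 2, 1) * x from Prod.ext (cz x.1) (by simp)], by
      rw [commutator_le]
      intro x hx y hy
      obtain ⟨x, rfl⟩ := sF x hx
      obtain ⟨y, rfl⟩ := sF y hy
      rw [← map_commutatorElement, show ⁅x, y⁆ = (⁅x.1, y.1⁆, ⁅x.2, y.2⁆) from rfl]
      rcases cq x.1 y.1 with a | a <;> rcases cq x.2 y.2 with b | b <;> rw [a, b]
      exacts [(map_one F).symm ▸ one_mem _, z2 ▸ mem_zpowers _, mem_zpowers _, z3 ▸ one_mem _],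
      ⟨mF _, mF _, mF _, mF _⟩,
      ⟨sq _ (by decide), sq _ (by decide), sq _ (by decide), sq _ (by decide)⟩,
      ⟨cm _ _ (by decide), cm _ _ (by decide), cm _ _ (by decide), cm _ _ (by decide)⟩,
      nc' _ _ (by decide), nc _ _ (by decide)⟩
  exact h.sectional hS hC

end Cfsg.Agent.S1233
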