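import Cfsg.Statements.S1234
import Cfsg.Agent.H2.Harada4

set_option autoImplicit false
open Cfsg

namespace Cfsg.Agent.S1234

open Subgroup Cfsg.Agent.H1 Cfsg.Agent.L Cfsg.Agent.FT Cfsg.Agent.H2.Har
open scoped Pointwise commutatorElement

/-- Let S be a finite 2-group and Q ≤ S a subgroup of order 32 having an elementary abelian subgroup E of order 16 and an involution s ∉ E whose centralizer in E has order 4 (so Q ≅ (Z₂ × Z₂) ≀ Z₂). If C_S(Z(Q)) = Q, then every section of S has 2-rank at most 4. -/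
theorem result {S : Type*} [Group S] [Finite S] (hS : IsPGroup 2 S) (Q E : Subgroup S) (hEQ : E ≤ Q) (hE : Cfsg.IsElementaryAbelian 2 E) (hE16 : Nat.card E = 16) (hQ32 : Nat.card Q = 32) (s : S) (hsQ : s ∈ Q) (hsE : s ∉ E) (hs : orderOf s = 2) (hfix : Nat.card ↥(E ⊓ Subgroup.centralizer ({s} : Set S)) = 4) (hC : Subgroup.centralizer (((Subgroup.center Q).map Q.subtype : Subgroup S) : Set S) = Q) : Cfsg.SectionalPRankLE 2 4 S := by
  rw [← zent_eq_center] at hC
  have s2 : s * s = 1 := by rw [← pow_two, ← hs, pow_orderOf_eq_one]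
  have i := B9.relIndex_eq_of_card_eq (n := 2) hEQ (by rw [hE16, hQ32])
  have sc : s ∈ 𝐂(E ⊓ 𝐂[s]) := le_cent1_iff.1 inf_le_right
  have key : ∀ y ∈ Q, y ∈ 𝐂[s] → y ∈ E ⊓ 𝐂[s] ⊔ zpowers s := fun y hy c =>
    (cases_two i.dvd hsQ hsE hy).elim (fun e => mem_sup_left ⟨e, c⟩) fun ⟨e, he, h⟩ =>
      h ▸ mul_mem (mem_sup_left ⟨he, (mul_mem_cancel_right (self_mem_cent1 s)).1 (h ▸ c)⟩)
        (B9.mem_sup_zpowers_self _ s)
  have hA := B9.abelem_sup_zpowers (abelem_of_le hE inf_le_left) sc (by rwa [pow_two])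
  refine harada hS hA (by
    rw [B9.card_sup_zpowers P2 (cent_le_norm _ sc) (fun c => hsE c.1)
      (by rw [pow_two, s2]; exact one_mem _), hfix]) (le_antisymm (fun y hy => key y (hC.le
        (cent_anti (show zent Q ≤ _ from fun w hw => key w hw.1 (cent_le_cent1 hsQ hw.2)) hy))
        (cent_le_cent1 (B9.mem_sup_zpowers_self _ s) hy)) (le_cent_self hA.1))

end Cfsg.Agent.S1234
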