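import Cfsg.Statements.S1235
import Cfsg.Agent.H2.Harada4

set_option autoImplicit false
open Cfsg

namespace Cfsg.Agent.S1235

open Subgroup Cfsg.Agent.H1 Cfsg.Agent.L Cfsg.Agent.FT Cfsg.Agent.H2.Har
open scoped Pointwise commutatorElement

/-- Let G be a finite group, x an involution and T ≤ G a Sylow 2-subgroup of C_G(x) (T ≤ C_G(x) with |C_G(x) : T| odd) which is the internal direct product of a subgroup D that is dihedral (of order ≥ 4) or quasi-dihedral and a Klein four-subgroup B. Suppose that for every involution b ∈ B, T ≤ C_G(b) with |C_G(b) : T| odd. Then every section of G has 2-rank at most 4. -/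
theorem result {G : Type*} [Group G] [Finite G] (x : G) (hx : orderOf x = 2) (T D B : Subgroup G) (hT : IsPGroup 2 T) (hTx : T ≤ Subgroup.centralizer ({x} : Set G)) (hTxi : Odd (T.relIndex (Subgroup.centralizer ({x} : Set G)))) (hprod : Cfsg.IsInternalDirectProduct D B T) (hD : (∃ m : ℕ, 2 ≤ m ∧ Nonempty (D ≃* DihedralGroup m)) ∨ Cfsg.IsQuasiDihedral D) (hB : IsKleinFour B) (hTb : ∀ b ∈ B, orderOf b = 2 → T ≤ Subgroup.centralizer ({b} : Set G) ∧ Odd (T.relIndex (Subgroup.centralizer ({b} : Set G)))) : Cfsg.SectionalPRankLE 2 4 G := by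
  obtain ⟨S, hS, TS⟩ := exists_isSylowIn_ge hT (le_top : T ≤ ⊤)
  have fB : Four B := ⟨⟨IsKleinFour.isMulCommutative, fun b hb => congrArg Subtype.val
    (show (⟨b, hb⟩ : B) ^ 2 = 1 by rw [pow_two, IsKleinFour.mul_self])⟩, hB.card_four⟩
  have hd : DProd D B T := ⟨le_cent_iff.2 fun b hb a ha => hprod.2.2.1 a ha b hb, hprod.2.2.2.1,
    hprod.2.2.2.2⟩
  have hC : ∀ b ∈ B, b ≠ 1 → S ⊓ 𝐂[b] = T := fun b hb b1 => by
    obtain ⟨l, o⟩ := hTb b hb (orderOf_eq_of_abelem P2 fB.ab hb b1)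
    have := Fact.mk P2
    exact (isSylowIn_of_not_dvd_relIndex l hT o.not_two_dvd_nat).maximal _
      (hS.isPGroup.to_le inf_le_left) (le_inf TS l) inf_le_right
  obtain ⟨c, i, h4⟩ : ∃ c : D, (zpowers c).index ∣ 2 ∧ (IsMulCommutative D → #|D| = 4) := by
    rcases hD with ⟨m, hm, ⟨e⟩⟩ | ⟨n, hn, h1, a, t, h2, h3, h4⟩
    · have cD : #|D| = 2 * m := (Nat.card_congr e.toEquiv).trans DihedralGroup.nat_card
      refine ⟨e.symm (DihedralGroup.r 1), ?_, fun h => ?_⟩
      · have := (zpowers (e.symm (DihedralGroup.r 1))).card_mul_index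
        rw [Nat.card_zpowers, MulEquiv.orderOf_eq, DihedralGroup.orderOf_r_one, cD, mul_comm] at this
        exact (Nat.eq_of_mul_eq_mul_right (by omega) this).dvd
      · have : IsMulCommutative (DihedralGroup m) := ⟨⟨fun x y => e.symm.injective (by
          rw [map_mul, map_mul]; exact h.is_comm.comm _ _)⟩⟩
        rcases DihedralGroup.commutative_iff.1 this with h | h <;> omega
    · refine ⟨a, (H4.index_zpowers_eq_two h1 h2).dvd, fun h => ?_⟩
      rw [h.is_comm.comm t a, mul_inv_cancel_right] at h4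
      obtain ⟨k, rfl⟩ : ∃ k, n = k + 3 := ⟨n - 3, by omega⟩
      have h5 := pow_eq_pow_iff_modEq.1 ((pow_one a).trans h4)
      have h6 : 0 < 2 ^ k := by positivity
      have e1 : 2 ^ (k + 3 - 1) = 2 ^ k * 4 := pow_add 2 k 2
      have e2 : 2 ^ (k + 3) = 2 ^ k * 8 := pow_add 2 k 3
      rw [h2, e1, e2, Nat.ModEq, Nat.mod_eq_of_lt (by omega), Nat.mod_eq_of_lt (by omega)] at h5
      omega
  refine sectional fun H pH hb => ?_
  have := Fact.mk P2
  obtain ⟨g, -, hg⟩ := hS.exists_conj_mem pH le_top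
  refine thmE hS.isPGroup fB hd (map_subtype_le (zpowers c)) (cyclic_map (cyclic_zpowers c) _) (by
    rwa [relIndex, subgroupOf, comap_map_eq_self_of_injective D.subtype_injective]) h4 hC TS
    (fun y hy => ?_) (hb.conj g)
  obtain ⟨x, hx, rfl⟩ := mem_conj'.1 hy
  exact hg x hx

end Cfsg.Agent.S1235
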