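import Cfsg.Statements.S1236
import Cfsg.Agent.H6.MaxClass

set_option autoImplicit false
open Cfsg

namespace Cfsg.Agent.S1236

set_option linter.unusedVariables false
set_option linter.style.haveILetI false
open Cfsg.Agent.H6


/-- Let R be a finite group, t a central involution of R such that R ⧸ ⟨t⟩ is dihedral (of order ≥ 4) or quasi-dihedral, and A ≤ R an elementary abelian subgroup of order 8 containing t. Then C_R(A) = A. -/
theorem result {R : Type*} [Group R] [Finite R] (t : R) (ht : orderOf t = 2) (htz : t ∈ Subgroup.center R) [(Subgroup.zpowers t).Normal] (hq : (∃ m : ℕ, 2 ≤ m ∧ Nonempty (R ⧸ Subgroup.zpowers t ≃* DihedralGroup m)) ∨ Cfsg.IsQuasiDihedral (R ⧸ Subgroup.zpowers t)) (A : Subgroup R) (hA : Cfsg.IsElementaryAbelian 2 A) (hA8 : Nat.card A = 8) (htA : t ∈ A) : Subgroup.centralizer (A : Set R) = A := by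
  let π := QuotientGroup.mk' (Subgroup.zpowers t)
  have hker : π.ker = Subgroup.zpowers t := QuotientGroup.ker_mk' _
  have hle : π.ker ≤ A := hker.trans_le (Subgroup.zpowers_le.2 htA)
  have h4 : IsKleinFour (A.map π) := by
    refine isKleinFour_iff.2 ⟨?_, ?_⟩
    · have h1 := H1.card_mul_relIndex_of_le hle
      rw [Subgroup.relIndex_ker, hker, Nat.card_zpowers, ht, hA8] at h1
      omega
    · rintro _ ⟨x, hx, rfl⟩
      rw [← map_mul, ← pow_two, hA.2 x hx, map_one]
  have key : Subgroup.centralizer (A.map π : Set (R ⧸ Subgroup.zpowers t)) ≤ A.map π := by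
    rcases hq with ⟨m, hm, ⟨e⟩⟩ | hq
    · by_cases hm2 : m = 2
      · have : A.map π = ⊤ := Subgroup.eq_top_of_card_eq _ (by
          rw [h4.card_four, Nat.card_congr e.toEquiv, DihedralGroup.nat_card, hm2])
        rw [this]; exact le_top
      haveI : NeZero m := ⟨by omega⟩
      have e1 : ((m - 1 : ℕ) : ZMod m) = -1 := by
        rw [Nat.cast_sub (by omega), ZMod.natCast_self, Nat.cast_one, zero_sub]
      obtain ⟨T⟩ := nonempty_tab_cyclic (N := m) (x := e.symm (DihedralGroup.r 1))
        (t := e.symm (DihedralGroup.sr 0)) (r := m - 1)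
        (by rw [MulEquiv.orderOf_eq, DihedralGroup.orderOf_r_one])
        (by rw [← map_mul, DihedralGroup.sr_mul_self, map_one])
        (by rw [← map_inv, ← map_mul, ← map_mul, ← map_pow, DihedralGroup.r_one_pow, e1]; simp)
        (fun h1 => by
          haveI : Fact (2 < m) := ⟨by omega⟩
          exact ZMod.neg_one_ne_one (e1 ▸ h1))
        (by rw [Nat.card_congr e.toEquiv, DihedralGroup.nat_card])
      simpa using T.centralizer_four_le (fun k hk => by
        rw [e1] at hk
        have hk' : -1 * k = k := hk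
        linear_combination -hk') le_top h4
    · obtain ⟨m, h, ⟨T⟩⟩ := exists_tab_qd hq
      haveI := h.isAddCyclic
      simpa using T.centralizer_four_le (fun k hk => by linear_combination h.fix_iff.1 hk) le_top h4
  refine le_antisymm (fun c hc => ?_) fun x hx y hy => isMulCommutative_iff.1 hA.1 y hy x hx
  rw [← Subgroup.comap_map_eq_self hle]
  refine key ?_
  rintro _ ⟨x, hx, rfl⟩
  rw [← map_mul, hc x hx, map_mul]

end Cfsg.Agent.S1236
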