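import Cfsg.Statements.S1237
import Cfsg.Agent.H6.Rank2

set_option autoImplicit false
open Cfsg

namespace Cfsg.Agent.S1237

set_option linter.unusedVariables false
set_option linter.style.haveILetI false
open Cfsg.Agent.H6


/-- Let T be a finite 2-group of 2-rank exactly 2 (it has a Klein four-subgroup but no elementary abelian subgroup of order 8) admitting an automorphism φ such that any two involutions of T are carried to one another by a power of φ. Then T ≅ Z_{2^n} × Z_{2^n} for some n ≥ 1, or T is isomorphic to a Sylow 2-subgroup of PSU(3) over the field with 16 elements. -/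
theorem result {T : Type*} [Group T] [Finite T] (hT : IsPGroup 2 T) (h2 : Cfsg.PRankLE 2 2 T) (h1 : ¬ Cfsg.PRankLE 2 1 T) (φ : MulAut T) (htrans : ∀ s t : T, orderOf s = 2 → orderOf t = 2 → ∃ k : ℕ, (φ ^ k) s = t) {F : Type*} [Field F] [Fintype F] (hF : Fintype.card F = 16) (P : Sylow 2 (Cfsg.PSU 3 F 4)) : (∃ n : ℕ, 1 ≤ n ∧ Nonempty (T ≃* Multiplicative (ZMod (2 ^ n) × ZMod (2 ^ n)))) ∨ Nonempty (T ≃* (P : Subgroup (Cfsg.PSU 3 F 4))) := by
  have hR := r2_of_pRankLE h2
  have h4 := has4_of_not_pRankLE h1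
  obtain ⟨a, -, ha1, -⟩ := h4.exists_ne 1
  obtain ⟨z, -, hz, hz1, hzc⟩ := exists_central_invol hT (N := ⊤) (fun e => ha1 (by
    have := Subgroup.mem_top a; rwa [e, Subgroup.mem_bot] at this))
  obtain ⟨α, hα⟩ := exists_tri hT hR (fun t ht s => by
    by_cases e : t = 1
    · rw [e]; exact Commute.one_right s
    · obtain ⟨k, rfl⟩ := htrans z t (orderOf_eq_two hz1 hz) (orderOf_eq_two e ht)
      simpa using (hzc ((φ ^ k).symm s)).map (φ ^ k)) (fun u hu hu1 => by
    obtain ⟨t, ht, ht1, htu⟩ := h4.exists_ne u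
    obtain ⟨k, rfl⟩ := htrans u t (orderOf_eq_two hu1 hu) (orderOf_eq_two ht1 ht)
    exact ⟨_, htu⟩) hz hz1
  rcases hα.classify with ⟨n, x, y, H⟩ | ⟨⟨e⟩⟩
  · exact Or.inl ⟨n + 1, by omega, H.equiv⟩
  · obtain ⟨f⟩ := sylow_psu_equiv hF P
    exact Or.inr ⟨e.trans f.symm⟩

end Cfsg.Agent.S1237
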