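import Cfsg.Statements.S1238
import Cfsg.Agent.H6.Rank2
import Cfsg.Agent.H6.StrongEmb

set_option autoImplicit false
open Cfsg

namespace Cfsg.Agent.S1238

set_option linter.unusedVariables false
set_option linter.style.haveILetI false
open Cfsg.Agent.H6


/-- Let G be a finite group of 2-rank 2 (a Klein four-subgroup but no elementary abelian subgroup of order 8) which is fusion simple: G has no subgroup of index 2 and no isolated involution. Let S be a Sylow 2-subgroup. Then S is dihedral, quasi-dihedral, wreathed, isomorphic to Z_{2^n} × Z_{2^n} for some n ≥ 2, or isomorphic to a Sylow 2-subgroup of PSU(3) over the field with 16 elements. -/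
theorem result {G : Type*} [Group G] [Finite G] (h2 : Cfsg.PRankLE 2 2 G) (h1 : ¬ Cfsg.PRankLE 2 1 G) (hidx : ∀ H : Subgroup G, H.index ≠ 2) (hiso : ∀ z : G, ¬ Cfsg.IsIsolatedInvolution z) (S : Sylow 2 G) {F : Type*} [Field F] [Fintype F] (hF : Fintype.card F = 16) (P : Sylow 2 (Cfsg.PSU 3 F 4)) : (∃ m : ℕ, 2 ≤ m ∧ Nonempty ((S : Subgroup G) ≃* DihedralGroup m)) ∨ Cfsg.IsQuasiDihedral (S : Subgroup G) ∨ Cfsg.IsWreathed (S : Subgroup G) ∨ (∃ n : ℕ, 2 ≤ n ∧ Nonempty ((S : Subgroup G) ≃* Multiplicative (ZMod (2 ^ n) × ZMod (2 ^ n)))) ∨ Nonempty ((S : Subgroup G) ≃* (P : Subgroup (Cfsg.PSU 3 F 4))) := by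
  have hR : R2 (S : Subgroup G) :=
    (r2_of_pRankLE h2).of_injective _ (S : Subgroup G).subtype_injective
  have h4 : Has4 (S : Subgroup G) := by
    obtain ⟨a, b, ha, hb, hab, ha1, hb1, hne⟩ := has4_of_not_pRankLE h1
    obtain ⟨g, hg⟩ := exists_conj_mem_sylow (isPGroup_sup_of_le_normalizer
      (isPGroup_zpowers_of_mul_self ha) (isPGroup_zpowers_of_mul_self hb) (Subgroup.zpowers_le.2
      (centralizer_le_normalizer' _ (by rintro _ ⟨i, rfl⟩; exact (hab.zpow_right i).symm.eq)))) S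
    refine ⟨⟨_, hg a (Subgroup.mem_sup_left (Subgroup.mem_zpowers a))⟩,
      ⟨_, hg b (Subgroup.mem_sup_right (Subgroup.mem_zpowers b))⟩, Subtype.ext (conj_mul_self ha g),
      Subtype.ext (conj_mul_self hb g), Subtype.ext (hab.map (MulAut.conj g)).eq, ?_, ?_, ?_⟩ <;>
      simpa [Subtype.ext_iff, conj_eq_one_iff]
  have hsyl : ∀ z : (S : Subgroup G), (∀ s, Commute s z) →
      IsSylowIn 2 (S : Subgroup G) (Subgroup.centralizer {(z : G)}) := fun z hz =>
    IsSylowIn.of_le_sylow S fun s hs =>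
      mem_centralizer_singleton.2 ((hz ⟨s, hs⟩).map (S : Subgroup G).subtype)
  have := shape_of_fusion S.isPGroup' hR h4 (fun t z => IsConj (t : G) z) (fun z hz hz1 hzc => by
    have hz' : (z : G) * z = 1 := congrArg Subtype.val hz
    have := hiso z
    unfold IsIsolatedInvolution at this
    push Not at this
    obtain ⟨g, hg, hne⟩ := this (orderOf_eq_two (fun e => hz1 (Subtype.ext e)) hz')
    obtain ⟨c, hc, e⟩ := (hsyl z hzc).exists_conj (isPGroup_zpowers_of_mul_self (conj_mul_self hz' g))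
      (Subgroup.zpowers_le.2 (mem_centralizer_singleton.2 hg.symm))
    refine ⟨⟨_, e _ (Subgroup.mem_zpowers _)⟩, fun e' => hne ?_, ?_⟩
    · have h3 : c * (g * z * g⁻¹) * c⁻¹ = z := congrArg Subtype.val e'
      have h4 := commute_iff_conj_eq.1 (mem_centralizer_singleton.1 hc)
      exact (MulAut.conj c).injective (h3.trans h4.symm)
    · exact (isConj_iff.2 ⟨c * g, by group⟩).symm) (fun z hz hz1 hzc t ht => by
    obtain ⟨g, hg⟩ := isConj_iff.1 ht
    obtain ⟨c, hc, e⟩ := (hsyl z hzc).exists_conj (isPGroup_cj ((S.isPGroup'.to_subgroup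
      (Subgroup.centralizer {t})).map (S : Subgroup G).subtype) g) (cj_le_iff.2 (by
        rintro _ ⟨x, hx, rfl⟩
        rw [← hg, ← cj_centralizer_singleton]
        exact conj_mem_cj g (mem_centralizer_singleton.2
          ((mem_centralizer_singleton.1 hx).map (S : Subgroup G).subtype))))
    refine ⟨((MulAut.conj (c * g)).toMonoidHom.comp ((S : Subgroup G).subtype.comp
      (Subgroup.subtype _))).codRestrict _ fun x => ?_, fun x y e => ?_, Subtype.ext ?_,
      fun h => (isConj_iff.2 ⟨c * g, rfl⟩).symm⟩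
    · have := e _ (conj_mem_cj g ⟨x, x.2, rfl⟩)
      simpa [mul_assoc] using this
    · exact Subtype.ext (Subtype.ext ((MulAut.conj (c * g)).injective (congrArg Subtype.val e)))
    · have h4 := commute_iff_conj_eq.1 (mem_centralizer_singleton.1 hc)
      rw [← h4, ← hg]
      simp [mul_assoc])
  rcases this with h | h | h | ⟨n, x, y, H⟩ | ⟨⟨e⟩⟩
  · exact Or.inl h
  · exact Or.inr (Or.inl h)
  · exact Or.inr (Or.inr (Or.inl h))
  · exact Or.inr (Or.inr (Or.inr (Or.inl ⟨n + 2, by omega, H.equiv⟩)))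
  · obtain ⟨f⟩ := sylow_psu_equiv hF P
    exact Or.inr (Or.inr (Or.inr (Or.inr ⟨e.trans f.symm⟩)))

end Cfsg.Agent.S1238
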