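import Cfsg.Statements.S1239
import Cfsg.Agent.H6.ZS
import Cfsg.Agent.H6.MCFusion
import Cfsg.Agent.H6.WFusion

set_option autoImplicit false
open Cfsg

namespace Cfsg.Agent.S1239

set_option linter.unusedVariables false
set_option linter.style.haveILetI false
open Cfsg.Agent.H6


/-- Let X be a finite group whose Sylow 2-subgroup S is quasi-dihedral or wreathed, and suppose some involution of S is isolated in X. Then the product of the largest normal odd-order subgroup O(X) with the centre of S is normal in X. -/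
theorem result {X : Type*} [Group X] [Finite X] (S : Sylow 2 X) (hS : Cfsg.IsQuasiDihedral (S : Subgroup X) ∨ Cfsg.IsWreathed (S : Subgroup X)) (z : X) (hzS : z ∈ S) (hz : Cfsg.IsIsolatedInvolution z) : (Cfsg.oddCore X ⊔ (Subgroup.center (S : Subgroup X)).map (S : Subgroup X).subtype).Normal := by
  have key : (∀ c ∈ (Subgroup.center (S : Subgroup X)).map (S : Subgroup X).subtype,
      ∀ g : X, g * c * g⁻¹ ∈ (S : Subgroup X) → g * c * g⁻¹ = c) →
      (Cfsg.oddCore X ⊔ (Subgroup.center (S : Subgroup X)).map (S : Subgroup X).subtype).Normal := by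
    intro h
    refine ⟨fun n hn g => ?_⟩
    obtain ⟨o, ho, c, hc, rfl⟩ := Subgroup.mem_sup_of_normal_left.1 hn
    have h1 := zstar_wc S (Subgroup.map_subtype_le _ hc) (h c hc) g
    have : g * (o * c) * g⁻¹ = (g * o * g⁻¹) * (c * g * c⁻¹ * g⁻¹)⁻¹ * c := by group
    rw [this]
    exact Subgroup.mul_mem _ (Subgroup.mem_sup_left (Subgroup.mul_mem _
      (Subgroup.Normal.conj_mem inferInstance _ ho _) (inv_mem h1))) (Subgroup.mem_sup_right hc)
  have hzc : ∀ s ∈ (S : Subgroup X), Commute s z := fun s hs =>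
    Iso.commute_of_mem_two_group hz S.isPGroup' hzS hs
  have hzZ : z ∈ (Subgroup.center (S : Subgroup X)).map (S : Subgroup X).subtype := by
    rw [map_center_eq_inf]
    exact ⟨hzS, fun s hs => hzc s hs⟩
  refine key ?_
  rcases hS with hS | hS
  · obtain ⟨m, hm, ⟨T⟩⟩ := exists_tab_qd_sylow hS
    have hZ : ∀ c ∈ (Subgroup.center (S : Subgroup X)).map (S : Subgroup X).subtype,
        c = 1 ∨ c = T.a (2 * 2 ^ m) := by
      intro c hc
      obtain ⟨i, hi, rfl⟩ := (T.mem_center_iff hm.exists_ne).1 hc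
      rcases hm.toCy.half (hm.fix_iff.1 hi) with rfl | rfl
      · exact Or.inl T.a_zero
      · exact Or.inr rfl
    have hz' := (hZ z hzZ).resolve_left (ne_one_of_orderOf_two hz.1)
    intro c hc g hg
    rcases hZ c hc with rfl | rfl
    · simp
    · rw [← hz'] at hg ⊢
      exact hz.2 g (hzc _ hg).symm
  · obtain ⟨m, ⟨T⟩⟩ := exists_tab_wreathed' hS
    have hm := cy_zmod m
    rw [hm.w_map_center T] at hzZ ⊢
    have hz' : z = T.a (2 * 2 ^ m, 2 * 2 ^ m) := by
      obtain ⟨⟨i, j⟩, hi, rfl⟩ := T.mem_sub.1 hzZ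
      have h2 := T.orderOf_a_two.1 hz.1
      rw [mem_dif, one_mul, sub_eq_zero] at hi
      dsimp at hi
      subst hi
      rcases hm.half (i := i) (by rw [two_mul]; exact congrArg Prod.fst h2.2) with rfl | rfl
      · exact absurd rfl h2.1
      · rfl
    have hU : OddTriv (T.sub ⊤) := by
      refine ((hm.U_local S T).resolve_right ?_).2
      rintro ⟨-, g, -, i, j, -, e⟩
      obtain ⟨c, hc⟩ := isConj_iff.1 (hm.isConj_c_e S T e)
      have := hz.2 c (by rw [hz', hc]; exact T.commute_aa _ _)
      rw [hz', hc] at this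
      exact hm.e_ne_c S T this
    exact fun c hc g hg => hm.conj_Z_eq S T hU hc g hg

end Cfsg.Agent.S1239
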