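import Cfsg.Statements.S1241
import Cfsg.Agent.H6.Transfer

set_option autoImplicit false
open Cfsg

namespace Cfsg.Agent.S1241

set_option linter.unusedVariables false
open Cfsg.Agent.H6


/-- Let G be a finite group, p a prime, H a subgroup of index prime to p, K a subgroup of H normal in H with H/K commutative, and g ∈ H ∖ K an element of p-power order such that for all integers m and all a ∈ G with a g^m a⁻¹ ∈ H one has a g^m a⁻¹ ∈ g^m K. Then g ∉ G'. -/
theorem result {G : Type*} [Group G] [Finite G] {p : ℕ} [Fact p.Prime] (H K : Subgroup G) (hHK : K ≤ H) (hKn : (K.subgroupOf H).Normal) (hab : ∀ x ∈ H, ∀ y ∈ H, x * y * x⁻¹ * y⁻¹ ∈ K) (hidx : Nat.Coprime p H.index) (g : G) (hgH : g ∈ H) (hgK : g ∉ K) (hgp : ∃ k : ℕ, orderOf g = p ^ k) (hctrl : ∀ (m : ℤ) (a : G), a * g ^ m * a⁻¹ ∈ H → (a * g ^ m * a⁻¹) * (g ^ m)⁻¹ ∈ K) : g ∉ commutator G := by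
  obtain ⟨k, hk⟩ := hgp
  refine not_mem_commutator_of_controlled (p := p) H K hKn hab hidx g hgH hgK
    ⟨k, by rw [← hk, pow_orderOf_eq_one]⟩ fun m a h => ?_
  have := hctrl m a (by simpa using h)
  simpa using this

end Cfsg.Agent.S1241
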