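import Cfsg.Statements.S1242
import Cfsg.Agent.H6.Transfer

set_option autoImplicit false
open Cfsg

namespace Cfsg.Agent.S1242

set_option linter.unusedVariables false
open Cfsg.Agent.H6


/-- Let G be a finite group, p a prime and H a subgroup of index prime to p such that any two elements of H of p-power order that are conjugate in G are conjugate in H. Then (O^p(G)·G') ∩ H = O^p(H)·H', where O^p denotes the subgroup generated by the elements of order prime to p. -/
theorem result {G : Type*} [Group G] [Finite G] {p : ℕ} [Fact p.Prime] (H : Subgroup G) (hidx : Nat.Coprime p H.index) (hfus : ∀ g ∈ H, (∃ k : ℕ, orderOf g = p ^ k) → ∀ a : G, a * g * a⁻¹ ∈ H → ∃ h ∈ H, h * g * h⁻¹ = a * g * a⁻¹) : (Cfsg.pResidual p G ⊔ commutator G) ⊓ H = (Cfsg.pResidual p ↥H ⊔ commutator ↥H).map H.subtype := by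
  refine controls_transfer H hidx fun g hg hk => hfus g hg ?_
  obtain ⟨k, hk⟩ := hk
  obtain ⟨j, -, hj⟩ := (Nat.dvd_prime_pow (Fact.out : p.Prime)).1 (orderOf_dvd_of_pow_eq_one hk)
  exact ⟨j, hj⟩

end Cfsg.Agent.S1242
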