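import Cfsg.Statements.S1243
import Cfsg.Agent.H6.Basic

set_option autoImplicit false
open Cfsg

namespace Cfsg.Agent.S1243

set_option linter.unusedVariables false
open Cfsg.Agent.H6


/-- Let T be a Sylow p-subgroup of the finite group G and W ≤ T a subgroup weakly closed in T. If d and g d g⁻¹ both centralize W, then g d g⁻¹ = h d h⁻¹ for some h ∈ N_G(W). -/
theorem result {G : Type*} [Group G] [Finite G] {p : ℕ} [Fact p.Prime] (T : Sylow p G) (W : Subgroup G) (hW : Cfsg.IsWeaklyClosed W (T : Subgroup G)) (d g : G) (hd : d ∈ Subgroup.centralizer (W : Set G)) (hgd : g * d * g⁻¹ ∈ Subgroup.centralizer (W : Set G)) : ∃ h ∈ Subgroup.normalizer (W : Set G), h * d * h⁻¹ = g * d * g⁻¹ := by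
  have hWp : IsPGroup p W := T.2.to_le hW.1
  -- W and W^{g⁻¹} lie in C(d)
  set C := Subgroup.centralizer ({d} : Set G)
  have h1 : W ≤ C := fun w hw => mem_centralizer_singleton.2 (Subgroup.mem_centralizer_iff.1 hd w hw)
  have h2 : cj W g⁻¹ ≤ C := by
    refine cj_le_iff.2 fun w hw => mem_centralizer_singleton.2 ?_
    have : Commute w (g * d * g⁻¹) := Subgroup.mem_centralizer_iff.1 hgd w hw
    have := this.conj g⁻¹
    convert this using 1; group
  obtain ⟨P, hP, hWP⟩ := exists_isSylowIn hWp h1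
  obtain ⟨c, hc, hcP⟩ := hP.exists_conj (isPGroup_cj hWp g⁻¹) h2
  obtain ⟨x, hx⟩ := exists_conj_mem_sylow hP.pgroup T
  have e1 : cj W x = W := hW.2 x (cj_le_iff.2 fun a ha => hx a (hWP ha))
  have e2 : cj W (x * (c * g⁻¹)) = W := hW.2 _ (by
    rw [← cj, cj_mul, cj_mul]
    exact cj_le_iff.2 fun a ha => hx a (cj_le_iff.2 hcP ha))
  have e3 : cj W (c * g⁻¹) = W := by
    apply cj_injective x
    rw [← cj_mul, e1, e2]
  refine ⟨(c * g⁻¹)⁻¹, inv_mem (cj_eq_iff_mem_normalizer.1 e3), ?_⟩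
  have hcd : Commute c d := mem_centralizer_singleton.1 hc
  calc (c * g⁻¹)⁻¹ * d * (c * g⁻¹)⁻¹⁻¹ = g * (c⁻¹ * d * c⁻¹⁻¹) * g⁻¹ := by group
    _ = _ := by rw [commute_iff_conj_eq.1 hcd.inv_left]

end Cfsg.Agent.S1243
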