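import Cfsg.Statements.S1244
import Cfsg.Agent.H6.Transfer

set_option autoImplicit false
open Cfsg

namespace Cfsg.Agent.S1244

set_option linter.unusedVariables false
open Cfsg.Agent.H6


/-- Let G be a finite group with no subgroup of index 2 whose Sylow 2-subgroup S is commutative, and let R ≤ S be a subgroup whose 2-rank is exactly one less than the 2-rank r of S. Then every involution of S is conjugate, by an element of N_G(S), to an element of R. -/
theorem result {G : Type*} [Group G] [Finite G] (hG : ∀ H : Subgroup G, H.index ≠ 2) (S : Sylow 2 G) (hS : IsMulCommutative (S : Subgroup G)) (r : ℕ) (hr1 : 1 ≤ r) (hSr : Cfsg.PRankLE 2 r (S : Subgroup G) ∧ ¬ Cfsg.PRankLE 2 (r - 1) (S : Subgroup G)) (R : Subgroup G) (hRS : R ≤ S) (hRr : Cfsg.PRankLE 2 (r - 1) R ∧ (r = 1 ∨ ¬ Cfsg.PRankLE 2 (r - 2) R)) (t : G) (ht : orderOf t = 2) (htS : t ∈ S) : ∃ n ∈ Subgroup.normalizer ((S : Subgroup G) : Set G), n * t * n⁻¹ ∈ R := by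
  have comm : ∀ x ∈ (S : Subgroup G), ∀ y ∈ (S : Subgroup G), x * y = y * x := fun x hx y hy =>
    congrArg Subtype.val (hS.is_comm.comm (⟨x, hx⟩ : (S : Subgroup G)) ⟨y, hy⟩)
  have ht2 := mul_self_of_orderOf_two ht
  -- the subgroup of elements of order dividing two
  let Ω : Subgroup G :=
    { carrier := {x | x ∈ (S : Subgroup G) ∧ x * x = 1}
      mul_mem' := by
        rintro a b ⟨ha, ha2⟩ ⟨hb, hb2⟩
        refine ⟨mul_mem ha hb, ?_⟩
        calc a * b * (a * b) = a * (b * a) * b := by group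
          _ = (a * a) * (b * b) := by rw [comm b hb a ha]; group
          _ = 1 := by rw [ha2, hb2, one_mul]
      one_mem' := ⟨one_mem _, one_mul _⟩
      inv_mem' := by
        rintro a ⟨ha, ha2⟩
        exact ⟨inv_mem ha, by rw [inv_eq_of_mul_self ha2, ha2]⟩ }
  have hΩS : Ω ≤ (S : Subgroup G) := fun x hx => hx.1
  have hΩ : Nat.card Ω ≤ 2 ^ r := by
    rw [← Nat.card_congr (Subgroup.subgroupOfEquivOfLe hΩS).toEquiv]
    refine hSr.1 _ inferInstance fun a ha => Subtype.ext ?_
    simpa [pow_two] using ha.2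
  have hR : 2 ^ (r - 1) ≤ Nat.card (R ⊓ Ω : Subgroup G) := by
    rcases hRr.2 with h | h
    · subst h; exact Nat.card_pos
    · simp only [PRankLE, not_forall, not_le] at h
      obtain ⟨A, hA1, hA2, hA3⟩ := h
      have hAp : IsPGroup 2 A := fun a => ⟨1, Subtype.ext (by simpa using hA2 a a.2)⟩
      obtain ⟨k, hk⟩ := IsPGroup.iff_card.1 hAp
      rw [hk] at hA3
      have hk' : r - 2 < k := (Nat.pow_lt_pow_iff_right one_lt_two).1 hA3
      have hle : A.map R.subtype ≤ R ⊓ Ω := by
        rintro _ ⟨a, ha, rfl⟩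
        refine ⟨a.2, hRS a.2, ?_⟩
        have := congrArg Subtype.val (hA2 a ha)
        simpa [pow_two] using this
      have := Subgroup.card_le_of_le hle
      rw [Subgroup.card_map_of_injective R.subtype_injective, hk] at this
      exact le_trans (Nat.pow_le_pow_right two_pos (by omega)) this
  have hidx : R.relIndex Ω ≤ 2 := by
    have h1 := (R.subgroupOf Ω).card_mul_index
    rw [← Subgroup.inf_subgroupOf_right,
      Nat.card_congr (Subgroup.subgroupOfEquivOfLe (inf_le_right (a := R))).toEquiv,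
      Subgroup.inf_subgroupOf_right] at h1
    have h2 : 2 ^ r = 2 ^ (r - 1) * 2 := by rw [← pow_succ]; congr 1; omega
    by_contra h3
    have h4 : 3 ≤ (R.subgroupOf Ω).index := not_le.1 h3
    have : 0 < 2 ^ (r - 1) := by positivity
    nlinarith
  by_contra hcon
  push Not at hcon
  have htR : t ∉ R := by simpa using hcon 1 (one_mem _)
  have hidx2 : (R.subgroupOf Ω).index = 2 := by
    have h0 : (R.subgroupOf Ω).index ≠ 0 := Subgroup.index_ne_zero_of_finite
    have h1 : (R.subgroupOf Ω).index ≠ 1 := by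
      rw [Ne, Subgroup.index_eq_one, Subgroup.subgroupOf_eq_top]
      exact fun h => htR (h ⟨htS, ht2⟩)
    have : (R.subgroupOf Ω).index ≤ 2 := hidx
    omega
  refine not_mem_commutator_of_controlled (p := 2) S R ?_ ?_ ?_ t htS htR
    ⟨1, by simpa [pow_two] using ht2⟩ ?_ (mem_commutator_of_no_index_two hG ⟨1, by simpa [pow_two] using ht2⟩)
  · infer_instance
  · intro x hx y hy
    rw [comm x hx y hy]; simp
  · exact (Nat.Prime.coprime_iff_not_dvd Nat.prime_two).2 S.not_dvd_index
  · intro m a ha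
    rcases (mem_zpowers_of_mul_self ht2).1 (Subgroup.npow_mem_zpowers t m) with h | h
    · rw [h]; simp
    · rw [h] at ha ⊢
      obtain ⟨n, hn, hn'⟩ := S.conj_eq_normalizer_conj_of_mem t a⁻¹ htS (by rw [inv_inv]; exact ha)
      have h1 : a * t * a⁻¹ ∉ R := by
        have := hcon n⁻¹ (inv_mem hn)
        simp only [inv_inv] at hn' this
        rwa [hn']
      have := (Subgroup.mul_mem_iff_of_index_two hidx2
        (a := ⟨a * t * a⁻¹, ha, conj_mul_self ht2 a⟩) (b := ⟨t, htS, ht2⟩⁻¹)).2 (by
          simp only [Subgroup.mem_subgroupOf, inv_mem_iff]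
          exact iff_of_false h1 htR)
      exact this

end Cfsg.Agent.S1244
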