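import Cfsg.Statements.S1246
import Cfsg.Agent.H6.FStar

set_option autoImplicit false
open Cfsg

namespace Cfsg.Agent.S1246

set_option linter.unusedVariables false
set_option linter.style.haveILetI false
open Cfsg.Agent.H6


/-- Let V ≤ U be p-subgroups of the finite group G. If the generalized Fitting subgroup of C_G(V) is a p-group, then so is that of C_G(U). -/
theorem result {G : Type*} [Group G] [Finite G] {p : ℕ} [Fact p.Prime] (U V : Subgroup G) (hVU : V ≤ U) (hU : IsPGroup p U) (hV : IsPGroup p ↥(Cfsg.generalizedFittingSubgroup ↥(Subgroup.centralizer (V : Set G)))) : IsPGroup p ↥(Cfsg.generalizedFittingSubgroup ↥(Subgroup.centralizer (U : Set G))) := by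
  induction hn : V.index using Nat.strong_induction_on generalizing V with
  | _ n ih =>
  rcases hVU.eq_or_lt with rfl | hlt
  · exact hV
  have h1 := H2.lt_inf_normalizer_of_nilpotent hU.isNilpotent hlt
  refine ih _ (hn ▸ Subgroup.index_strictAnti h1) _ inf_le_left ?_ rfl
  have := isPGroup_fstar_inf_centralizer (U := U ⊓ Subgroup.normalizer (V : Set G)) hU.to_inf_left
    (inf_le_right.trans (H1.normalizer_le_normalizer_centralizer V)) hV
  rwa [inf_eq_right.2 (Subgroup.centralizer_le (SetLike.coe_subset_coe.2 h1.le))] at this

end Cfsg.Agent.S1246
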