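import Cfsg.Statements.S1247
import Cfsg.Agent.H6.FStar
import Cfsg.Agent.H6.FusAux

set_option autoImplicit false
open Cfsg

namespace Cfsg.Agent.S1247

set_option linter.unusedVariables false
set_option linter.style.haveILetI false
open Cfsg.Agent.H6


/-- Let G be a non-abelian finite simple group, A a maximal subgroup, F = F*(A) its generalized Fitting subgroup (viewed in G), and S ≤ F a subgroup subnormal in F with C_F(S) ≤ S. Let B be any subgroup of G containing S. Then (a) for every prime q not dividing |F(A)|, O_q(B) ∩ A = 1; and (b) for every prime p dividing |F(A)|, O_p(B) commutes elementwise with the subgroup of F generated by its elements of order prime to p. -/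
theorem result {G : Type*} [Group G] [Finite G] [IsSimpleGroup G] (hna : ¬ IsMulCommutative G) (A : Subgroup G) (hA : IsCoatom A) (S : Subgroup G) (hSF : S ≤ (Cfsg.generalizedFittingSubgroup ↥A).map A.subtype) (hSsn : (S.subgroupOf ((Cfsg.generalizedFittingSubgroup ↥A).map A.subtype)).IsSubnormal) (hSC : (Cfsg.generalizedFittingSubgroup ↥A).map A.subtype ⊓ Subgroup.centralizer (S : Set G) ≤ S) (B : Subgroup G) (hSB : S ≤ B) : (∀ q : ℕ, q.Prime → ¬ q ∣ Nat.card (Cfsg.fittingSubgroup ↥A) → (Cfsg.pCore q ↥B).map B.subtype ⊓ A = ⊥) ∧ (∀ p : ℕ, p.Prime → p ∣ Nat.card (Cfsg.fittingSubgroup ↥A) → ∀ x ∈ (Cfsg.pCore p ↥B).map B.subtype, ∀ y ∈ (Cfsg.pResidual p ↥(Cfsg.generalizedFittingSubgroup ↥A)).map ((Cfsg.generalizedFittingSubgroup ↥A).subtype) , x * (A.subtype y) = (A.subtype y) * x) := by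
  have hSA : S ≤ A := hSF.trans (Subgroup.map_subtype_le _)
  set F := Cfsg.generalizedFittingSubgroup ↥A with hF
  have hSF' : S.subgroupOf A ≤ F := fun x hx => by
    obtain ⟨y, hy, e⟩ := hSF hx; rwa [← show y = x from Subtype.ext e]
  have hS : (S.subgroupOf A).IsSubnormal := Subgroup.IsSubnormal.trans hSF'
    (hSsn.comap (F.equivMapOfInjective A.subtype A.subtype_injective).toMonoidHom)
    fstar_normal.isSubnormal
  have hC : F ⊓ Subgroup.centralizer (S.subgroupOf A : Set A) ≤ S.subgroupOf A := fun x hx =>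
    hSC ⟨⟨x, hx.1, rfl⟩, fun s hs => congrArg Subtype.val (hx.2 ⟨s, hSA hs⟩ hs)⟩
  have hE := layer_le_of_large hS hC
  have hN : ∀ X : Subgroup G, S ≤ Subgroup.normalizer (X : Set G) →
      S.subgroupOf A ≤ Subgroup.normalizer (X.subgroupOf A : Set A) := fun X h s hs =>
    mem_normalizer_of_forall fun x hx => conj_mem_of_mem_normalizer (A := X) (h hs) hx
  have hP : ∀ p, S ≤ Subgroup.normalizer ((pCore p B).map B.subtype : Set G) := fun p =>
    hSB.trans (H1.le_normalizer_map_of_normal _)
  refine ⟨fun q hq hnd => ?_, fun p hp hd => ?_⟩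
  · haveI := Fact.mk hq
    set D := ((pCore q B).map B.subtype).subgroupOf A
    have hD : IsPGroup q D := ((H1.pCore_isPGroup q B).map _).comap_subtype
    have h1 : D ≤ fittingSubgroup A := le_trans (Subgroup.le_centralizer_iff.1 (fstar_le_iff.2
      ⟨layer_le_centralizer_of_isPGroup hD (hE.trans (hN _ (hP q))), fun r hr => ?_⟩))
      centralizer_fstar_le
    · rw [← Subgroup.subgroupOf_map_subtype, Subgroup.map_eq_bot_iff_of_injective _
        A.subtype_injective]
      exact ((H1.disjoint_of_isPGroup_of_coprime hD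
        (H1.coprime_iff_not_dvd.2 hnd)).eq_bot_of_le h1)
    · haveI := Fact.mk hr
      by_cases e : r = q
      · subst e
        rw [(H1.disjoint_of_isPGroup_of_coprime (H1.pCore_isPGroup r A)
          (H1.coprime_iff_not_dvd.2 hnd)).eq_bot_of_le (H1.pCore_le_fittingSubgroup r)]
        exact bot_le
      · exact Subgroup.le_centralizer_iff.1 (le_centralizer_pCore_of_large hS hSF' hC r
          (H1.IsPGroup.coprime_card_of_not_dvd hD fun h =>
            e ((Nat.prime_dvd_prime_iff_eq hq hr).1 h).symm)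
          (le_centralizer_inf_pCore e hD (hN _ (hP q))))
  · haveI := Fact.mk hp
    set P := (pCore p B).map B.subtype
    have hPp : IsPGroup p P := (H1.pCore_isPGroup p B).map _
    -- centres of the cores
    have hZ : ∀ r : ℕ, r.Prime → pCore r A ≠ ⊥ → ∃ Z : Subgroup A, Z ≤ pCore r A ∧
        Z ≤ Subgroup.centralizer (F : Set A) ∧ Z ≤ S.subgroupOf A ∧
        Subgroup.centralizer (Z.map A.subtype : Set G) ≤ A := by
      intro r hr hne
      haveI := Fact.mk hr
      refine ⟨_, inf_le_left, center_pCore_le r, (le_inf (inf_le_left.trans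
        ((H1.pCore_le_fittingSubgroup r).trans le_sup_right)) ((center_pCore_le r).trans
        (Subgroup.centralizer_le (SetLike.coe_subset_coe.2 hSF')))).trans hC,
        (centralizer_le_normalizer' _).trans (normalizer_eq_of_isCoatom hA ?_
          (Subgroup.map_subtype_le _) (H1.le_normalizer_map_of_normal _)).le⟩
      rw [Ne, Subgroup.map_eq_bot_iff_of_injective _ A.subtype_injective, ← map_center_eq_inf,
        Subgroup.map_eq_bot_iff_of_injective _ (Subgroup.subtype_injective _)]
      haveI := (Subgroup.nontrivial_iff_ne_bot _).2 hne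
      exact (Subgroup.nontrivial_iff_ne_bot _).1 (H1.pCore_isPGroup r A).center_nontrivial
    obtain ⟨Z, hZ1, hZ2, hZ3, hZ4⟩ := hZ p hp (by
      obtain ⟨x, hx⟩ := exists_prime_orderOf_dvd_card' p hd
      intro e
      have := H1.le_pCore_of_le_fittingSubgroup (isPGroup_zpowers_of_pow (p := p) (k := 1)
        (x := (x : A)) (by rw [pow_one, ← hx, ← Subgroup.coe_pow, pow_orderOf_eq_one]; rfl))
        (Subgroup.zpowers_le.2 x.2) (Subgroup.mem_zpowers _)
      rw [e, Subgroup.mem_bot, OneMemClass.coe_eq_one] at this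
      rw [this, orderOf_one] at hx
      exact hp.ne_one hx.symm)
    have hZS : Z.map A.subtype ≤ S := Subgroup.map_le_iff_le_comap.2 hZ3
    have hSZ : S ≤ Subgroup.centralizer (Z.map A.subtype : Set G) := by
      rintro s hs _ ⟨z, hz, rfl⟩
      exact congrArg Subtype.val (hZ2 hz ⟨s, hSA hs⟩ (hSF' hs)).symm
    set P₀ := (P ⊓ Subgroup.centralizer (Z.map A.subtype : Set G)).subgroupOf A
    have hP₀ : IsPGroup p P₀ := hPp.to_inf_left.comap_subtype
    have hNP₀ : S.subgroupOf A ≤ Subgroup.normalizer (P₀ : Set A) :=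
      hN _ (H1.le_normalizer_inf (hP p) (hSZ.trans Subgroup.le_normalizer))
    set W := (Subgroup.centralizer (P : Set G)).subgroupOf A
    have key : ∀ y ∈ S.subgroupOf A, (orderOf y).Coprime p →
        y ∈ Subgroup.centralizer (P₀ : Set A) → y ∈ W := fun y hy ho hc =>
      H1.thompson_P_times_Q (Q := Subgroup.zpowers (y : G))
        (((H1.pCore_isPGroup p A).to_le hZ1).map _) (by rwa [Nat.card_zpowers, Subgroup.orderOf_coe])
        (Subgroup.le_centralizer_iff.1 (Subgroup.zpowers_le.2 (hSZ hy))) P hPp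
        (hZS.trans (hP p)) (Subgroup.zpowers_le.2 (hP p hy))
        (Subgroup.le_centralizer_iff.1 (Subgroup.zpowers_le.2 fun x hx =>
          congrArg Subtype.val (hc ⟨x, hZ4 hx.2⟩ hx))) (Subgroup.mem_zpowers _)
    have hEW : layer A ≤ W := layer_le_iff.2 fun K hK => le_of_perfect_of_coprime hK.2.1
      fun y hy ho => key y (hE (comp_le_layer hK hy)) ho
        (layer_le_centralizer_of_isPGroup hP₀ (hE.trans hNP₀) (comp_le_layer hK hy))
    have hrW : ∀ r : ℕ, r.Prime → r ≠ p → pCore r A ≤ W := by
      intro r hr hne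
      haveI := Fact.mk hr
      have h1 : S.subgroupOf A ⊓ pCore r A ≤ W := fun y hy => key y hy.1 (by
        obtain ⟨k, hk⟩ := H1.pCore_isPGroup r A ⟨y, hy.2⟩
        exact Nat.Coprime.coprime_dvd_left (orderOf_dvd_of_pow_eq_one (congrArg Subtype.val hk))
          (((Nat.coprime_primes hr hp).2 hne).pow_left k))
        (Subgroup.le_centralizer_iff.1 (le_centralizer_inf_pCore hne hP₀ hNP₀) hy)
      by_cases e : pCore r A = ⊥
      · rw [e]; exact bot_le
      obtain ⟨Y, hY1, -, hY3, hY4⟩ := hZ r hr e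
      have hPA : P ≤ A := le_trans (by
        rintro x hx _ ⟨y, hy, rfl⟩
        exact (h1 ⟨hY3 hy, hY1 hy⟩ x hx).symm) hY4
      have := le_centralizer_pCore_of_large hS hSF' hC r (D := P.subgroupOf A)
        (H1.IsPGroup.coprime_card_of_not_dvd hPp.comap_subtype fun h =>
          hne ((Nat.prime_dvd_prime_iff_eq hp hr).1 h).symm)
        fun x hx y hy => Subtype.ext (h1 hy x hx).symm
      exact fun y hy x hx => congrArg Subtype.val (this (x := ⟨x, hPA hx⟩) hx y hy).symm
    have hFW : F ≤ pCore p A ⊔ (W ⊓ Subgroup.centralizer (pCore p A : Set A)) :=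
      fstar_le_iff.2 ⟨le_sup_of_le_right (le_inf hEW (layer_le_centralizer_pCore p)), fun r hr => by
        by_cases e : r = p
        · rw [e]; exact le_sup_left
        · haveI := Fact.mk hr
          exact le_sup_of_le_right (le_inf (hrW r hr e) (pCore_le_centralizer_pCore e))⟩
    have : pResidual p F ≤ W.subgroupOf F := H1.pResidual_le_iff.2 fun g hg => by
      obtain ⟨u, hu, w, hw, e⟩ := Subgroup.mem_sup_of_normal_left.1 (hFW g.2)
      obtain ⟨k, hk⟩ := H1.pCore_isPGroup p A ⟨u, hu⟩
      refine mem_of_pow_mem_of_coprime (n := p ^ k) ?_ (hg.pow_right k)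
      rw [Subgroup.mem_subgroupOf, Subgroup.coe_pow, ← e, (show Commute u w from hw.2 u hu).mul_pow,
        show u ^ p ^ k = 1 from congrArg Subtype.val hk, one_mul]
      exact pow_mem hw.1 _
    rintro x hx _ ⟨y, hy, rfl⟩
    exact this hy x hx

end Cfsg.Agent.S1247
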