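import Cfsg.Statements.S1248
import Cfsg.Agent.H6.U34

set_option autoImplicit false
open Cfsg

namespace Cfsg.Agent.S1248

set_option linter.unusedVariables false
set_option linter.style.haveILetI false
open Cfsg.Agent.H6
open scoped commutatorElement


/-- Let F be a field with 16 elements and S a Sylow 2-subgroup of PSU(3) over F (the unitary group U₃(4)). Then |S| = 64; the centre Z(S) is a Klein four-group and coincides with the subgroup generated by the involutions of S and with the derived subgroup; and every element of S ⧸ Z(S) squares to the identity, S ⧸ Z(S) having order 16. -/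
theorem result {F : Type*} [Field F] [Fintype F] (hF : Fintype.card F = 16) (S : Sylow 2 (Cfsg.PSU 3 F 4)) : Nat.card S = 64 ∧ IsKleinFour (Subgroup.center (S : Subgroup (Cfsg.PSU 3 F 4))) ∧ Subgroup.center (S : Subgroup (Cfsg.PSU 3 F 4)) = Subgroup.closure {x : (S : Subgroup (Cfsg.PSU 3 F 4)) | orderOf x = 2} ∧ Subgroup.center (S : Subgroup (Cfsg.PSU 3 F 4)) = commutator (S : Subgroup (Cfsg.PSU 3 F 4)) ∧ Nat.card ((S : Subgroup (Cfsg.PSU 3 F 4)) ⧸ Subgroup.center (S : Subgroup (Cfsg.PSU 3 F 4))) = 16 ∧ ∀ x : (S : Subgroup (Cfsg.PSU 3 F 4)) ⧸ Subgroup.center (S : Subgroup (Cfsg.PSU 3 F 4)), x ^ 2 = 1 := by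
  obtain ⟨e⟩ := sylow_psu_equiv hF S

  generalize (S : Subgroup (Cfsg.PSU 3 F 4)) = T at e
  have hc : ∀ x : T, x ∈ Subgroup.center T ↔ x * x = 1 := by
    intro x
    rw [← e.map_eq_one_iff, map_mul, ← U64.central_iff, Subgroup.mem_center_iff, e.surjective.forall]
    simp only [← map_mul, e.apply_eq_iff_eq]
  have h64 : Nat.card T = 64 := by rw [Nat.card_congr e.toEquiv, U64.card_eq]
  have h4 : Nat.card (Subgroup.center T) = 4 := by
    refine Eq.trans ?_ (Nat.card_eq_fintype_card.trans U64.card_sq)
    exact Nat.card_congr (e.toEquiv.subtypeEquiv fun x => by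
      rw [hc, ← e.map_eq_one_iff, map_mul]; rfl)
  refine ⟨h64, isKleinFour_iff.2 ⟨h4, fun x hx => (hc x).1 hx⟩, le_antisymm (fun x hx => ?_)
    ((Subgroup.closure_le _).2 fun x hx => (hc x).2 (mul_self_of_orderOf_two hx)),
    le_antisymm (fun x hx => ?_) ?_, ?_, fun x => ?_⟩
  · by_cases h1 : x = 1
    · rw [h1]; exact one_mem _
    · exact Subgroup.subset_closure (orderOf_eq_two h1 ((hc x).1 hx))
  · obtain ⟨y, z, h⟩ := U64.eq_comm_of_sq (e x) (by rw [← map_mul, (hc x).1 hx, map_one])
    have : x = ⁅e.symm y, e.symm z⁆ := e.injective (by simp [h, commutatorElement_def])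
    rw [this]
    exact Subgroup.commutator_mem_commutator (Subgroup.mem_top _) (Subgroup.mem_top _)
  · refine Subgroup.commutator_le.2 fun x _ y _ => (hc _).2 (e.injective ?_)
    simpa [commutatorElement_def] using U64.comm_sq (e x) (e y)
  · have := Subgroup.card_eq_card_quotient_mul_card_subgroup (Subgroup.center T)
    rw [h64, h4] at this
    omega
  · obtain ⟨x, rfl⟩ := QuotientGroup.mk_surjective x
    rw [← QuotientGroup.mk_pow, QuotientGroup.eq_one_iff, hc, pow_two]
    exact e.injective (by simpa using U64.pow_four (e x))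

end Cfsg.Agent.S1248
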