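import Cfsg.Statements.S1253
import Cfsg.Agent.H6.ZS

set_option autoImplicit false
open Cfsg

namespace Cfsg.Agent.S1253

set_option linter.unusedVariables false
set_option linter.style.haveILetI false
open Cfsg.Agent.H6


/-- Let z be an isolated involution of the finite group G with centralizer C, p an odd prime and P a Sylow p-subgroup of G normalized by z. Then P ∩ C has p-power-free index in C (it is a Sylow p-subgroup of C), and |P : C_P(z)| equals the number of elements x ∈ P with z x z⁻¹ = x⁻¹. -/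
theorem result {G : Type*} [Group G] [Finite G] (z : G) (hz : Cfsg.IsIsolatedInvolution z) {p : ℕ} [Fact p.Prime] (hp : p ≠ 2) (P : Sylow p G) (hzP : z ∈ Subgroup.normalizer ((P : Subgroup G) : Set G)) : ¬ p ∣ ((P : Subgroup G) ⊓ Subgroup.centralizer ({z} : Set G)).relIndex (Subgroup.centralizer ({z} : Set G)) ∧ ((P : Subgroup G) ⊓ Subgroup.centralizer ({z} : Set G)).relIndex (P : Subgroup G) = Nat.card {x : G // x ∈ P ∧ z * x * z⁻¹ = x⁻¹} := by
  have hp' : p.Prime := Fact.out
  constructor
  · obtain ⟨R, hR, -⟩ := exists_isSylowIn (p := p) (H := Subgroup.centralizer ({z} : Set G))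
      IsPGroup.of_bot bot_le
    obtain ⟨P', hP', hRP, hzP'⟩ := exists_invariant_sylow_ge hz hR.pgroup
      (centralizer_le_normalizer' _ fun r hr => (mem_centralizer_singleton.1 (hR.le hr)).eq)
    obtain ⟨g, -, hg⟩ := hP'.exists_cj_eq (isSylowIn_top P)
    have h1 : g⁻¹ * z * g⁻¹⁻¹ ∈ Subgroup.normalizer ((P : Subgroup G) : Set G) := by
      rw [← hg, ← cj_normalizer, mem_cj] at hzP'
      rwa [inv_inv]
    obtain ⟨k, hk, e⟩ := Iso.conj_in_subgroup hz _ hzP _ h1
    have h2 : g * k * z * (g * k)⁻¹ = z := by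
      calc g * k * z * (g * k)⁻¹ = g * (k * z * k⁻¹) * g⁻¹ := by group
        _ = z := by rw [e]; group
    have h3 : cj ((P : Subgroup G) ⊓ Subgroup.centralizer ({z} : Set G)) (g * k) =
        P' ⊓ Subgroup.centralizer ({z} : Set G) := by
      rw [cj_inf, cj_centralizer_singleton, h2, cj_mul, cj_eq_iff_mem_normalizer.2 hk, hg]
    refine (isSylowIn_of_card_le hR (P.isPGroup'.to_le inf_le_left) inf_le_right ?_).not_dvd
    rw [← card_cj (_ ⊓ _) (g * k), h3]
    exact Subgroup.card_le_of_le (le_inf hRP hR.le)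
  · have hodd : Odd (Nat.card (P : Subgroup G)) := by
      obtain ⟨k, hk⟩ := P.isPGroup'.exists_card_eq
      rw [hk]
      exact (hp'.odd_of_ne_two hp).pow
    have hzz := inv_eq_of_mul_self (Iso.sq hz)
    rw [Subgroup.relIndex, index_eq_ncard_range
      (fun x : (P : Subgroup G) => (x : G) * z * (x : G)⁻¹ * z⁻¹)]
    · rw [← Nat.card_coe_set_eq]
      refine Nat.card_congr (Equiv.subtypeEquivRight fun x => ⟨?_, ?_⟩)
      · rintro ⟨y, rfl⟩
        refine ⟨?_, ?_⟩
        · have := (P : Subgroup G).mul_mem y.2 (conj_mem_of_mem_normalizer hzP (inv_mem y.2))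
          rw [← mul_assoc, ← mul_assoc] at this
          exact this
        · calc z * ((y : G) * z * (y : G)⁻¹ * z⁻¹) * z⁻¹
              = z * (y : G) * z * (y : G)⁻¹ * (z * z)⁻¹ := by group
            _ = z * (y : G) * z⁻¹ * (y : G)⁻¹ := by rw [Iso.sq hz, hzz]; group
            _ = _ := by group
      · rintro ⟨h1, h2⟩
        obtain ⟨y, hy, rfl⟩ := exists_sq_eq_of_odd (odd_orderOf_of_odd_card hodd h1)
        have h3 := inverts_of_mem_zpowers h2 hy
        refine ⟨⟨y, Subgroup.zpowers_le.2 h1 hy⟩, ?_⟩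
        calc y * z * y⁻¹ * z⁻¹ = y * (z * y * z⁻¹)⁻¹ := by group
          _ = y ^ 2 := by rw [h3, inv_inv, pow_two]
    · intro x y
      rw [Subgroup.mem_subgroupOf, Subgroup.mem_inf, mem_centralizer_singleton, mul_left_inj]
      rw [and_iff_right (x⁻¹ * y).2, Subgroup.coe_mul, Subgroup.coe_inv, commute_iff_conj_eq]
      generalize (x : G) = a
      generalize (y : G) = b
      constructor
      · intro e
        calc a⁻¹ * b * z * (a⁻¹ * b)⁻¹ = a⁻¹ * (b * z * b⁻¹) * a := by group
          _ = z := by rw [← e]; group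
      · intro e
        calc a * z * a⁻¹ = a * (a⁻¹ * b * z * (a⁻¹ * b)⁻¹) * a⁻¹ := by rw [e]
          _ = _ := by group

end Cfsg.Agent.S1253
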