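import Cfsg.Statements.S1254
import Cfsg.Agent.H6.DihFusion

set_option autoImplicit false
open Cfsg

namespace Cfsg.Agent.S1254

set_option linter.unusedVariables false
set_option linter.style.haveILetI false
open Cfsg.Agent.H6


/-- Let X be a finite group whose Sylow 2-subgroup S is dihedral (of order at least 4). Then X has a normal 2-complement if and only if, for every Klein four-subgroup U ≤ S, the normalizer N_X(U) is generated by C_X(U) and N_S(U). -/
theorem result {X : Type*} [Group X] [Finite X] (S : Sylow 2 X) (m : ℕ) (hm : 2 ≤ m) (eS : (S : Subgroup X) ≃* DihedralGroup m) : Cfsg.HasNormalPComplement 2 X ↔ ∀ U : Subgroup X, U ≤ S → IsKleinFour U → Subgroup.normalizer (U : Set X) = Subgroup.centralizer (U : Set X) ⊔ ((S : Subgroup X) ⊓ Subgroup.normalizer (U : Set X)) := by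
  constructor
  · intro hN U hU h4
    have hO : OddTriv U := fun g hg ho => H2.mem_centralizer_of_hasNormalPComplement hN
      (S.2.to_le hU) hg (Nat.coprime_two_right.2 ho)
    refine le_antisymm (le_of_sylow_of_coprime (p := 2)
      (isSylowIn_normalizer_of_card S hU fun g hg => ?_) le_sup_right fun g hg ho =>
      Subgroup.mem_sup_left (hO g hg (Nat.coprime_two_right.1 ho)))
      (sup_le (centralizer_le_normalizer' U) inf_le_right)
    rcases exists_tab_dihedral_sylow S hm eS with hS | ⟨k, h, ⟨T⟩⟩
    · rw [Subgroup.eq_of_le_of_card_ge hU (by rw [hS.card_four, h4.card_four]),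
        inf_eq_left.2 Subgroup.le_normalizer]
      exact Subgroup.card_le_of_le inf_le_left
    · obtain ⟨l, -, e'⟩ := h.eq_ext_of_isKleinFour T hg (isKleinFour_cj h4 g)
      obtain ⟨l', -, rfl⟩ := h.eq_ext_of_isKleinFour T hU h4
      rw [e', h.inf_normalizer_T, h.inf_normalizer_T, T.card_ext, T.card_ext]
  · intro hU
    rcases exists_tab_dihedral_sylow S hm eS with hS | ⟨k, h, ⟨T⟩⟩
    · have hc : ∀ x ∈ (S : Subgroup X), ∀ y ∈ (S : Subgroup X), Commute x y := fun x hx y hy =>
        commute_of_forall_mul_self (isKleinFour_iff.1 hS).2 hx hy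
      refine hasNormalPComplement_of_comm S hc fun g hg _ => ?_
      rw [hU S le_rfl hS] at hg
      exact (sup_le le_rfl fun s hs y hy => hc y hy s (Subgroup.mem_inf.1 hs).1 : _ ≤ Subgroup.centralizer _) hg
    · refine h.hasNormalPComplement S T (fun l e => ?_) fun l e => absurd e (h.no_Q l)
      intro g hg ho
      rcases h.classify_conj S T (T.ext_le _) hg ho with h1 | - | ⟨l', e', -⟩
      · exact fun x hx => (commute_iff_conj_eq.2 (h1 x hx)).symm
      · have hz : Commute g (T.a (2 * 2 ^ k)) := by
          rw [hU _ (T.ext_le _) (h.isKleinFour_ext T e)] at hg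
          exact mem_centralizer_singleton.1 ((sup_le (Subgroup.centralizer_le
            (Set.singleton_subset_iff.2 (h.z_mem_T S T l))) fun s hs =>
            mem_centralizer_singleton.2 (h.commute_z T (Subgroup.mem_inf.1 hs).1) : _ ≤ Subgroup.centralizer _) hg)
        have hφ := oddAut_conj (S.2.to_le (T.ext_le (h.good2 l))) hg ho
        have ha : ∀ i, T.a i ∈ T.ext (h.good2 l) → g * T.a i * g⁻¹ = T.a i := fun i hi => by
          rcases h.half ((T.a_mem_ext _).1 hi) with rfl | rfl
          · simp [T.a_zero]
          · exact commute_iff_conj_eq.1 hz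
        intro x hx
        refine (commute_iff_conj_eq.2 ?_).symm
        have hx' := hφ.mem _ hx
        rcases T.mem.1 (T.ext_le _ hx) with ⟨i, rfl⟩ | ⟨i, rfl⟩
        · exact ha i hx
        · rcases T.mem.1 (T.ext_le _ hx') with ⟨j, e⟩ | ⟨j, e⟩
          · rw [e] at hx'
            simpa using hφ.inj _ hx _ hx' (e.trans (ha j hx').symm)
          · refine hφ.step _ hx ?_
            have := mul_mem hx' (inv_mem hx)
            simp only [e, T.b_mul_b_inv] at this ⊢
            exact ha _ this
      · exact absurd e' (h.no_Q l')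

end Cfsg.Agent.S1254
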