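import Cfsg.Statements.S1255
import Cfsg.Agent.H6.DihFusion

set_option autoImplicit false
open Cfsg

namespace Cfsg.Agent.S1255

set_option linter.unusedVariables false
set_option linter.style.haveILetI false
open Cfsg.Agent.H6


/-- Let X be a finite group whose Sylow 2-subgroup S is dihedral of order 2m ≥ 4. Then X has no subgroup of index 2 and no isolated involution if and only if either all involutions of X are conjugate, or for every Klein four-subgroup U ≤ S the index |N_X(U) : C_X(U)| equals 3 when |S| = 4 and equals 6 when |S| > 4. -/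
theorem result {X : Type*} [Group X] [Finite X] (S : Sylow 2 X) (m : ℕ) (hm : 2 ≤ m) (eS : (S : Subgroup X) ≃* DihedralGroup m) : ((∀ H : Subgroup X, H.index ≠ 2) ∧ (∀ z : X, ¬ Cfsg.IsIsolatedInvolution z)) ↔ ((∀ a b : X, orderOf a = 2 → orderOf b = 2 → IsConj a b) ∨ (∀ U : Subgroup X, U ≤ S → IsKleinFour U → (Subgroup.centralizer (U : Set X)).relIndex (Subgroup.normalizer (U : Set X)) = (if Nat.card S = 4 then 3 else 6))) := by
  rcases exists_tab_dihedral_sylow S hm eS with hS | ⟨k, h, ⟨T⟩⟩
  · have hsq := (isKleinFour_iff.1 hS).2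
    have hc : ∀ x ∈ (S : Subgroup X), ∀ y ∈ (S : Subgroup X), Commute x y := fun x hx y hy =>
      commute_of_forall_mul_self hsq hx hy
    have h4 : Nat.card S = 4 := hS.card_four
    obtain ⟨a, ha, b, hb, ha1, hb1, hab, hx⟩ := four_elts hS
    have h1 : (∀ a b : X, orderOf a = 2 → orderOf b = 2 → IsConj a b) →
        (∀ H : Subgroup X, H.index ≠ 2) ∧ ∀ z : X, ¬ Cfsg.IsIsolatedInvolution z := fun h => by
      refine ⟨fun H hH => not_le_of_index_two S hH ?_, not_isolated_of_conj (hc a ha b hb) hab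
        (orderOf_eq_two ha1 (hsq a ha)) (orderOf_eq_two hb1 (hsq b hb)) h⟩
      obtain ⟨c, hcS, hc1, hcH⟩ : ∃ c ∈ (S : Subgroup X), c ≠ 1 ∧ c ∈ H := by
        by_cases haH : a ∈ H
        · exact ⟨a, ha, ha1, haH⟩
        by_cases hbH : b ∈ H
        · exact ⟨b, hb, hb1, hbH⟩
        exact ⟨a * b, mul_mem ha hb, fun e => hab (by
          rw [← inv_eq_of_mul_self (hsq b hb)]; exact eq_inv_of_mul_eq_one_left e),
          (Subgroup.mul_mem_iff_of_index_two hH).2 (iff_of_false haH hbH)⟩
      intro s hs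
      by_cases hs1 : s = 1
      · exact hs1 ▸ one_mem _
      · exact mem_of_index_two_of_conj hH hcH
          (h _ _ (orderOf_eq_two hc1 (hsq c hcS)) (orderOf_eq_two hs1 (hsq s hs)))
    have h2 : (∀ x ∈ (S : Subgroup X), ∀ y ∈ (S : Subgroup X), x ≠ 1 → y ≠ 1 → IsConj x y) →
        ∀ a b : X, orderOf a = 2 → orderOf b = 2 → IsConj a b := fun h a b ha hb => by
      obtain ⟨s, hs, e1, e2⟩ := exists_isConj_mem_sylow S (k := 1) ha
      obtain ⟨t, ht, e3, e4⟩ := exists_isConj_mem_sylow S (k := 1) hb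
      exact (e1.symm.trans (h s hs t ht (ne_one_of_orderOf_two e2) (ne_one_of_orderOf_two e4))).trans e3
    rw [if_pos h4]
    rcases four_sylow_local S hS with ⟨h3, h5⟩ | ⟨h3, h5⟩
    · refine ⟨fun h => ?_, fun h => h1 (h.resolve_right fun h6 => ?_)⟩
      · obtain ⟨H, hH⟩ := exists_index_two_of_hasNormalPComplement S
          (hasNormalPComplement_of_comm S hc h3) (fun e => ha1 (by simpa [e] using ha))
        exact absurd hH (h.1 H)
      · have := h6 S le_rfl hS
        rw [show ((S : Subgroup X) : Set X) = S from rfl, h5] at this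
        omega
    · exact iff_of_true (h1 (h2 h5)) (Or.inl (h2 h5))
  · have h4 : Nat.card S ≠ 4 := by
      rw [show Nat.card S = 2 ^ (k + 3) from h.card_eq T, pow_add]
      have := Nat.one_le_two_pow (n := k)
      omega
    rw [if_neg h4]
    have h1 : (∀ a b : X, orderOf a = 2 → orderOf b = 2 → IsConj a b) →
        (∀ H : Subgroup X, H.index ≠ 2) ∧ ∀ z : X, ¬ Cfsg.IsIsolatedInvolution z := fun h' =>
      ⟨h.dih_no_index_two S T h', not_isolated_of_conj (h.commute_z T (T.b_mem 0)) (by simp)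
        ((h.orderOf_b_two T).2 (zero_mul _)) (h.orderOf_z T) h'⟩
    refine ⟨fun h' => Or.inr fun U hU hU4 => ?_, fun h' => h1 (h'.elim id fun h' => ?_)⟩
    · obtain ⟨l, e, rfl⟩ := h.eq_ext_of_isKleinFour T hU hU4
      refine ((h.T_local S T e).resolve_left fun h2 => ?_).1
      obtain ⟨H, hH⟩ := h.dih_exists_index_two S T h2.2
      exact h'.1 H hH
    · refine h.dih_all_conj S T fun l => ?_
      have := h' _ (T.ext_le _) (h.isKleinFour_ext T (zero_mul l))
      obtain ⟨-, g, -, hg⟩ := (h.T_local S T (zero_mul l)).resolve_left fun h2 => by omega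
      exact isConj_iff.2 ⟨g, hg⟩

end Cfsg.Agent.S1255
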