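import Cfsg.Statements.S1256
import Cfsg.Agent.H6.DihFusion

set_option autoImplicit false
open Cfsg

namespace Cfsg.Agent.S1256

set_option linter.unusedVariables false
set_option linter.style.haveILetI false
open Cfsg.Agent.H6


/-- Let X be a finite group whose Sylow 2-subgroup S is dihedral of order 2m ≥ 4. If |S| = 4, any two Klein four-subgroups of X are conjugate; if |S| > 4, there are Klein four-subgroups U₁, U₂ of X that are not conjugate, and every Klein four-subgroup of X is conjugate to U₁ or to U₂. -/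
theorem result {X : Type*} [Group X] [Finite X] (S : Sylow 2 X) (m : ℕ) (hm : 2 ≤ m) (eS : (S : Subgroup X) ≃* DihedralGroup m) : (Nat.card S = 4 → ∀ U V : Subgroup X, IsKleinFour U → IsKleinFour V → (∃ x : X, U.map (MulAut.conj x).toMonoidHom = V)) ∧ (4 < Nat.card S → ∃ U₁ U₂ : Subgroup X, IsKleinFour U₁ ∧ IsKleinFour U₂ ∧ ¬ (∃ x : X, U₁.map (MulAut.conj x).toMonoidHom = U₂) ∧ ∀ V : Subgroup X, IsKleinFour V → (∃ x : X, V.map (MulAut.conj x).toMonoidHom = U₁) ∨ (∃ x : X, V.map (MulAut.conj x).toMonoidHom = U₂)) := by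
  rcases exists_tab_dihedral_sylow S hm eS with hS | ⟨k, h, ⟨T⟩⟩
  · have h4 : Nat.card S = 4 := hS.card_four
    refine ⟨fun _ U V hU hV => ?_, fun h => by omega⟩
    obtain ⟨g, hg⟩ := exists_cj_le_sylow S (isPGroup_of_isKleinFour hU)
    obtain ⟨k, hk⟩ := exists_cj_le_sylow S (isPGroup_of_isKleinFour hV)
    have h1 := Subgroup.eq_of_le_of_card_ge hg (by rw [card_cj, hU.card_four, hS.card_four])
    have h2 := Subgroup.eq_of_le_of_card_ge hk (by rw [card_cj, hV.card_four, hS.card_four])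
    exact ⟨k⁻¹ * g, (cj_mul U k⁻¹ g).trans (by rw [h1, ← h2, cj_cj_inv])⟩
  · refine ⟨fun h4 => ?_, fun _ => ⟨_, _, h.isKleinFour_ext T (zero_mul 0),
      h.isKleinFour_ext T (zero_mul 1), fun ⟨g, hg⟩ => h.dih_not_conj S T g hg, fun V hV => ?_⟩⟩
    · rw [show Nat.card S = 2 ^ (k + 3) from h.card_eq T, pow_add] at h4
      have := Nat.one_le_two_pow (n := k)
      omega
    · obtain ⟨g, hg⟩ := exists_cj_le_sylow S (isPGroup_of_isKleinFour hV)
      obtain ⟨l, -, e⟩ := h.eq_ext_of_isKleinFour T hg (isKleinFour_cj hV g)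
      rcases h.q_mul l with e' | e'
      · obtain ⟨s, -, hs⟩ := h.exists_cj_ext T (h.good2 0) (h.good2 l) (by linear_combination -e')
        exact Or.inl ⟨s * g, (cj_mul V s g).trans (by rw [e, hs])⟩
      · obtain ⟨s, -, hs⟩ := h.exists_cj_ext T (h.good2 1) (h.good2 l) (by linear_combination -e')
        exact Or.inr ⟨s * g, (cj_mul V s g).trans (by rw [e, hs])⟩

end Cfsg.Agent.S1256
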