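import Cfsg.Statements.S4955
import Cfsg.Agent.H4.KGV

set_option autoImplicit false
open Cfsg

namespace Cfsg.Agent.S4955

/-- Let X be a finite group with an abelian normal Sylow p-subgroup V (a normal p-subgroup of index prime to p in which any two elements commute), and let G be a complement to V in X. Then for every v in V, writing C for the centralizer of v in G, the number k(X) of conjugacy classes of X satisfies k(X) ≤ (order of C)·(order of V) − ((order of G) − k(G)); the statement is written with the subtracted term moved to the left. In particular, if some v in V is centralized by no nonidentity element of G, then k(X) is at most the order of V. -/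
theorem result {X : Type*} [Group X] [Finite X] (p : ℕ) [Fact p.Prime] (V : Subgroup X) [V.Normal] (hVp : IsPGroup p V) (hidx : ¬ p ∣ V.index) (hab : ∀ a ∈ V, ∀ b ∈ V, a * b = b * a) (G : Subgroup X) (hGV : Subgroup.IsComplement' V G) (v : X) (hv : v ∈ V) : Nat.card (ConjClasses X) + Nat.card G ≤ Nat.card ↥(G ⊓ Subgroup.centralizer ({v} : Set X)) * Nat.card V + Nat.card (ConjClasses G) := by
  classical
  have h1 := H3.sum_irr_norm_sq v
  rw [← Finset.sum_filter_add_sum_filter_not _
    (fun χ : IrrCharacter X => ∀ n ∈ V, (χ : X → ℂ) n = (χ : X → ℂ) 1),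
    H4.sum_irr_filter_ker V] at h1
  have h2 : ∑ φ : IrrCharacter (X ⧸ V), ‖(H4.irrInflate V φ : X → ℂ) v‖ ^ 2 = Nat.card G := by
    simp only [H4.irrInflate_apply, (QuotientGroup.eq_one_iff v).2 hv]
    rw [H3.sum_irr_norm_sq, H4.card_centralizer_one,
      Nat.card_congr hGV.symm.QuotientMulEquiv.toEquiv]
  have h3 := H4.card_le_sum_irr_norm_sq (Finset.univ.filter
    (fun χ : IrrCharacter X => ¬ ∀ n ∈ V, (χ : X → ℂ) n = (χ : X → ℂ) 1)) (fun τ χ hχ => by
      simp only [Finset.mem_filter, Finset.mem_univ, true_and, H4.galIrr_apply,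
        EmbeddingLike.apply_eq_iff_eq] at hχ ⊢
      exact hχ) v (fun χ _ => by
      obtain ⟨d, -, hd⟩ := χ.2.exists_apply_one
      obtain ⟨k, hk⟩ := hVp ⟨v, hv⟩
      exact H4.apply_ne_zero_of_not_dvd χ.2.isCharacter hd
        (fun h => hidx (h.trans (H4.degree_dvd_index_of_abelian_normal χ.2 V hab hd)))
        (k := k) (congrArg Subtype.val hk))
  have h4 := Finset.card_filter_add_card_filter_not (s := Finset.univ)
    (fun χ : IrrCharacter X => ∀ n ∈ V, (χ : X → ℂ) n = (χ : X → ℂ) 1)
  rw [Finset.card_eq_sum_ones, H4.sum_irr_filter_ker V, ← Finset.card_eq_sum_ones,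
    Finset.card_univ, Finset.card_univ, ← Nat.card_eq_fintype_card, ← Nat.card_eq_fintype_card,
    H3.card_irr_eq_card_conjClasses, H3.card_irr_eq_card_conjClasses,
    H4.card_conjClasses_congr hGV.symm.QuotientMulEquiv] at h4
  have h5 : Nat.card (Subgroup.centralizer ({v} : Set X)) =
      Nat.card ↥(G ⊓ Subgroup.centralizer ({v} : Set X)) * Nat.card V := by
    rw [← Nat.card_prod]
    symm
    refine Nat.card_eq_of_bijective (fun q => ⟨(q.2 : X) * q.1, ?_⟩) ⟨?_, ?_⟩
    · exact mul_mem (Subgroup.mem_centralizer_singleton_iff.2 (hab _ q.2.2 _ hv)) q.1.2.2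
    · rintro ⟨a, b⟩ ⟨a', b'⟩ h
      have h' : (b : X) * a = b' * a' := congrArg Subtype.val h
      have := hGV.1 (a₁ := (b, ⟨a, a.2.1⟩)) (a₂ := (b', ⟨a', a'.2.1⟩)) h'
      simp only [Prod.mk.injEq, Subtype.mk.injEq] at this
      rw [this.1, Subtype.ext this.2]
    · rintro ⟨x, hx⟩
      obtain ⟨⟨b, a⟩, rfl⟩ := hGV.2 x
      refine ⟨(⟨a, a.2, ?_⟩, b), rfl⟩
      exact (Subgroup.mul_mem_cancel_left _
        (Subgroup.mem_centralizer_singleton_iff.2 (hab _ b.2 _ hv))).1 hx
  rw [h5, h2] at h1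
  have h6 : ((Finset.univ.filter
    (fun χ : IrrCharacter X => ¬ ∀ n ∈ V, (χ : X → ℂ) n = (χ : X → ℂ) 1)).card + Nat.card G : ℝ)
      ≤ (Nat.card ↥(G ⊓ Subgroup.centralizer ({v} : Set X)) * Nat.card V : ℕ) := by linarith
  have h7 : (Finset.univ.filter
    (fun χ : IrrCharacter X => ¬ ∀ n ∈ V, (χ : X → ℂ) n = (χ : X → ℂ) 1)).card + Nat.card G
      ≤ (Nat.card ↥(G ⊓ Subgroup.centralizer ({v} : Set X)) * Nat.card V : ℕ) := by
    exact_mod_cast h6
  omega

end Cfsg.Agent.S4955
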