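import Cfsg.Statements.S4956
import Cfsg.Agent.H4.KGV

set_option autoImplicit false
open Cfsg

namespace Cfsg.Agent.S4956

/-- Let X be a finite group, V an abelian normal subgroup of X (any two elements of V commute) and G a complement to V in X whose order is coprime to that of V. Let S be a set of representatives of the orbits of G on V under conjugation: S lies in V and every element of V is conjugate under G to exactly one member of S. Then the number of conjugacy classes of X equals the sum, over s in S, of the number of conjugacy classes of the centralizer of s in G. -/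
theorem result {X : Type*} [Group X] [Finite X] (V : Subgroup X) [V.Normal] (hab : ∀ a ∈ V, ∀ b ∈ V, a * b = b * a) (G : Subgroup X) (hGV : Subgroup.IsComplement' V G) (hcop : (Nat.card V).Coprime (Nat.card G)) (S : Finset X) (hSV : ∀ s ∈ S, s ∈ V) (hrep : ∀ v ∈ V, ∃! s, s ∈ S ∧ ∃ g ∈ G, g * v * g⁻¹ = s) : Nat.card (ConjClasses X) = ∑ s ∈ S, Nat.card (ConjClasses ↥(G ⊓ Subgroup.centralizer ({s} : Set X))) := by
  classical
  have := Fintype.ofFinite X
  have := Fintype.ofFinite V
  have := Fintype.ofFinite G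
  apply Nat.eq_of_mul_eq_mul_right (Nat.card_pos (α := X))
  rw [← card_comm_eq_card_conjClasses_mul_card]
  -- the number of commuting pairs in the stabilizer of `u`
  let c : X → ℕ := fun u => Nat.card {q : G × G // Commute q.1 q.2 ∧
    Commute u (q.1 : X) ∧ Commute u (q.2 : X)}
  have h1 : Nat.card {p : X × X // Commute p.1 p.2} =
      ∑ q : G × G, Nat.card {p : V × V // Commute (p.1 * q.1 : X) (p.2 * q.2)} := by
    rw [← Nat.card_sigma]
    symm
    refine Nat.card_eq_of_bijective (fun s => ⟨(s.2.1.1 * s.1.1, s.2.1.2 * s.1.2), s.2.2⟩) ⟨?_, ?_⟩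
    · rintro ⟨⟨g, h⟩, ⟨v, w⟩, e⟩ ⟨⟨g', h'⟩, ⟨v', w'⟩, e'⟩ hh
      simp only [Subtype.mk.injEq, Prod.mk.injEq] at hh
      have e1 := hGV.1 (a₁ := (v, g)) (a₂ := (v', g')) hh.1
      have e2 := hGV.1 (a₁ := (w, h)) (a₂ := (w', h')) hh.2
      simp only [Prod.mk.injEq] at e1 e2
      obtain ⟨rfl, rfl⟩ := e1
      obtain ⟨rfl, rfl⟩ := e2
      rfl
    · rintro ⟨⟨x, y⟩, hxy⟩
      obtain ⟨⟨v, g⟩, rfl⟩ := hGV.2 x
      obtain ⟨⟨w, h⟩, rfl⟩ := hGV.2 y
      exact ⟨⟨(g, h), (v, w), hxy⟩, rfl⟩
  have h2 : ∀ q : G × G, Nat.card {p : V × V // Commute (p.1 * q.1 : X) (p.2 * q.2)} =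
      Nat.card V * Nat.card {u : V // Commute q.1 q.2 ∧
        Commute (u : X) (q.1 : X) ∧ Commute (u : X) (q.2 : X)} := by
    rintro ⟨g, h⟩
    by_cases hc : Commute g h
    · simp only [hc, true_and]
      exact H4.card_commute_over V hab (hc.map G.subtype) (n := Nat.card G)
        (congrArg Subtype.val (pow_card_eq_one' (x := g)))
        (congrArg Subtype.val (pow_card_eq_one' (x := h))) hcop.symm
    · simp only [hc, false_and, Nat.card_of_isEmpty, mul_zero]
      rw [Nat.card_eq_zero]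
      left
      refine ⟨fun ⟨⟨v, w⟩, e⟩ => hc ?_⟩
      have e1 : ((g * h : G) : X) * ((h * g : G) : X)⁻¹ ∈ V := by
        rw [← QuotientGroup.eq_one_iff]
        have e2 := congrArg (QuotientGroup.mk : X → X ⧸ V) e.eq
        simp only [QuotientGroup.mk_mul, (QuotientGroup.eq_one_iff _).2 v.2,
          (QuotientGroup.eq_one_iff _).2 w.2, one_mul] at e2
        simp only [Subgroup.coe_mul, QuotientGroup.mk_mul, QuotientGroup.mk_inv, e2,
          mul_inv_cancel]
      have e2 := (Subgroup.disjoint_def.1 hGV.disjoint) e1 (g * h * (h * g)⁻¹).2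
      exact Subtype.ext (mul_inv_eq_one.1 e2)
  have h3 : ∑ q : G × G, Nat.card {u : V // Commute q.1 q.2 ∧
        Commute (u : X) (q.1 : X) ∧ Commute (u : X) (q.2 : X)} = ∑ u : V, c u := by
    simp only [c, Nat.card_eq_fintype_card, Fintype.card_subtype, Finset.card_filter]
    exact Finset.sum_comm
  have h4 : ∀ u : X, c u = Nat.card (ConjClasses ↥(G ⊓ Subgroup.centralizer ({u} : Set X))) *
      Nat.card ↥(G ⊓ Subgroup.centralizer ({u} : Set X)) := by
    intro u
    rw [← card_comm_eq_card_conjClasses_mul_card]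
    refine Nat.card_congr ⟨fun q => ⟨(⟨q.1.1, q.1.1.2,
      Subgroup.mem_centralizer_singleton_iff.2 q.2.2.1.symm⟩, ⟨q.1.2, q.1.2.2,
      Subgroup.mem_centralizer_singleton_iff.2 q.2.2.2.symm⟩),
      Subtype.ext (congrArg Subtype.val q.2.1.eq :)⟩,
      fun q => ⟨(⟨q.1.1, q.1.1.2.1⟩, ⟨q.1.2, q.1.2.2.1⟩),
        Subtype.ext (congrArg Subtype.val q.2.eq :),
        (Subgroup.mem_centralizer_singleton_iff.1 q.1.1.2.2).symm,
        (Subgroup.mem_centralizer_singleton_iff.1 q.1.2.2.2).symm⟩, fun _ => rfl, fun _ => rfl⟩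
  have h5 : ∀ (u : X) (g : G), c (g * u * g⁻¹) = c u := by
    intro u g
    symm
    refine Nat.card_congr (Equiv.subtypeEquiv
      ((MulAut.conj g).toEquiv.prodCongr (MulAut.conj g).toEquiv) fun q => ?_)
    have e : ∀ a b : X, Commute (g * a * g⁻¹) (g * b * g⁻¹) ↔ Commute a b := fun a b =>
      commute_map_iff (f := MulAut.conj (g : X)) (MulAut.conj (g : X)).injective
    exact and_congr (commute_map_iff (MulAut.conj g).injective).symm
      (and_congr (e _ _).symm (e _ _).symm)
  choose r hr using fun v : V => hrep v v.2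
  have h6 : ∀ s ∈ S, (Finset.univ.filter (fun u : V => r u = s)).card *
      Nat.card ↥(G ⊓ Subgroup.centralizer ({s} : Set X)) = Nat.card G := by
    intro s hs
    rw [← H4.ncard_conj_orbit_mul G.subtype s]
    congr 1
    · rw [← Set.ncard_coe_finset, ← Set.ncard_image_of_injective _ Subtype.val_injective]
      congr 1
      ext x
      simp only [Finset.coe_filter, Finset.mem_univ, true_and, Set.mem_image, Set.mem_setOf_eq]
      constructor
      · rintro ⟨u, hu, rfl⟩
        obtain ⟨g, hg, e⟩ := (hr u).1.2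
        refine ⟨⟨g, hg⟩⁻¹, ?_⟩
        rw [← hu, ← e]
        simp [mul_assoc]
      · rintro ⟨g, rfl⟩
        refine ⟨⟨_, (inferInstance : V.Normal).conj_mem s (hSV s hs) g⟩, ?_, rfl⟩
        refine ((hr _).2 s ⟨hs, g⁻¹, G.inv_mem g.2, ?_⟩).symm
        simp [mul_assoc]
    · exact Nat.card_congr ⟨fun x => ⟨⟨x, x.2.1⟩, Subgroup.mem_centralizer_singleton_iff.1 x.2.2⟩,
        fun x => ⟨x.1, x.1.2, Subgroup.mem_centralizer_singleton_iff.2 x.2⟩, fun _ => rfl,
        fun _ => rfl⟩
  rw [h1, Finset.sum_congr rfl fun q _ => h2 q, ← Finset.mul_sum, h3,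
    ← Finset.sum_fiberwise_of_maps_to (s := Finset.univ) (t := S) (g := r)
      (fun u _ => (hr u).1.1), ← hGV.card_mul_card, Finset.sum_mul, Finset.mul_sum]
  refine Finset.sum_congr rfl fun s hs => ?_
  rw [Finset.sum_congr rfl (g := fun _ => c s) (fun u hu => by
    obtain ⟨g, hg, e⟩ := (hr u).1.2
    rw [← (Finset.mem_filter.1 hu).2, ← e]
    exact (h5 u ⟨g, hg⟩).symm), Finset.sum_const, smul_eq_mul, h4, ← h6 s hs]
  ring

end Cfsg.Agent.S4956
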