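import Cfsg.Statements.S4957
import Cfsg.Agent.Tr.Mk
import Cfsg.Agent.Tr.N2
import Cfsg.Agent.Tr.E4
import Cfsg.Agent.Tr.E6

set_option autoImplicit false
set_option linter.unusedVariables false
open Cfsg

namespace Cfsg.Agent.S4957

/-- Let X be a finite group and V a normal subgroup of X in which every element has order dividing the prime p, whose index in X is prime to p and which is its own centralizer in X; so V is an elementary abelian normal Sylow p-subgroup, and any complement G to V in X is a group of order prime to p acting faithfully on the vector space V by conjugation (the coprime linear setting of the k(GV) problem). Suppose a complement G to V in X is transitive by conjugation on the nonidentity elements of V. Then X has at most (order of V) conjugacy classes, and if equality holds then G is cyclic (hence, being transitive, a Singer cycle), or V has order 8 and G has order 21 (the nonabelian group of order 21 inside the simple group of order 168), or V has order 9 and G has order 16 (a semidihedral Sylow 2-subgroup of the 2-dimensional general linear group over the field with 3 elements). -/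
theorem result {X : Type*} [Group X] [Finite X] (p : ℕ) [Fact p.Prime] (V : Subgroup X) [V.Normal] (hVexp : ∀ v ∈ V, v ^ p = 1) (hidx : ¬ p ∣ V.index) (hself : Subgroup.centralizer (V : Set X) = V) (G : Subgroup X) (hGV : Subgroup.IsComplement' V G) (htrans : ∀ v ∈ V, ∀ w ∈ V, v ≠ 1 → w ≠ 1 → ∃ g ∈ G, g * v * g⁻¹ = w) : Nat.card (ConjClasses X) ≤ Nat.card V ∧ (Nat.card (ConjClasses X) = Nat.card V → (IsCyclic G ∨ (Nat.card V = 8 ∧ Nat.card G = 21) ∨ (Nat.card V = 9 ∧ Nat.card G = 16))) := by
  refine Tr.of_con V hVexp hidx hself G hGV htrans fun n β s => ?_
  by_cases hp : p = 2
  · subst hp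
    exact s.con_two
  have := s.pos
  by_cases hn : n < 3
  · interval_cases n
    exacts [s.con_one, s.con_n2 hp]
  obtain h | ⟨rfl, rfl⟩ | ⟨rfl, h⟩ := s.con_gen hp (by omega)
  exacts [h, s.con_34, s.con_six h]

end Cfsg.Agent.S4957
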