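import Cfsg.Statements.S4959
import Cfsg.Agent.H4.RealVec

set_option autoImplicit false
open Cfsg

namespace Cfsg.Agent.S4959

/-- Let X be a finite group and V a normal subgroup of X in which every element has order dividing the prime p, whose index in X is prime to p and which is its own centralizer in X; so V is an elementary abelian normal Sylow p-subgroup, and any complement G to V in X is a group of order prime to p acting faithfully on the vector space V by conjugation (the coprime linear setting of the k(GV) problem). Let G be a complement to V in X, let v be in V and let H be the centralizer of v in G. Suppose there is a subgroup U of V normalized by H, on which H acts faithfully, and carrying an H-invariant bi-additive pairing β with values in the integers modulo p that is nondegenerate on U (equivalently: the restriction of the module V to H has a faithful self-dual submodule; such a v is called a real vector for G). Then the number of conjugacy classes of X is at most the order of V (the real-vector criterion for the k(GV) problem). The pairing is given as a function on X whose relevant values are those on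 pairs from U. -/
theorem result {X : Type*} [Group X] [Finite X] (p : ℕ) [Fact p.Prime] (V : Subgroup X) [V.Normal] (hVexp : ∀ v ∈ V, v ^ p = 1) (hidx : ¬ p ∣ V.index) (hself : Subgroup.centralizer (V : Set X) = V) (G : Subgroup X) (hGV : Subgroup.IsComplement' V G) (v : X) (hv : v ∈ V) (U : Subgroup X) (hUV : U ≤ V) (hUinv : ∀ h ∈ G, h * v * h⁻¹ = v → ∀ u ∈ U, h * u * h⁻¹ ∈ U) (hUfaith : ∀ h ∈ G, h * v * h⁻¹ = v → (∀ u ∈ U, h * u * h⁻¹ = u) → h = 1) (β : X → X → ZMod p) (hβl : ∀ u ∈ U, ∀ u' ∈ U, ∀ w ∈ U, β (u * u') w = β u w + β u' w) (hβr : ∀ u ∈ U, ∀ w ∈ U, ∀ w' ∈ U, β u (w * w') = β u w + β u w') (hβinv : ∀ h ∈ G, h * v * h⁻¹ = v → ∀ u ∈ U, ∀ w ∈ U, β (h * u * h⁻¹) (h * w * h⁻¹) = β u w) (hβnd : ∀ u ∈ U, (∀ w ∈ U, β u w = 0) → u = 1) : Nat.card (ConjClasses X) ≤ Nat.card V := by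
  exact Cfsg.Agent.H4.kgv_real V hVexp hidx hself hGV hv U hUV hUinv hUfaith β hβl hβr hβinv hβnd

end Cfsg.Agent.S4959
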