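import Cfsg.Statements.S4965
import Mathlib

set_option autoImplicit false
open Cfsg

namespace Cfsg.Agent.S4965

/-- Let X be a finite group with an abelian normal subgroup V (any two elements of V commute), and let φ be the action of X ⧸ V on V induced by conjugation (well defined because V is abelian; the hypothesis hφ says that the class of x acts as conjugation by x). Then X has at most as many conjugacy classes as the semidirect product of V by X ⧸ V formed with this action: the split extension has the largest class number among extensions with the given action. -/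
theorem result {X : Type*} [Group X] [Finite X] (V : Subgroup X) [V.Normal] (hab : ∀ a ∈ V, ∀ b ∈ V, a * b = b * a) (φ : X ⧸ V →* MulAut ↥V) (hφ : ∀ (x : X) (v : ↥V), ((φ (QuotientGroup.mk x) v : ↥V) : X) = x * v * x⁻¹) : Nat.card (ConjClasses X) ≤ Nat.card (ConjClasses (SemidirectProduct ↥V (X ⧸ V) φ)) := by
  classical
  have hfin : Finite (SemidirectProduct ↥V (X ⧸ V) φ) :=
    Finite.of_equiv _ SemidirectProduct.equivProd.symm
  have hcard : Nat.card (SemidirectProduct ↥V (X ⧸ V) φ) = Nat.card X := by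
    rw [SemidirectProduct.card, mul_comm, ← Subgroup.card_eq_card_quotient_mul_card_subgroup]
  apply Nat.le_of_mul_le_mul_right _ (Nat.card_pos (α := X))
  rw [← card_comm_eq_card_conjClasses_mul_card, ← hcard, ← card_comm_eq_card_conjClasses_mul_card]
  have hex : ∀ q : (X ⧸ V) × (X ⧸ V), ∃ b : X × X, ∀ p : X × X, Commute p.1 p.2 →
      ((p.1 : X ⧸ V), (p.2 : X ⧸ V)) = q → Commute b.1 b.2 ∧ ((b.1 : X ⧸ V), (b.2 : X ⧸ V)) = q := by
    intro q
    by_cases h : ∃ p : X × X, Commute p.1 p.2 ∧ ((p.1 : X ⧸ V), (p.2 : X ⧸ V)) = q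
    · obtain ⟨b, hb⟩ := h
      exact ⟨b, fun _ _ _ => hb⟩
    · exact ⟨1, fun p h1 h2 => absurd ⟨p, h1, h2⟩ h⟩
  choose b hb using hex
  have hmem : ∀ x y : X, (y : X ⧸ V) = x → x * y⁻¹ ∈ V := fun x y h => by
    rw [← QuotientGroup.eq_one_iff, QuotientGroup.mk_mul, QuotientGroup.mk_inv, h, mul_inv_cancel]
  refine Nat.card_le_card_of_injective (fun p => ⟨(⟨⟨p.1.1 * (b (p.1.1, p.1.2)).1⁻¹,
    hmem _ _ (congrArg Prod.fst (hb _ p.1 p.2 rfl).2)⟩, p.1.1⟩,
    ⟨⟨p.1.2 * (b (p.1.1, p.1.2)).2⁻¹, hmem _ _ (congrArg Prod.snd (hb _ p.1 p.2 rfl).2)⟩, p.1.2⟩),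
    ?_⟩) ?_
  · obtain ⟨⟨x, y⟩, hxy⟩ := p
    obtain ⟨h1, h2⟩ := hb _ (x, y) hxy rfl
    have h3 := congrArg Prod.fst h2
    have h4 := congrArg Prod.snd h2
    dsimp only at h1 h3 h4 hxy ⊢
    apply SemidirectProduct.ext
    · apply Subtype.ext
      simp only [SemidirectProduct.mul_left, Subgroup.coe_mul]
      generalize (b (x, y)).1 = x0 at *
      generalize (b (x, y)).2 = y0 at *
      rw [← congrArg φ h3, ← congrArg φ h4, hφ, hφ]
      calc x * x0⁻¹ * (x0 * (y * y0⁻¹) * x0⁻¹) = (x * y) * (x0 * y0)⁻¹ := by group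
        _ = (y * x) * (y0 * x0)⁻¹ := by rw [hxy.eq, h1.eq]
        _ = _ := by group
    · simp only [SemidirectProduct.mul_right, ← QuotientGroup.mk_mul, hxy.eq]
  · rintro ⟨⟨x, y⟩, hxy⟩ ⟨⟨x', y'⟩, hxy'⟩ h
    simp only [Subtype.mk.injEq, Prod.mk.injEq, SemidirectProduct.ext_iff] at h
    obtain ⟨⟨h1, h2⟩, h3, h4⟩ := h
    rw [h2, h4] at h1 h3
    simp only [Subtype.mk.injEq, Prod.mk.injEq]
    exact ⟨mul_right_cancel h1, mul_right_cancel h3⟩

end Cfsg.Agent.S4965
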