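import Cfsg.Statements.S4966
import Cfsg.Agent.H4.SelfDual

set_option autoImplicit false
open Cfsg

namespace Cfsg.Agent.S4966

/-- Let F be a finite field of characteristic p, G a finite group of order prime to p, and V a finite-dimensional representation of G over F carrying a nondegenerate G-invariant bilinear form (equivalently, V is self-dual). Then V is the direct sum of two G-invariant subspaces U and W such that U carries a G-invariant alternating bilinear form that is nondegenerate on U and W carries a G-invariant symmetric bilinear form that is nondegenerate on W; moreover when p = 2 the decomposition can be chosen with G acting trivially on W. -/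
theorem result {F : Type*} [Field F] [Fintype F] (p : ℕ) [Fact p.Prime] [CharP F p] {G : Type*} [Group G] [Finite G] (hcop : ¬ p ∣ Nat.card G) {V : Type*} [AddCommGroup V] [Module F V] [FiniteDimensional F V] (ρ : Representation F G V) (B : LinearMap.BilinForm F V) (hB : B.Nondegenerate) (hBinv : ∀ g : G, ∀ x y : V, B (ρ g x) (ρ g y) = B x y) : ∃ U W : Submodule F V, IsCompl U W ∧ (∀ g : G, ∀ u ∈ U, ρ g u ∈ U) ∧ (∀ g : G, ∀ w ∈ W, ρ g w ∈ W) ∧ (∃ A : LinearMap.BilinForm F V, (∀ x : V, A x x = 0) ∧ (∀ g : G, ∀ x ∈ U, ∀ y ∈ U, A (ρ g x) (ρ g y) = A x y) ∧ (∀ x ∈ U, (∀ y ∈ U, A x y = 0) → x = 0)) ∧ (∃ S : LinearMap.BilinForm F V, (∀ x y : V, S x y = S y x) ∧ (∀ g : G, ∀ x ∈ W, ∀ y ∈ W, S (ρ g x) (ρ g y) = S x y) ∧ (∀ x ∈ W, (∀ y ∈ W, S x y = 0) → x = 0)) ∧ (p = 2 → ∀ g : G, ∀ w ∈ W, ρ g w = w) := by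
  obtain ⟨U, W, h1, h2, h3, ⟨A, h4, h5⟩, ⟨S, h6, h7⟩, h8⟩ := H4.exists_symplectic_orthogonal
    ((CharP.cast_eq_zero_iff F p _).not.2 hcop) ρ (B := B)
    ⟨fun g x _ y _ => hBinv g x y, fun x _ hx => hB.1 x fun y => hx y trivial⟩
  refine ⟨U, W, h1, h2, h3, ⟨A, h4, h5.1, h5.2⟩, ⟨S, h6, h7.1, h7.2⟩, ?_⟩
  rintro rfl
  exact h8 (by exact_mod_cast CharP.cast_eq_zero F 2)

end Cfsg.Agent.S4966
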