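import Cfsg.Statements.S4967
import Mathlib

set_option autoImplicit false
open Cfsg

namespace Cfsg.Agent.S4967

universe u

open scoped IsMulCommutative in
theorem exists_field_model {F : Type*} [Field F] {H : Type*} [CommGroup H] {V : Type u}
    [AddCommGroup V] [Module F V] [FiniteDimensional F V] [Nontrivial V]
    (ρ : Representation F H V) (hfaith : Function.Injective ρ)
    (hirr : ∀ U : Submodule F V, (∀ h : H, ∀ u ∈ U, ρ h u ∈ U) → U = ⊥ ∨ U = ⊤) :
    ∃ (E : Type u) (_ : Field E) (_ : Algebra F E) (a : H →* E) (φ : E ≃ₗ[F] V),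
      (∀ h x, φ (a h * x) = ρ h (φ x)) ∧ Algebra.adjoin F (Set.range a) = ⊤ ∧
        Function.Injective a := by
  let E := Algebra.adjoin F (Set.range (ρ : H → Module.End F V))
  have hcomm : IsMulCommutative E := Algebra.isMulCommutative_adjoin F (by
    rintro _ ⟨x, rfl⟩ _ ⟨y, rfl⟩
    rw [← map_mul, ← map_mul, mul_comm])
  let a : H →* E := MonoidHom.codRestrict ρ E.toSubmonoid fun h => Algebra.subset_adjoin ⟨h, rfl⟩
  have hinj : ∀ e : E, e ≠ 0 → Function.Injective (e : Module.End F V) := by
    intro e he
    rw [← LinearMap.ker_eq_bot]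
    refine (hirr _ fun h u hu => ?_).resolve_right fun h => he (Subtype.ext ?_)
    · rw [LinearMap.mem_ker] at hu ⊢
      have := congrArg Subtype.val (mul_comm e (a h))
      change (e : Module.End F V) * ρ h = ρ h * e at this
      rw [← Module.End.mul_apply, this, Module.End.mul_apply, hu, map_zero]
    · exact LinearMap.ker_eq_top.1 h
  obtain ⟨v, hv⟩ := exists_ne (0 : V)
  let ψ : E →ₗ[F] V := LinearMap.applyₗ v ∘ₗ E.val.toLinearMap
  have hψ : ∀ e : E, ψ e = (e : Module.End F V) v := fun _ => rfl
  have hψinj : Function.Injective ψ := by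
    rw [injective_iff_map_eq_zero]
    intro e he
    by_contra h
    exact hv (hinj e h (by rw [← hψ, he, map_zero]))
  have hψsurj : Function.Surjective ψ := by
    rw [← LinearMap.range_eq_top]
    refine (hirr _ ?_).resolve_left fun h => hv ?_
    · rintro h _ ⟨e, rfl⟩
      exact ⟨a h * e, rfl⟩
    · have : v ∈ LinearMap.range ψ := ⟨1, rfl⟩
      rwa [h] at this
  have hfield : IsField E := by
    refine ⟨⟨0, 1, fun h => hv ?_⟩, mul_comm, fun {e} he => ?_⟩
    · exact (congrArg ψ h).symm.trans (map_zero ψ)
    · obtain ⟨w, hw⟩ := LinearMap.injective_iff_surjective.1 (hinj e he) v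
      obtain ⟨e', rfl⟩ := hψsurj w
      exact ⟨e', hψinj hw⟩
  refine ⟨E, hfield.toField, (inferInstance : Algebra F E), a,
    LinearEquiv.ofBijective ψ ⟨hψinj, hψsurj⟩, fun _ _ => rfl, ?_,
    fun x y h => hfaith (congrArg Subtype.val h)⟩
  apply Subalgebra.map_injective (f := E.val) Subtype.val_injective
  rw [AlgHom.map_adjoin, ← Set.range_comp, Algebra.map_top, Subalgebra.range_val]
  rfl

theorem selfDual_iff_field {F : Type*} [Field F] [Fintype F] {H : Type*} [CommGroup H] [Finite H]
    {E : Type*} [Field E] [Algebra F E] [FiniteDimensional F E] (a : H →* E)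
    (htop : Algebra.adjoin F (Set.range a) = ⊤) (hinj : Function.Injective a)
    (h2 : 2 ≤ Module.finrank F E) :
    (∃ B : LinearMap.BilinForm F E, B.Nondegenerate ∧ ∀ h x y, B (a h * x) (a h * y) = B x y) ↔
      Even (Module.finrank F E) ∧ Nat.card H ∣ Fintype.card F ^ (Module.finrank F E / 2) + 1 := by
  have : Finite E := Module.finite_of_finite F
  have hpow : ∀ (i : ℕ) (x : E), (FiniteField.frobeniusAlgHom F E ^ i) x =
      x ^ Fintype.card F ^ i := fun i x => by
    rw [AlgHom.coe_pow, FiniteField.coe_frobeniusAlgHom, pow_iterate]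
  constructor
  · rintro ⟨B, hB, hinv⟩
    have hex : ∀ e : E, ∃ e' : E, ∀ x y, B (e' * x) y = B x (e * y) := by
      intro e
      have he : e ∈ Algebra.adjoin F (Set.range a) := htop ▸ Algebra.mem_top
      induction he using Algebra.adjoin_induction with
      | mem x hx =>
        obtain ⟨h, rfl⟩ := hx
        exact ⟨a h⁻¹, fun x y => by
          rw [← hinv h, ← mul_assoc, ← map_mul, mul_inv_cancel, map_one, one_mul]⟩
      | algebraMap r => exact ⟨algebraMap F E r, fun x y => by simp [← Algebra.smul_def]⟩
      | add x y _ _ hx hy =>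
        obtain ⟨x', hx⟩ := hx
        obtain ⟨y', hy⟩ := hy
        exact ⟨x' + y', fun u v => by simp [add_mul, hx, hy]⟩
      | mul x y _ _ hx hy =>
        obtain ⟨x', hx⟩ := hx
        obtain ⟨y', hy⟩ := hy
        exact ⟨x' * y', fun u v => by
          rw [mul_assoc, hx, hy, ← mul_assoc, mul_comm y x]⟩
    choose s hs using hex
    have huniq : ∀ e e', (∀ x y, B (e' * x) y = B x (e * y)) → s e = e' := by
      intro e e' h
      rw [← sub_eq_zero]
      refine hB.1 _ fun y => ?_
      have e1 := hs e 1 y
      have e2 := h 1 y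
      rw [mul_one] at e1 e2
      rw [map_sub, LinearMap.sub_apply, e1, e2, sub_self]
    let σ : E →ₐ[F] E :=
      { toFun := s
        map_one' := huniq _ _ fun x y => by simp
        map_mul' := fun x y => huniq _ _ fun u v => by
          rw [mul_assoc, hs, hs, ← mul_assoc, mul_comm y x]
        map_zero' := huniq _ _ fun x y => by simp
        map_add' := fun x y => huniq _ _ fun u v => by simp [add_mul, hs]
        commutes' := fun r => huniq _ _ fun x y => by simp [← Algebra.smul_def] }
    have hσ : ∀ h, σ (a h) = a h⁻¹ := fun h => huniq _ _ fun x y => by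
      rw [← hinv h, ← mul_assoc, ← map_mul, mul_inv_cancel, map_one, one_mul]
    have hσ2 : σ ^ 2 = 1 := AlgHom.ext_of_adjoin_eq_top htop (by
      rintro _ ⟨h, rfl⟩
      simp [pow_two, hσ])
    have hσ1 : σ ≠ 1 := by
      intro h
      have h3 : (⊤ : Subalgebra F E) ≤ ⊥ := by
        rw [← htop, Algebra.adjoin_le_iff]
        rintro _ ⟨x, rfl⟩
        have e1 := hσ x
        rw [h, AlgHom.one_apply] at e1
        have e2 : a x * a x = 1 := by
          nth_rewrite 2 [e1]
          rw [← map_mul, mul_inv_cancel, map_one]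
        rcases mul_self_eq_one_iff.1 e2 with e | e <;> rw [e]
        · exact one_mem _
        · exact neg_mem (one_mem _)
      have := Subalgebra.bot_eq_top_iff_finrank_eq_one.1 (le_antisymm le_top h3)
      omega
    obtain ⟨⟨i, hi⟩, hσi⟩ := (FiniteField.bijective_frobeniusAlgHom_pow F E).2 σ
    dsimp only at hσi
    have h4 : Module.finrank F E ∣ i * 2 := by
      rw [← FiniteField.orderOf_frobeniusAlgHom, orderOf_dvd_iff_pow_eq_one, pow_mul, hσi, hσ2]
    have h5 : i ≠ 0 := by
      rintro rfl
      exact hσ1 (by rw [← hσi, pow_zero])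
    have h6 : Module.finrank F E = i * 2 := by
      obtain ⟨c, hc⟩ := h4
      have : c = 1 := by
        rcases c with _ | _ | c
        · omega
        · rfl
        · nlinarith
      rw [hc, this, mul_one]
    rw [h6, Nat.mul_div_cancel _ two_pos]
    refine ⟨even_two.mul_left _, ?_⟩
    have := isCyclic_of_injective_ringHom a hinj
    rw [← IsCyclic.exponent_eq_card, Monoid.exponent_dvd_iff_forall_pow_eq_one]
    intro h
    apply hinj
    rw [pow_succ, map_mul, map_pow, ← hpow, hσi, hσ, ← map_mul, inv_mul_cancel]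
  · rintro ⟨⟨m, hm⟩, hd⟩
    rw [show Module.finrank F E / 2 = m by omega] at hd
    let σ := FiniteField.frobeniusAlgHom F E ^ m
    have hσ : ∀ h, a h * σ (a h) = 1 := fun h => by
      rw [hpow, ← pow_succ', ← map_pow,
        orderOf_dvd_iff_pow_eq_one.1 ((orderOf_dvd_natCard h).trans hd), map_one]
    refine ⟨(Algebra.traceForm F E).compRight σ.toLinearMap, ?_, fun h x y => ?_⟩
    · refine LinearMap.BilinForm.Nondegenerate.ofSeparatingLeft fun x hx =>
        (traceForm_nondegenerate F E).1 x fun y => ?_
      obtain ⟨y, rfl⟩ := Finite.injective_iff_surjective.1 σ.injective y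
      exact hx y
    · simp only [LinearMap.BilinForm.compRight_apply, AlgHom.toLinearMap_apply, map_mul,
        Algebra.traceForm_apply]
      congr 1
      linear_combination (x * σ y) * hσ h

/-- Let F be a finite field with r elements and of characteristic p, H a finite abelian group of order prime to p, and V a faithful irreducible representation of H over F of dimension n (faithful: distinct elements act differently; irreducible: the only H-invariant subspaces are 0 and V). Call V self-dual when it carries a nondegenerate H-invariant bilinear form. If n = 1 and V is self-dual then H has order at most 2. If n ≥ 2 then V is self-dual if and only if n is even and the order of H divides r^(n/2) + 1. -/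
theorem result {F : Type*} [Field F] [Fintype F] (p : ℕ) [Fact p.Prime] [CharP F p] {H : Type*} [CommGroup H] [Finite H] (hcop : ¬ p ∣ Nat.card H) {V : Type*} [AddCommGroup V] [Module F V] [FiniteDimensional F V] (ρ : Representation F H V) (hfaith : Function.Injective ρ) (hirr : ∀ U : Submodule F V, (∀ h : H, ∀ u ∈ U, ρ h u ∈ U) → U = ⊥ ∨ U = ⊤) : (Module.finrank F V = 1 → (∃ B : LinearMap.BilinForm F V, B.Nondegenerate ∧ ∀ h : H, ∀ x y : V, B (ρ h x) (ρ h y) = B x y) → Nat.card H ≤ 2) ∧ (2 ≤ Module.finrank F V → ((∃ B : LinearMap.BilinForm F V, B.Nondegenerate ∧ ∀ h : H, ∀ x y : V, B (ρ h x) (ρ h y) = B x y) ↔ (Even (Module.finrank F V) ∧ Nat.card H ∣ Fintype.card F ^ (Module.finrank F V / 2) + 1))) := by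
  refine ⟨fun h1 ⟨B, hB, hinv⟩ => ?_, fun h2 => ?_⟩
  · obtain ⟨v, hv, hv'⟩ := finrank_eq_one_iff'.1 h1
    have hBv : B v v ≠ 0 := fun h => hv (hB.1 v fun y => by
      obtain ⟨c, rfl⟩ := hv' y
      rw [map_smul, h, smul_zero])
    have key : ∀ h, ρ h = 1 ∨ ρ h = -1 := by
      intro h
      obtain ⟨c, hc⟩ := hv' (ρ h v)
      have e := hinv h v v
      rw [← hc] at e
      simp only [map_smul, LinearMap.smul_apply, smul_eq_mul] at e
      have e2 : c * c = 1 := mul_right_cancel₀ hBv (by linear_combination e)
      refine (mul_self_eq_one_iff.1 e2).imp (fun e3 => ?_) (fun e3 => ?_) <;>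
      · apply LinearMap.ext
        intro y
        obtain ⟨d, rfl⟩ := hv' y
        rw [map_smul, ← hc, e3]
        simp
    calc Nat.card H ≤ Nat.card ({1, -1} : Set (Module.End F V)) :=
          Nat.card_le_card_of_injective (fun h => ⟨ρ h, key h⟩)
            (fun a b e => hfaith (congrArg Subtype.val e))
      _ ≤ 2 := by
          rw [Nat.card_coe_set_eq]
          exact (Set.ncard_insert_le _ _).trans (by simp)
  · have hnt : Nontrivial V := Module.nontrivial_of_finrank_pos (R := F) (by omega)
    obtain ⟨E, _, _, a, φ, h3, h4, h5⟩ := exists_field_model ρ hfaith hirr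
    have : FiniteDimensional F E := φ.symm.finiteDimensional
    rw [← φ.finrank_eq] at h2 ⊢
    rw [← selfDual_iff_field a h4 h5 h2]
    constructor
    · rintro ⟨B, hB, hinv⟩
      refine ⟨LinearMap.BilinForm.congr φ.symm B, hB.congr _, fun h x y => ?_⟩
      simp only [LinearMap.BilinForm.congr_apply, LinearEquiv.symm_symm, h3, hinv]
    · rintro ⟨B, hB, hinv⟩
      refine ⟨LinearMap.BilinForm.congr φ B, hB.congr _, fun h x y => ?_⟩
      obtain ⟨x, rfl⟩ := φ.surjective x
      obtain ⟨y, rfl⟩ := φ.surjective y
      simp only [LinearMap.BilinForm.congr_apply, ← h3, LinearEquiv.symm_apply_apply, hinv]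

end Cfsg.Agent.S4967
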