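import Cfsg.Statements.S5010
import Cfsg.Agent.H4.Monomial
import Cfsg.Agent.H1.Hall
import Cfsg.Agent.H3.Integral

set_option autoImplicit false
open Cfsg

namespace Cfsg.Agent.S5010

open Cfsg.Agent.H3 Cfsg.Agent.H4

/-- All irreducible character degrees are squarefree. -/
def SF (G : Type*) [Group G] : Prop :=
  ∀ χ : G → ℂ, IsIrrCharacter G χ → ∀ d : ℕ, χ 1 = d → Squarefree d

theorem SF.aux {G : Type*} [Group G] [Finite G] (h : SF G) (N : Subgroup G) [N.Normal]
    {θ : N → ℂ} (hθ : IsIrrCharacter N θ) {d : ℕ} (hd : θ 1 = d) :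
    Squarefree ((inertia N θ).index * d) := by
  have := Fintype.ofFinite G
  have := Fintype.ofFinite N
  obtain ⟨χ, hχ, h1⟩ := exists_irr_over N hθ
  have h2 := clifford_degree N hχ hθ h1
  obtain ⟨e, he⟩ := (hχ.isCharacter.restrict N).exists_nat_classInner hθ.isCharacter
  rw [he, hd] at h2
  exact (h χ hχ (e * ((inertia N θ).index * d)) (by rw [h2]; push_cast; ring)).of_mul_right

theorem SF.normal {G : Type*} [Group G] [Finite G] (h : SF G) (N : Subgroup G) [N.Normal] :
    SF N := fun _ hθ _ hd => (h.aux N hθ hd).of_mul_right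

theorem dvd_of_squarefree {P : Type*} [Group P] [Finite P] {p : ℕ} [hp : Fact p.Prime]
    (hP : IsPGroup p P) (H : Subgroup P) (h : Squarefree H.index) :
    H = ⊤ ∨ (H.index = p ∧ H.Normal) := by
  obtain ⟨k, hk⟩ := hP.index H
  rcases k with _ | k
  · exact Or.inl (Subgroup.index_eq_one.1 hk)
  · rw [hk, Nat.squarefree_pow_iff hp.out.ne_one k.succ_ne_zero] at h
    rw [show k + 1 = 1 from h.2, pow_one] at hk
    have := hP.isNilpotent
    exact Or.inr ⟨hk, H1.normal_of_isCoatom (H1.isCoatom_of_index_prime (hk ▸ hp.out))⟩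

theorem derivedSeries_two_of_pGroup {P : Type*} [Group P] [Finite P] {p : ℕ} [hp : Fact p.Prime]
    (hP : IsPGroup p P) (h : SF P) : derivedSeries P 2 = ⊥ := by
  have := Fintype.ofFinite P
  have := hP.isNilpotent
  rw [eq_bot_iff]
  intro g hg
  refine eq_one_of_forall_irr fun χ => ?_
  obtain ⟨H, lam, e⟩ := monomial_of_nilpotent χ.2
  have h1 : commutator P ≤ H := by
    rcases dvd_of_squarefree hP H (h _ χ.2 _ (by rw [e, indFun_one]; simp)) with rfl | h1
    · exact le_top
    · have := h1.2
      exact H1.commutator_le_of_isCoatom (H1.isCoatom_of_index_prime (h1.1 ▸ hp.out))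
  have h2 : derivedSeries P 2 ≤ (commutator H).map H.subtype := by
    rw [derivedSeries_succ, derivedSeries_one, map_commutator_eq, Subgroup.range_subtype]
    exact Subgroup.commutator_mono h1 h1
  rw [e]
  refine indFun_apply_eq_of_normal_le H _ (derivedSeries P 2)
    (h2.trans (Subgroup.map_subtype_le _)) (fun x hx => ?_) hg
  obtain ⟨y, hy, e⟩ := h2 hx
  rw [← Subtype.ext (e : (y : P) = x), (lam.mem_ker).1 (Abelianization.commutator_subset_ker lam hy),
    map_one]

theorem derivedSeries_pi {ι : Type*} {G : ι → Type*} [∀ i, Group (G i)] {n : ℕ}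
    (h : ∀ i, derivedSeries (G i) n = ⊥) : derivedSeries (∀ i, G i) n = ⊥ := by
  rw [eq_bot_iff]
  intro x hx
  funext i
  have := map_derivedSeries_le_derivedSeries (Pi.evalMonoidHom G i) n ⟨x, hx, rfl⟩
  rwa [h i] at this

theorem derivedSeries_two_of_nilpotent {G : Type*} [Group G] [Finite G] [Group.IsNilpotent G]
    (h : SF G) : derivedSeries G 2 = ⊥ := by
  obtain ⟨e⟩ := (Group.isNilpotent_of_finite_tfae (G := G).out 0 4 rfl rfl).1 ‹_›
  rw [← map_derivedSeries_eq (f := e.toMonoidHom) e.surjective, derivedSeries_pi, Subgroup.map_bot]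
  intro p
  have := Fact.mk (Nat.prime_of_mem_primeFactors p.2)
  exact derivedSeries_pi fun P => derivedSeries_two_of_pGroup P.isPGroup' (h.normal P)

theorem derivedSeries_two_of_cyclic_pCore {G : Type*} [Group G] [Finite G]
    (hs : Group.IsSolvable G) (h : ∀ p : ℕ, p.Prime → IsCyclic (pCore p G)) :
    derivedSeries G 2 = ⊥ := by
  have h1 : fittingSubgroup G ≤ Subgroup.centralizer (commutator G : Set G) := by
    rw [H1.fittingSubgroup_eq_iSup_pCore]
    refine iSup_le fun p => ?_
    have := h p p.2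
    intro x hx y hy
    have h2 := Abelianization.commutator_subset_ker
      ((IsCyclic.mulAutMulEquiv (pCore p G)).toMonoidHom.comp MulAut.conjNormal) hy
    rw [MonoidHom.mem_ker, MonoidHom.comp_apply, MulEquiv.coe_toMonoidHom,
      EmbeddingLike.map_eq_one_iff] at h2
    exact mul_inv_eq_iff_eq_mul.1
      (congrArg (fun f : MulAut (pCore p G) => (f ⟨x, hx⟩ : G)) h2)
  rw [derivedSeries_succ, derivedSeries_one, Subgroup.commutator_eq_bot_iff_le_centralizer]
  exact ((Subgroup.le_centralizer_iff.1 h1).trans (H1.centralizer_fittingSubgroup_le hs)).trans h1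

theorem card_dvd_of_orbits {P : Type*} [Group P] [Finite P] {p : ℕ} [hp : Fact p.Prime]
    (hP : IsPGroup p P) {A : Type*} [CommGroup A] [Finite A] [MulDistribMulAction P A]
    (hf : ∀ x : P, (∀ a : A, x • a = a) → x = 1) (hA : ¬ p ∣ Nat.card A)
    (h : ∀ a : A, Squarefree (MulAction.stabilizer P a).index) : Nat.card P ∣ p := by
  classical
  by_cases h0 : ∀ a : A, MulAction.stabilizer P a = ⊤
  · have : Subsingleton P := ⟨fun x y => by
      rw [hf x fun a => (h0 a ▸ Subgroup.mem_top x : x ∈ MulAction.stabilizer P a),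
        hf y fun a => (h0 a ▸ Subgroup.mem_top y : y ∈ MulAction.stabilizer P a)]⟩
    rw [Nat.card_of_subsingleton (1 : P)]
    exact one_dvd _
  push Not at h0
  obtain ⟨a, ha⟩ := h0
  obtain ⟨h1, h2⟩ := (dvd_of_squarefree hP _ (h a)).resolve_left ha
  set S := MulAction.stabilizer P a with hS
  have := Fintype.ofFinite S
  have hcop : (Nat.card S).Coprime (Nat.card A) := by
    obtain ⟨k, hk⟩ := IsPGroup.iff_card.1 (hP.to_subgroup S)
    rw [hk]
    exact Nat.Coprime.pow_left _ ((Nat.Prime.coprime_iff_not_dvd hp.out).2 hA)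
  have hinj : ∀ b c : A, b ^ Nat.card S = c ^ Nat.card S → b = c :=
    fun b c e => (powCoprime hcop.symm).injective e
  let N : A → A := fun b => ∏ s : S, (s : P) • b
  have hN1 : ∀ (x : P) b, x • N b = N (x • b) := fun x b => by
    simp only [N, Finset.smul_prod', smul_smul]
    exact Fintype.prod_equiv (MulAut.conjNormal x : MulAut S).toEquiv _ _ (fun s => by simp)
  have hN2 : ∀ (s : S) b, (s : P) • N b = N b := fun s b => by
    simp only [N, Finset.smul_prod', smul_smul]
    exact Fintype.prod_equiv (Equiv.mulLeft s) _ _ (fun s => by simp)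
  have hN3 : ∀ b, (∀ s : S, (s : P) • b = b) → N b = b ^ Nat.card S := fun b hb => by
    simp [N, hb]
  have hN4 : ∀ b c, N (b * c) = N b * N c := fun b c => by
    simp [N, Finset.prod_mul_distrib]
  have hN5 : ∀ b, N (b ^ Nat.card S) = N b ^ Nat.card S := fun b => by
    simp only [N, smul_pow', Finset.prod_pow]
  have hN6 : ∀ b, N b⁻¹ = (N b)⁻¹ := fun b => by
    simp [N]
  have h3 : S = ⊥ := by
    rw [eq_bot_iff]
    intro s hs
    refine hf s fun b => hinj _ _ ?_
    have h4 : MulAction.stabilizer P (a * (b ^ Nat.card S * (N b)⁻¹)) ≤ S := by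
      intro x hx
      have e := congrArg N (hx : x • _ = _)
      rw [← hN1, hN4, hN4, hN5, hN6, hN3 (N b) (hN2 · b), mul_inv_cancel, mul_one,
        hN3 a fun s => s.2, smul_pow'] at e
      exact hinj _ _ e
    have h5 : MulAction.stabilizer P (a * (b ^ Nat.card S * (N b)⁻¹)) = S := by
      refine Subgroup.eq_of_le_of_card_ge h4 (le_of_eq ?_)
      rcases dvd_of_squarefree hP _ (h (a * (b ^ Nat.card S * (N b)⁻¹))) with e | e
      · exact absurd (top_le_iff.1 (e ▸ h4)) ha
      · apply Nat.eq_of_mul_eq_mul_right hp.out.pos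
        nth_rewrite 1 [← h1]
        rw [← e.1, Subgroup.card_mul_index, Subgroup.card_mul_index]
    have h6 : s • _ = _ := (h5.ge hs : s ∈ MulAction.stabilizer P _)
    rw [smul_mul', smul_mul', (hs : s • a = a), smul_inv', hN2 ⟨s, hs⟩, mul_right_inj,
      mul_left_inj, smul_pow'] at h6
    exact h6
  rw [← h1, h3, Subgroup.index_bot]

theorem card_range_dvd_of_orbits {K : Type*} [Group K] [Finite K] {p : ℕ} [hp : Fact p.Prime]
    {A : Type*} [CommGroup A] [Finite A] (φ : K →* MulAut A) (hP : IsPGroup p φ.range)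
    (hA : ¬ p ∣ Nat.card A)
    (h : ∀ (a : A) (S : Subgroup K), (∀ x, x ∈ S ↔ φ x a = a) → Squarefree S.index) :
    Nat.card φ.range ∣ p :=
  card_dvd_of_orbits (A := A) hP (fun x hx => Subtype.ext (MulEquiv.ext hx)) hA fun a => by
    rw [← Subgroup.index_comap_of_surjective _ φ.rangeRestrict_surjective]
    exact h a _ fun _ => Iff.rfl

theorem relIndex_dvd_index_of_normal {G : Type*} [Group G] [Finite G] (I K : Subgroup G)
    [K.Normal] : I.relIndex K ∣ I.index := by
  have h1 := H1.card_sup_mul_card_inf (H := I) (N := K) Subgroup.le_normalizer_of_normal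
  rw [← H1.card_inf_mul_relIndex I K, ← H1.card_mul_relIndex_of_le (le_sup_left : I ≤ I ⊔ K),
    mul_assoc, mul_comm (I.relIndex _)] at h1
  rw [← Nat.eq_of_mul_eq_mul_left Nat.card_pos (Nat.eq_of_mul_eq_mul_left Nat.card_pos h1)]
  exact Subgroup.relIndex_dvd_index_of_le le_sup_left

/-- The group of linear characters. -/
def Lin (Q : Type*) [Group Q] : Type _ := Q →* ℂˣ

noncomputable instance instCommGroupLin (Q : Type*) [Group Q] : CommGroup (Lin Q) :=
  inferInstanceAs (CommGroup (Q →* ℂˣ))

/-- The underlying homomorphism. -/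
def Lin.hom {Q : Type*} [Group Q] (lam : Lin Q) : Q →* ℂˣ := lam

theorem Lin.ext {Q : Type*} [Group Q] {a b : Lin Q} (h : ∀ q, a.hom q = b.hom q) : a = b :=
  MonoidHom.ext h

/-- The conjugation action on the linear characters of a normal subgroup. -/
noncomputable def linAct {G : Type*} [Group G] (Q : Subgroup G) [Q.Normal] :
    G →* MulAut (Lin Q) where
  toFun g :=
    { toFun := fun lam => lam.hom.comp (MulAut.conjNormal g⁻¹ : MulAut Q).toMonoidHom
      invFun := fun lam => lam.hom.comp (MulAut.conjNormal g : MulAut Q).toMonoidHom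
      left_inv := fun lam => Lin.ext fun q => congrArg lam.hom (Subtype.ext (by simp [mul_assoc]))
      right_inv := fun lam => Lin.ext fun q => congrArg lam.hom (Subtype.ext (by simp [mul_assoc]))
      map_mul' := fun _ _ => rfl }
  map_one' := MulEquiv.ext fun lam => Lin.ext fun q => congrArg lam.hom (Subtype.ext (by simp))
  map_mul' a b := MulEquiv.ext fun lam => Lin.ext fun q =>
    congrArg lam.hom (Subtype.ext (by simp [mul_assoc]))

theorem linAct_apply {G : Type*} [Group G] (Q : Subgroup G) [Q.Normal] (g : G) (lam : Lin Q)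
    (q : Q) : (linAct Q g lam).hom q = lam.hom (MulAut.conjNormal g⁻¹ q) := rfl

theorem isCyclic_pCore_quotient {G : Type*} [Group G] [Finite G] (h : SF G) (p : ℕ)
    [hp : Fact p.Prime] : IsCyclic (pCore p (G ⧸ fittingSubgroup G)) := by
  set F := fittingSubgroup G with hF
  let K := (pCore p (G ⧸ F)).comap (QuotientGroup.mk' F)
  let Q := F ⊓ pPrimeCore p G
  have hQ : (Nat.card Q).Coprime p :=
    (H1.pPrimeCore_coprime p G).coprime_dvd_left (Subgroup.card_dvd_of_le inf_le_right)
  have hQn : Group.IsNilpotent Q :=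
    Group.nilpotent_of_mulEquiv (Subgroup.subgroupOfEquivOfLe (inf_le_left : Q ≤ F))
  have hdec : ∀ x ∈ F, ∃ a ∈ pCore p G, ∃ b ∈ Q, x = a * b := by
    intro x hx
    obtain ⟨a, ha, b, hb, rfl⟩ := (H1.mem_sup_of_le_normalizer Subgroup.le_normalizer_of_normal).1
      (H1.fittingSubgroup_le_pCore_sup_pPrimeCore p hx)
    exact ⟨a, ha, b, ⟨(F.mul_mem_cancel_left (H1.pCore_le_fittingSubgroup p ha)).1 hx, hb⟩, rfl⟩
  have hKF : ∀ x ∈ K, ∃ k : ℕ, x ^ p ^ k ∈ F := by
    intro x hx
    obtain ⟨k, hk⟩ := H1.pCore_isPGroup p (G ⧸ F) ⟨_, hx⟩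
    exact ⟨k, (QuotientGroup.eq_one_iff _).1 (congrArg Subtype.val hk)⟩
  have hFK : F ≤ K := fun x hx => by
    change (x : G ⧸ F) ∈ pCore p (G ⧸ F)
    rw [(QuotientGroup.eq_one_iff _).2 hx]; exact one_mem _
  have hFker : F ≤ (linAct Q).ker := by
    intro x hx
    obtain ⟨a, ha, b, hb, rfl⟩ := hdec x hx
    refine mul_mem ?_ ?_
    · refine MulEquiv.ext fun lam => Lin.ext fun q => ?_
      rw [linAct_apply]
      refine congrArg lam.hom (Subtype.ext ?_)
      have := H1.pPrimeCore_le_centralizer_pCore q.2.2 a ha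
      simp [mul_assoc, ← this]
    · refine MulEquiv.ext fun lam => Lin.ext fun q => ?_
      rw [linAct_apply, show MulAut.conjNormal b⁻¹ q = (⟨b, hb⟩ : Q)⁻¹ * q * ⟨b, hb⟩ from
        Subtype.ext (by simp)]
      simp [mul_comm]
  have hD : K ⊓ Subgroup.centralizer (Q : Set G) ≤ F := by
    refine H1.le_fittingSubgroup inferInstance ?_
    let f := ((QuotientGroup.mk' Q).comp (K ⊓ Subgroup.centralizer (Q : Set G)).subtype)
    have h1 : IsPGroup p f.range := by
      rintro ⟨_, x, rfl⟩
      obtain ⟨k, hk⟩ := hKF x x.2.1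
      obtain ⟨a, ha, b, hb, e⟩ := hdec _ hk
      obtain ⟨l, hl⟩ := H1.pCore_isPGroup p G ⟨a, ha⟩
      refine ⟨k + l, Subtype.ext ?_⟩
      change ((x : G) : G ⧸ Q) ^ p ^ (k + l) = 1
      rw [pow_add, pow_mul, ← QuotientGroup.mk_pow, e, QuotientGroup.mk_mul,
        (QuotientGroup.eq_one_iff _).2 hb, mul_one, ← QuotientGroup.mk_pow,
        show a ^ p ^ l = 1 from congrArg Subtype.val hl, QuotientGroup.mk_one]
    have := h1.isNilpotent
    refine Subgroup.isNilpotent_of_ker_le_center f.rangeRestrict fun x hx => ?_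
    rw [MonoidHom.ker_rangeRestrict] at hx
    exact Subgroup.mem_center_iff.2 fun y =>
      Subtype.ext (y.2.2 x ((QuotientGroup.eq_one_iff _).1 hx)).symm
  have hC : K ⊓ (linAct Q).ker ≤ F := by
    rintro x ⟨hx, hx'⟩
    obtain ⟨k, hk⟩ := hKF x hx
    have h1 : x ^ ordCompl[p] (orderOf x) ∈ F := by
      set y := x ^ ordCompl[p] (orderOf x) with hy
      have hy1 : y ^ ordProj[p] (orderOf x) = 1 := by
        rw [hy, ← pow_mul, mul_comm, Nat.ordProj_mul_ordCompl_eq_self, pow_orderOf_eq_one]
      have hy2 : y⁻¹ ∈ (linAct Q).ker := inv_mem (pow_mem hx' _)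
      refine hD ⟨pow_mem hx _, ?_⟩
      have h2 := H1.aut_eq_one_of_frattini (MulAut.conjNormal y : MulAut Q) (by
        refine Nat.Coprime.coprime_dvd_left (orderOf_dvd_of_pow_eq_one
          (by rw [← map_pow, hy1, map_one])) (Nat.Coprime.pow_left _ ?_)
        exact (hQ.coprime_dvd_left (Subgroup.card_subgroup_dvd_card _)).symm) (fun q => by
        apply H1.commutator_le_frattini
        by_contra hq
        obtain ⟨φ, hφ⟩ := CommGroup.exists_apply_ne_one_of_hasEnoughRootsOfUnity
          (Abelianization Q) ℂ (a := Abelianization.of (q⁻¹ * MulAut.conjNormal y q))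
          (fun h => hq ((QuotientGroup.eq_one_iff _).1 h))
        apply hφ
        have e := linAct_apply Q y⁻¹ (φ.comp Abelianization.of) q
        rw [hy2, inv_inv] at e
        have e' : φ (Abelianization.of q) = φ (Abelianization.of (MulAut.conjNormal y q)) := e
        rw [map_mul, map_mul, ← e', map_inv, map_inv, inv_mul_cancel])
      intro q hq
      exact (mul_inv_eq_iff_eq_mul.1
        (congrArg (fun f : MulAut Q => (f ⟨q, hq⟩ : G)) h2)).symm
    refine H1.mem_of_pow_mem_of_coprime (a := (p ^ k : ℕ)) (b := (ordCompl[p] (orderOf x) : ℕ))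
      (Nat.isCoprime_iff_coprime.2 ((Nat.coprime_ordCompl hp.out (orderOf_pos x).ne').pow_left _))
      (by rwa [zpow_natCast]) (by rwa [zpow_natCast])
  let φ := (linAct Q).comp K.subtype
  have hA0 : Nat.card (Lin Q) = (commutator Q).index := card_unitsHom_eq_index_commutator
  have hA : Finite (Lin Q) := Nat.finite_of_card_ne_zero (by
    rw [hA0]; exact Subgroup.index_ne_zero_of_finite)
  have h1 : Nat.card φ.range ∣ p := by
    refine card_range_dvd_of_orbits φ ?_ ?_ ?_
    · rintro ⟨_, x, rfl⟩
      obtain ⟨k, hk⟩ := hKF x x.2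
      exact ⟨k, Subtype.ext (by
        change linAct Q x ^ p ^ k = 1
        rw [← map_pow]; exact hFker hk)⟩
    · rw [hA0]
      exact fun hd => H1.coprime_iff_not_dvd.1 hQ (hd.trans (Subgroup.index_dvd_card _))
    · intro lam S hS
      have e1 := (h.aux Q (isIrrCharacter_unitsHom lam.hom) (d := 1) (by simp)).of_mul_left
      refine e1.squarefree_of_dvd (dvd_trans (dvd_of_eq ?_) (relIndex_dvd_index_of_normal _ K))
      rw [Subgroup.relIndex]
      congr 1
      ext x
      rw [← Subgroup.inv_mem_iff, hS]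
      change linAct Q (x : G)⁻¹ lam = lam ↔ conjFun Q _ x = _
      constructor
      · intro e
        funext q
        have := linAct_apply Q (x : G)⁻¹ lam q
        rw [e, inv_inv] at this
        exact congrArg Units.val this.symm
      · intro e
        refine Lin.ext fun q => ?_
        rw [linAct_apply, inv_inv, ← Units.val_inj]
        exact congrFun e q
  have h2 : Nat.card (pCore p (G ⧸ F)) = Nat.card φ.range := by
    rw [← Subgroup.index_ker, ← Subgroup.map_comap_eq_self_of_surjective
      (QuotientGroup.mk'_surjective F) (pCore p (G ⧸ F)), ← Subgroup.relIndex_ker,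
      QuotientGroup.ker_mk', Subgroup.relIndex]
    congr 1
    ext x
    exact ⟨fun hx => hFker hx, fun hx => hC ⟨x.2, hx⟩⟩
  exact isCyclic_of_card_dvd_prime (h2 ▸ h1)

/-- Let `G` be a finite solvable group. If every irreducible complex character degree of `G` is squarefree (1 included), then the derived length of `G` is at most 4. -/
theorem result {G : Type*} [Group G] [Finite G] [Group.IsSolvable G]
    (h : ∀ χ : Cfsg.IrrCharacter G, Squarefree (Cfsg.charDegree (χ : G → ℂ))) : derivedSeries G 4 = ⊥ := by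
  have hSF : SF G := fun χ hχ d hd => H3.charDegree_eq hd ▸ h ⟨χ, hχ⟩
  have h1 := derivedSeries_two_of_cyclic_pCore (G := G ⧸ fittingSubgroup G) inferInstance
    (fun p hp => by have := Fact.mk hp; exact isCyclic_pCore_quotient hSF p)
  have h2 : derivedSeries G 2 ≤ fittingSubgroup G := by
    rw [← QuotientGroup.ker_mk' (fittingSubgroup G), ← Subgroup.map_eq_bot_iff, eq_bot_iff, ← h1]
    exact map_derivedSeries_le_derivedSeries _ _
  have h3 := derivedSeries_two_of_nilpotent (hSF.normal (fittingSubgroup G))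
  have h4 : ∀ m, derivedSeries G (2 + m) ≤
      (derivedSeries (fittingSubgroup G) m).map (fittingSubgroup G).subtype := by
    intro m
    induction m with
    | zero => simpa [← MonoidHom.range_eq_map] using h2
    | succ m ih =>
      rw [← add_assoc, derivedSeries_succ, derivedSeries_succ, Subgroup.map_commutator]
      exact Subgroup.commutator_mono ih ih
  have h5 := h4 2
  rwa [h3, Subgroup.map_bot, le_bot_iff] at h5

end Cfsg.Agent.S5010
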