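import Cfsg.Statements.S5081
import Cfsg.Agent.H7.Alperin

set_option autoImplicit false
open Cfsg

namespace Cfsg.Agent.S5081

open Cfsg.Fus Cfsg.FusionSystem

/-- Let F be a saturated fusion system over a finite p-group S, P a proper subgroup of S that is fully normalized, and H the subgroup of Aut_F(P) generated by the automorphisms that extend to maps of the system defined on strictly larger subgroups of S. Then either P is not essential and H is all of Aut_F(P), or P is essential and the image of H in Out_F(P) = Aut_F(P)/Inn(P) is strongly p-embedded there. -/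
theorem result {Ω : Type*} [Group Ω] {S : Subgroup Ω} [Finite S] (p : ℕ) [Fact p.Prime] (hS : IsPGroup p S) (F : Cfsg.FusionSystem S) (hF : F.IsSaturated p) (P : Subgroup Ω) (hPS : P < S) (hPn : F.IsFullyNormalized P) (H : Subgroup (MulAut P)) (hH : H = Subgroup.closure {α : MulAut P | ∃ (Q : Subgroup Ω) (hPQ : P < Q) (φ : Q →* Ω), φ ∈ F.Hom Q ∧ ∀ x : P, φ (Subgroup.inclusion hPQ.le x) = α x}) : (¬ F.IsEssential p P ∧ H = F.autGroup P) ∨ (F.IsEssential p P ∧ ∃ _ : ((Cfsg.Inn P).subgroupOf (F.autGroup P)).Normal, Cfsg.IsStronglyPEmbedded p ((H.subgroupOf (F.autGroup P)).map (QuotientGroup.mk' ((Cfsg.Inn P).subgroupOf (F.autGroup P))))) := by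
  have := finite_of_le hPS.le
  have hL : liftAut P H = F.extStab P := by
    rw [hH, liftAut_closure]
    apply le_antisymm
    · refine sup_le (Subgroup.closure_mono ?_)
        ((fixP_le_innS S P).trans (F.innS_le_extStab hPS))
      rintro σ ⟨h1, Q, hPQ, φ, hφ, h2⟩
      obtain ⟨τ, t1, t2⟩ := exists_perm_of_mem hφ
      refine ⟨h1.2, Q, hPQ, τ, t1, fun x hx => ?_⟩
      rw [← resAut_apply h1 ⟨x, hx⟩, ← h2, t2]; rfl
    · refine le_trans (Subgroup.closure_mono ?_) le_sup_left
      rintro σ ⟨h1, h2⟩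
      have h3 : σ ∈ autStab P := ⟨h2.isMap.homOn, h1⟩
      obtain ⟨Q, hPQ, τ, t1, t2⟩ := h2
      refine ⟨h3, Q, hPQ, t1.homOn.toHom, t1.toHom_mem, fun x => ?_⟩
      rw [resAut_apply h3, ← t2 x x.2]; rfl
  by_cases he : F.IsEssential p P
  · refine Or.inr ⟨he, inferInstance, ?_⟩
    have h1 := strEmbMod_extStab hF hS hPS hPn he.isCentric (he.extStab_ne hS)
    have h2 := (strEmbMod_iff _ (F.outProj_surjective P) (F.outProj_eq_one_iff P) h1.le h1.ge).1 h1
    rw [← hL] at h2
    rw [← map_resLift (L := H), Subgroup.map_map]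
    exact h2
  · refine Or.inl ⟨he, liftAut_injective P ?_⟩
    rw [isEssential_iff_extStab_ne hF hS hPS hPn, not_not] at he
    rw [hL, he]; rfl

end Cfsg.Agent.S5081
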