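import Cfsg.Statements.S5087
import Cfsg.Agent.H7.Normal

set_option autoImplicit false
open Cfsg

namespace Cfsg.Agent.S5087

open Cfsg.Fus Cfsg.FusionSystem

/-- In a saturated fusion system over a finite p-group S, a subgroup Q is normal in the system if and only if every subgroup P that equals S or is essential contains Q and every element of Aut_F(P) maps Q onto itself. -/
theorem result {Ω : Type*} [Group Ω] {S : Subgroup Ω} [Finite S] (p : ℕ) [Fact p.Prime] (hS : IsPGroup p S) (F : Cfsg.FusionSystem S) (hF : F.IsSaturated p) (Q : Subgroup Ω) : F.IsNormal Q ↔ ∀ P : Subgroup Ω, (P = S ∨ F.IsEssential p P) → (Q ≤ P ∧ ∀ α ∈ F.autGroup P, (Q.subgroupOf P).map α.toMonoidHom = Q.subgroupOf P) := by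
  constructor
  · intro h P hP
    obtain ⟨h1, h2, h3⟩ := hF.frc_of_alperin hS hP
    have hQP := h.le_of_centric_radical hS h2 h3
    refine ⟨hQP, fun α hα => ?_⟩
    have hs := h.stronglyClosed.mem_setStab ((mem_autGroup_iff h1.le).1 hα).isMap hQP
    ext x
    obtain ⟨y, rfl⟩ := α.surjective x
    have := hs y
    rw [extAut_coe] at this
    rw [Subgroup.mem_subgroupOf, this]
    exact Subgroup.mem_map_iff_mem (f := α.toMonoidHom) α.injective
  · intro h
    refine hF.isNormal_of_essential hS fun R hR => ⟨(h R hR).1, fun τ hτ x hx => ?_⟩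
    obtain ⟨α, hα, h1⟩ := hτ.exists_aut
    have : α ⟨x, (h R hR).1 hx⟩ ∈ Q.subgroupOf R :=
      ((h R hR).2 α hα).le ⟨_, hx, rfl⟩
    rwa [Subgroup.mem_subgroupOf, h1] at this

end Cfsg.Agent.S5087
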