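import Cfsg.Statements.S5088
import Cfsg.Agent.H7.Normal

set_option autoImplicit false
open Cfsg

namespace Cfsg.Agent.S5088

open Cfsg.Fus Cfsg.FusionSystem

/-- In a saturated fusion system over a finite p-group, a subgroup Q is normal in the system if and only if there is a chain of subgroups 1 = Q₀ ≤ Q₁ ≤ ⋯ ≤ Qₙ = Q such that each Qᵢ with i ≥ 1 is strongly closed in the system and [Q, Qᵢ] ≤ Qᵢ₋₁. -/
theorem result {Ω : Type*} [Group Ω] {S : Subgroup Ω} [Finite S] (p : ℕ) [Fact p.Prime] (hS : IsPGroup p S) (F : Cfsg.FusionSystem S) (hF : F.IsSaturated p) (Q : Subgroup Ω) : F.IsNormal Q ↔ ∃ (n : ℕ) (Qs : Fin (n + 1) → Subgroup Ω), Qs 0 = ⊥ ∧ Qs (Fin.last n) = Q ∧ Monotone Qs ∧ ∀ i : Fin n, F.StronglyClosed (Qs i.succ) ∧ ⁅Q, Qs i.succ⁆ ≤ Qs (Fin.castSucc i) := by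
  constructor
  · intro h
    have := finite_of_le h.le
    obtain ⟨n, hn⟩ := exists_zSer_eq (isPGroup_of_le hS h.le)
    refine ⟨n, fun i => zSer Q i, zSer_zero Q, hn, fun i j hij => zSer_mono Q hij,
      fun i => ⟨(h.zSer _).stronglyClosed, ?_⟩⟩
    rw [Subgroup.commutator_comm]
    exact commutator_zSer_le Q i
  · rintro ⟨n, C, h0, hn, -, h⟩
    refine hF.isNormal_of_chain hS (C := fun i => if hi : i < n + 1 then C ⟨i, hi⟩ else ⊥) (n := n)
      (by simpa using h0) (by rw [dif_pos (by omega)]; exact hn) (fun i hi => ?_) fun i hi => ?_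
    · rw [dif_pos (by omega)]
      rcases i with _ | i
      · exact (show C _ = ⊥ from h0) ▸ F.stronglyClosed_bot
      · exact (h ⟨i, by omega⟩).1
    · rw [dif_pos (by omega), dif_pos (by omega), Subgroup.commutator_comm]
      exact (h ⟨i, hi⟩).2

end Cfsg.Agent.S5088
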