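import Cfsg.Statements.S5089
import Cfsg.Agent.H7.Normal

set_option autoImplicit false
open Cfsg

namespace Cfsg.Agent.S5089

open Cfsg.Fus Cfsg.FusionSystem

/-- A saturated fusion system over a finite p-group has a nontrivial subgroup that is normal in the system (O_p(F) ≠ 1) if and only if some nontrivial abelian subgroup is strongly closed in the system. -/
theorem result {Ω : Type*} [Group Ω] {S : Subgroup Ω} [Finite S] (p : ℕ) [Fact p.Prime] (hS : IsPGroup p S) (F : Cfsg.FusionSystem S) (hF : F.IsSaturated p) : F.core ≠ ⊥ ↔ ∃ Q : Subgroup Ω, Q ≠ ⊥ ∧ IsMulCommutative Q ∧ F.StronglyClosed Q := by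
  constructor
  · intro h
    have hc := F.isNormal_core9
    have := finite_of_le hc.le
    refine ⟨zSer F.core 1, fun h1 => h ?_, ⟨⟨fun x y => Subtype.ext ?_⟩⟩, (hc.zSer 1).stronglyClosed⟩
    · obtain ⟨n, hn⟩ := exists_zSer_eq (isPGroup_of_le hS hc.le)
      rw [← hn]
      clear hn
      induction n with
      | zero => exact zSer_zero _
      | succ n ih =>
        refine le_bot_iff.1 (h1 ▸ ?_)
        rintro _ ⟨x, hx, rfl⟩
        refine ⟨x, Subgroup.mem_upperCentralSeries_succ_iff.2 fun y => ?_, rfl⟩
        have := Subgroup.mem_upperCentralSeries_succ_iff.1 hx y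
        rw [← zSer_subgroupOf, ih, ← zSer_zero F.core, zSer_subgroupOf] at this
        exact this
    · have := commutator_zSer_le F.core 0
        (Subgroup.commutator_mem_commutator x.2 (zSer_le _ _ y.2))
      rw [zSer_zero, Subgroup.mem_bot, commutatorElement_eq_one_iff_mul_comm] at this
      exact this
  · rintro ⟨Q, h1, h2, h3⟩ h
    refine h1 (le_bot_iff.1 (h ▸ (h3.isNormal_of_comm hF hS ?_).le_core))
    rw [Subgroup.commutator_eq_bot_iff_le_centralizer]
    exact fun x hx y hy => congrArg Subtype.val (h2.is_comm.comm ⟨y, hy⟩ ⟨x, hx⟩)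

end Cfsg.Agent.S5089
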