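import Cfsg.Statements.S5091
import Cfsg.Agent.L.ModelUnique

set_option autoImplicit false
open Cfsg

namespace Cfsg.Agent.S5091

/-- Model Theorem, uniqueness: two models of a constrained saturated fusion system over a finite p-group S are isomorphic by an isomorphism compatible with the two embeddings of S. -/
theorem result {Ω : Type*} [Group Ω] {S : Subgroup Ω} [Finite S] (p : ℕ) [Fact p.Prime] (hS : IsPGroup p S) (F : Cfsg.FusionSystem S) (hF : F.IsConstrained p) {G₁ G₂ : Type*} [Group G₁] [Group G₂] (ι₁ : S →* G₁) (ι₂ : S →* G₂) (h₁ : F.IsModel p G₁ ι₁) (h₂ : F.IsModel p G₂ ι₂) : ∃ φ : G₁ ≃* G₂, ∀ x : S, φ (ι₁ x) = ι₂ x := by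
  exact Cfsg.Agent.L.exists_equiv_of_models h₁ h₂

end Cfsg.Agent.S5091
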