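import Cfsg.Statements.S5107
import Cfsg.Agent.H7.More
import Cfsg.Agent.L.GroupFusion

set_option autoImplicit false
open Cfsg

namespace Cfsg.Agent.S5107

open Cfsg.Fus Cfsg.FusionSystem

/-- If a Sylow p-subgroup S of a finite group G has nilpotency class at most two and its centre is strongly closed in S with respect to G, then every map of the fusion system of G on S is conjugation by an element of N_G(S), and S is the largest subgroup normal in that fusion system. -/
theorem result {G : Type*} [Group G] [Finite G] (p : ℕ) [Fact p.Prime] (S : Sylow p G) (hcl : ⁅(S : Subgroup G), (S : Subgroup G)⁆ ≤ (S : Subgroup G) ⊓ Subgroup.centralizer ((S : Subgroup G) : Set G)) (hZ : Cfsg.IsStronglyClosed ((S : Subgroup G) ⊓ Subgroup.centralizer ((S : Subgroup G) : Set G)) (S : Subgroup G)) : (∀ (P : Subgroup G) (φ : P →* G), φ ∈ (Cfsg.groupFusionSystem (S : Subgroup G)).Hom P → ∃ g ∈ Subgroup.normalizer ((S : Subgroup G) : Set G), ∀ x : P, φ x = g * (x : G) * g⁻¹) ∧ (Cfsg.groupFusionSystem (S : Subgroup G)).core = S := by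
  have hF := L.isSaturated_groupFusionSystem S
  have hn : (Cfsg.groupFusionSystem (S : Subgroup G)).IsNormal S := by
    refine hF.isNormal_of_chain S.2 (n := 2) (C := fun i => match i with
      | 0 => ⊥ | 1 => (S : Subgroup G) ⊓ Subgroup.centralizer ((S : Subgroup G) : Set G)
      | _ => S) rfl rfl (fun i _ => ?_) (fun i hi => ?_)
    · match i with
      | 0 => exact stronglyClosed_bot _
      | 1 =>
        refine stronglyClosed_iff.2 ⟨inf_le_left, fun R f hf x hx hx' => ?_⟩
        obtain ⟨-, a, g, hg⟩ := isMap_group.1 hf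
        rw [hg x hx]
        exact hZ.2 x hx' g (hg x hx ▸ a x hx)
      | _ + 2 => exact stronglyClosed_top _
    · match i, hi with
      | 0, _ =>
        exact (Subgroup.commutator_eq_bot_iff_le_centralizer.2 inf_le_right).le
      | 1, _ => exact hcl
  refine ⟨fun P φ hφ => ?_, le_antisymm (core_le _) hn.le_core⟩
  obtain ⟨α, h1, h2⟩ := hn.exists_aut (mem_hom_iff_isMap.1 hφ)
  obtain ⟨-, a, g, hg⟩ := isMap_group.1 h1.isMap
  refine ⟨g, mem_normalizer_of_finite fun x hx => hg x hx ▸ a x hx, fun x => ?_⟩
  rw [← hg x ((mem_hom_iff_isMap.1 hφ).le x.2), h2 x x.2, extFun_coe]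

end Cfsg.Agent.S5107
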