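import Cfsg.Statements.S5119
import Cfsg.Agent.H9.Inv

set_option autoImplicit false
open Cfsg

namespace Cfsg.Agent.S5119

/-- Let F be a saturated fusion system over a finite p-group S and E a subsystem of F over a subgroup T that is strongly closed in F. Then E is invariant in F (invariance under Aut_F(T) plus the Frattini condition) if and only if the strong invariance condition holds: for P ≤ Q ≤ T, every map φ of E from P into Q and every map ψ of F with source Q, the transported map ψ φ ψ⁻¹ on ψ(P) is a map of E. -/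
theorem result {Ω : Type*} [Group Ω] {S : Subgroup Ω} [Finite S] (p : ℕ) [Fact p.Prime] (hS : IsPGroup p S) (F : Cfsg.FusionSystem S) (hF : F.IsSaturated p) {T : Subgroup Ω} (E : Cfsg.FusionSystem T) (hE : E.IsSubsystemOf F) (hT : F.StronglyClosed T) : E.IsInvariantIn F ↔ ∀ (P Q : Subgroup Ω) (hPQ : P ≤ Q) (_ : Q ≤ T) (φ : P →* Ω) (_ : φ ∈ E.Hom P) (hφQ : ∀ x : P, φ x ∈ Q) (ψ : Q →* Ω) (_ : ψ ∈ F.Hom Q), ∃ χ ∈ E.Hom ((P.subgroupOf Q).map ψ), ∀ (x : P) (hx : ψ (Subgroup.inclusion hPQ x) ∈ (P.subgroupOf Q).map ψ), χ ⟨ψ (Subgroup.inclusion hPQ x), hx⟩ = ψ ⟨φ x, hφQ x⟩ := by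
  open Cfsg.Fus Cfsg.FusionSystem in
  have := finite_of_le hT.le
  open Cfsg.Fus Cfsg.FusionSystem in
  constructor
  · intro h P Q hPQ hQ φ hφ hφQ ψ hψ
    obtain ⟨σ, s1, s2⟩ := Cfsg.FusionSystem.exists_perm_of_mem hφ
    obtain ⟨τ, t1, t2⟩ := Cfsg.FusionSystem.exists_perm_of_mem hψ
    have h1 := h.strong s1 t1 hPQ fun x hx => s2 ⟨x, hx⟩ ▸ hφQ ⟨x, hx⟩
    rw [← Cfsg.Fus.map_subgroupOf_eq_img hPQ ψ t2] at h1
    refine ⟨h1.homOn.toHom, h1.toHom_mem, fun x hx => ?_⟩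
    change (τ * σ * τ⁻¹) (ψ (Subgroup.inclusion hPQ x)) = _
    rw [t2, t2]
    simp [s2]
  · intro h
    refine Cfsg.FusionSystem.isInvariantIn_of_strong hE hT hF hS fun P Q σ ψ hσ hψ hP hQ hm => ?_
    obtain ⟨χ, h1, h2⟩ := h P Q hP hQ _ hσ.toHom_mem (fun x => hm x x.2) _ hψ.toHom_mem
    have e := Cfsg.Fus.map_subgroupOf_eq_img hP hψ.homOn.toHom (g := ψ) fun _ => rfl
    rw [← e]
    refine Cfsg.FusionSystem.isMap_of_mem h1 fun y => ?_
    obtain ⟨x, hx, hy⟩ := (hψ.mono hP).mem_img.1 (by rw [← e]; exact y.2 : (y : Ω) ∈ _)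
    have := h2 ⟨x, hx⟩ (by rw [e]; exact Cfsg.Fus.mem_img_of_mem _ hx)
    have e2 : y = ⟨hψ.homOn.toHom (Subgroup.inclusion hP ⟨x, hx⟩), by
      rw [e]; exact Cfsg.Fus.mem_img_of_mem _ hx⟩ := Subtype.ext hy.symm
    rw [e2, this]
    change ψ (σ x) = (ψ * σ * ψ⁻¹) (ψ x)
    simp

end Cfsg.Agent.S5119
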