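import Cfsg.Statements.S5143
import Cfsg.Agent.H7.ProdER

set_option autoImplicit false
open Cfsg

namespace Cfsg.Agent.S5143

open Cfsg.Fus Cfsg.FusionSystem

/-- Let F be a saturated fusion system over a finite p-group S, E a normal subsystem over T, and R a subgroup with T ≤ R ≤ S. Then there is exactly one saturated subsystem D of F over R (exactly one family of map sets) whose p-residual subsystem is that of E: the hyperfocal subgroups of D and E coincide and the p-residual subsystems of D and of E have the same maps. -/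
theorem result {Ω : Type*} [Group Ω] {S : Subgroup Ω} [Finite S] (p : ℕ) [Fact p.Prime] (hS : IsPGroup p S) (F : Cfsg.FusionSystem S) (hF : F.IsSaturated p) {T : Subgroup Ω} (E : Cfsg.FusionSystem T) (hE : E.IsNormalIn F p) (R : Subgroup Ω) (hTR : T ≤ R) (hRS : R ≤ S) : ∃ D : Cfsg.FusionSystem R, (D.IsSaturated p ∧ D.IsSubsystemOf F ∧ D.hyperfocalSubgroup p = E.hyperfocalSubgroup p ∧ ∀ (D₁ : Cfsg.FusionSystem (D.hyperfocalSubgroup p)) (E₁ : Cfsg.FusionSystem (E.hyperfocalSubgroup p)), D.IsPResidual p D₁ → E.IsPResidual p E₁ → ∀ P : Subgroup Ω, D₁.Hom P = E₁.Hom P) ∧ ∀ D' : Cfsg.FusionSystem R, D'.IsSaturated p → D'.IsSubsystemOf F → D'.hyperfocalSubgroup p = E.hyperfocalSubgroup p → (∀ (D₁ : Cfsg.FusionSystem (D'.hyperfocalSubgroup p)) (E₁ : Cfsg.FusionSystem (E.hyperfocalSubgroup p)), D'.IsPResidual p D₁ → E.IsPResidual p E₁ → ∀ P : Subgroup Ω, D₁.Hom P = E₁.Hom P) → ∀ P : Subgroup Ω, D'.Hom P = D.Hom P := by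
  have := finite_of_le hE.le
  have := finite_of_le hRS
  have hR := isPGroup_of_le hS hRS
  have hT := isPGroup_of_le hS hE.le
  obtain ⟨D, hD, hsub, hi⟩ := hE.exists_prod hS hTR hRS
  have hh := H8.hyp_eq_of_hasPPowerIndexIn hR hi
  refine ⟨D, ⟨hD, hsub, hh.symm, fun D₁ E₁ h1 h2 => H8.sameHom_of_hasPPowerIndexIn hR hh.symm h1.1 h1.2
    h2.1 (H8.HasPPowerIndexIn_trans hR h2.2 hi)⟩, fun D' hD' hsub' _ hres => ?_⟩
  obtain ⟨E₁, hE₁⟩ := H8.exists_isPResidual hE.sat hT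
  obtain ⟨D₁, hD₁⟩ := H8.exists_isPResidual hD' hR
  have hs : H8.SameHom D₁ E₁ := hres D₁ E₁ hD₁ hE₁
  have i1 : E₁.HasPPowerIndexIn D' p := hs.transport (M := fun X => X.HasPPowerIndexIn D' p) hD₁.2
  have i2 : E₁.HasPPowerIndexIn D p := H8.HasPPowerIndexIn_trans hR hE₁.2 hi
  have hn := hE.pResidual hS hE₁
  exact H8.sameHom_of_sub (hn.prod_sub hS hD' hsub' i1 hD hsub i2 le_rfl)
    (hn.prod_sub hS hD hsub i2 hD' hsub' i1 le_rfl)

end Cfsg.Agent.S5143
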