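import Cfsg.Statements.S5147
import Cfsg.Agent.L.Constr

set_option autoImplicit false
open Cfsg

namespace Cfsg.Agent.S5147

/-- Let G be a finite group with Sylow 2-subgroup S whose 2-fusion system on S is constrained, and L a component of G (a subnormal quasisimple subgroup). Then the 2-fusion system of L/Z(L) on the image of S ∩ L is constrained. -/
theorem result {G : Type*} [Group G] [Finite G] (S : Sylow 2 G) (hF : (Cfsg.groupFusionSystem (S : Subgroup G)).IsConstrained 2) (L : Subgroup G) (hL : Cfsg.IsComponent L) : (Cfsg.groupFusionSystem (((S : Subgroup G).subgroupOf L).map (QuotientGroup.mk' (Subgroup.center L)))).IsConstrained 2 := by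
  have h1 := Cfsg.Agent.L.isConstrained_subnormal (Cfsg.Agent.L.isSylowIn_top S) hF hL.1
  have h2 : Cfsg.Agent.L.IsSylowIn 2 ((S : Subgroup G).subgroupOf L) ⊤ := by
    rw [← Subgroup.inf_subgroupOf_right, Cfsg.Agent.L.isSylowIn_subgroupOf_top_iff inf_le_right]
    exact (Cfsg.Agent.L.isSubnormalIn_of_isSubnormal (Cfsg.Agent.L.isSylowIn_top S) hL.1).1
  have h3 := Cfsg.Agent.L.isFactorSystem_ofSubgroup h2 (QuotientGroup.mk' (Subgroup.center L))
  rw [← Cfsg.Agent.L.groupFusionSystem_eq] at h3
  have h4 := Cfsg.Agent.L.isConstrained_factor_central h2.isPGroup h1 h3 (by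
    rw [QuotientGroup.ker_mk']
    refine Cfsg.FusionSystem.IsSaturated.isCentral_of_fix h1.1 h2.isPGroup inf_le_left
      fun P σ hσ x hx hx' => ?_
    obtain ⟨-, -, g, hg⟩ := Cfsg.FusionSystem.isMap_group.1 hσ
    rw [hg x hx, Subgroup.mem_center_iff.1 hx'.2 g, mul_inv_cancel_right])
  have key : ∀ (K : Subgroup (L ⧸ Subgroup.center L)) (T : Subgroup (L ⧸ Subgroup.center L))
      (h : T ≤ K), K = ⊤ → (Cfsg.fusionSystemOfSubgroup K T h).IsConstrained 2 →
      (Cfsg.groupFusionSystem T).IsConstrained 2 := by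
    rintro _ T h rfl h5
    rwa [Cfsg.Agent.L.groupFusionSystem_eq]
  exact key _ _ _ (Subgroup.map_top_of_surjective _ (QuotientGroup.mk'_surjective _)) h4

end Cfsg.Agent.S5147
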