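import Cfsg.Statements.S5156
import Cfsg.Agent.L.ResSeries

set_option autoImplicit false
universe u
open Cfsg

namespace Cfsg.Agent.S5156

/-- A saturated fusion system over a finite p-group has a terminating alternating chain of p'-residual and p-residual subsystems (the chain reaches the trivial system — the notion of solvability adapted to fusion systems of p-solvable groups) if and only if it is constrained and its models are p-solvable (a model is a finite group realizing the system on a Sylow p-subgroup with self-centralizing largest normal p-subgroup; it exists and is unique up to isomorphism for constrained systems). -/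
theorem result {Ω : Type u} [Group Ω] {S : Subgroup Ω} [Finite S] (p : ℕ) [Fact p.Prime] (hS : IsPGroup p S) (F : Cfsg.FusionSystem S) (hF : F.IsSaturated p) : F.HasTerminatingResidualSeries p ↔ (F.IsConstrained p ∧ ∀ (G : Type u) [Group G] (ι : S →* G), F.IsModel p G ι → Cfsg.IsPSolvable p G) := by
  constructor
  · intro h
    obtain ⟨h1, h2⟩ := L.constrained_of_hasTerm h hS hF
    exact ⟨h1, fun G _ ι hm => (L.model_isPSolvable_iff hm).2 h2⟩
  · rintro ⟨h1, h2⟩
    obtain ⟨G, _, ι, hm⟩ := L.exists_model hS h1
    haveI := hm.1
    obtain ⟨θ', t⟩ := L.exists_transp_of_realized hm.2.1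
    exact t.symm.hasTerminatingResidualSeries (L.hasTerm_group _ G rfl (h2 G ι hm)
      (L.pPrimeCore_eq_bot_of_charP hm.2.2.2) _ (L.model_isSylowIn hm))

end Cfsg.Agent.S5156
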