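import Cfsg.Statements.S5160
import Cfsg.Agent.L.Constr

set_option autoImplicit false
open Cfsg

namespace Cfsg.Agent.S5160

/-- Let G be a finite group with nontrivial Sylow p-subgroup S and F its fusion system on S. Suppose (a) no nontrivial proper subgroup of S is strongly closed in F, and (b) the automorphisms of S induced by G are generated by those induced, for R running over the fully normalized radical centric subgroups of F, by the subgroup of N_G(R) generated by its elements of p-power order. Then F is simple. -/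
theorem result {G : Type*} [Group G] [Finite G] (p : ℕ) [Fact p.Prime] (S : Sylow p G) (hS1 : (S : Subgroup G) ≠ ⊥) (ha : ∀ T : Subgroup G, (Cfsg.groupFusionSystem (S : Subgroup G)).StronglyClosed T → T = ⊥ ∨ T = (S : Subgroup G)) (hb : Cfsg.autInducedBy ⊤ (S : Subgroup G) = ⨆ (R : Subgroup G) (_ : (Cfsg.groupFusionSystem (S : Subgroup G)).IsFullyNormalized R ∧ (Cfsg.groupFusionSystem (S : Subgroup G)).IsRadical p R ∧ (Cfsg.groupFusionSystem (S : Subgroup G)).IsCentric R), Cfsg.autInducedBy (Subgroup.closure {g : G | g ∈ Subgroup.normalizer (R : Set G) ∧ ∃ k : ℕ, orderOf g = p ^ k}) (S : Subgroup G)) : (Cfsg.groupFusionSystem (S : Subgroup G)).IsSimple p := by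
  have hS := Cfsg.Agent.L.isSylowIn_top S
  refine Cfsg.Agent.L.isSimple_of_top (Cfsg.Agent.L.isSaturated_groupFusionSystem S) hS1 ha
    fun E hE σ hσ => ?_
  have h1 : Cfsg.autInducedBy ⊤ (S : Subgroup G) ≤ E.autGroup S := by
    rw [hb]
    refine iSup_le fun R => iSup_le fun hR α hα => ?_
    obtain ⟨g, hg, h2⟩ := Cfsg.Fus.mem_autInducedBy.1 hα
    have h3 := Cfsg.Agent.L.mem_autInN_top hS hE.1 hR.2.2 (Cfsg.Fus.mem_normalizer_of_induces h2)
      (Subgroup.closure_mono (by
        rintro x ⟨hx, k, hk⟩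
        exact ⟨hx, k, hk ▸ pow_orderOf_eq_one x⟩) hg)
    exact Cfsg.FusionSystem.mem_autGroup_of_rep ((Cfsg.Agent.L.mem_autInN le_rfl).1 h3).isMap h2
  obtain ⟨α, hα, h2⟩ := hσ.exists_aut
  rw [Cfsg.Agent.L.groupFusionSystem_eq, Cfsg.Agent.L.autGroup_ofSubgroup _ le_rfl] at hα
  exact Cfsg.FusionSystem.isMap_of_mem_autGroup le_rfl (h1 hα) h2

end Cfsg.Agent.S5160
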