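import Cfsg.Statements.S5170
import Cfsg.Agent.L.MathieuSyl24

set_option autoImplicit false
open Cfsg

namespace Cfsg.Agent.S5170

/-- The 2-fusion system of the Mathieu group M₂₄ (as the explicit permutation group of the 24 points preserving the binary Golay code) on a Sylow 2-subgroup is simple: saturated, over a nontrivial 2-group, with no normal subsystem other than the trivial one and itself. -/
theorem result (S : Sylow 2 Cfsg.M24) : (Cfsg.groupFusionSystem (S : Subgroup Cfsg.M24)).IsSimple 2 := by
  exact L.PC.simple24 S

end Cfsg.Agent.S5170
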