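import Cfsg.Statements.S5311
import Cfsg.Agent.H9.Core

set_option autoImplicit false
open Cfsg

namespace Cfsg.Agent.S5311

/-- The layer of a saturated fusion system F over a finite p-group S is characteristic in F: for every automorphism α of S that is an automorphism of F (α and its inverse are morphisms from F to F) and every layer E of F over T, α carries T onto T and, for every map φ of E with source P, the map induced by α on α(P) (that is, α ∘ φ ∘ α⁻¹) is a map of E. -/
theorem result {Ω : Type*} [Group Ω] {S : Subgroup Ω} [Finite S] (p : ℕ) [Fact p.Prime] (hS : IsPGroup p S) (F : Cfsg.FusionSystem S) (hF : F.IsSaturated p)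
    (α : ↥S ≃* ↥S) (hα : F.IsMorphism F (S.subtype.comp α.toMonoidHom))
    (hα' : F.IsMorphism F (S.subtype.comp α.symm.toMonoidHom))
    {T : Subgroup Ω} (E : Cfsg.FusionSystem T) (hE : E.IsLayerOf F p) :
    Cfsg.FusionSystem.imageAlong (S.subtype.comp α.toMonoidHom) T = T ∧
      ∀ (P : Subgroup Ω) (φ : ↥P →* Ω), φ ∈ E.Hom P →
        ∀ φ' : ↥(Cfsg.FusionSystem.imageAlong (S.subtype.comp α.toMonoidHom) P) →* Ω,
          Cfsg.FusionSystem.InducedAlong (S.subtype.comp α.toMonoidHom) φ φ' →
            φ' ∈ E.Hom (Cfsg.FusionSystem.imageAlong (S.subtype.comp α.toMonoidHom) P) := by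
  open Cfsg.Fus Cfsg.FusionSystem in
  have t : L.Transp S S (extFun (S.subtype.comp α.toMonoidHom))
      (extFun (S.subtype.comp α.symm.toMonoidHom)) F F := by
    have e1 : ∀ x ∈ S, extFun (S.subtype.comp α.symm.toMonoidHom)
        (extFun (S.subtype.comp α.toMonoidHom) x) = x := fun x hx => by
      rw [extFun_of_mem _ hx]
      exact (extFun_coe _ (α ⟨x, hx⟩)).trans (by simp)
    have e2 : ∀ x ∈ S, extFun (S.subtype.comp α.toMonoidHom)
        (extFun (S.subtype.comp α.symm.toMonoidHom) x) = x := fun x hx => by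
      rw [extFun_of_mem _ hx]
      exact (extFun_coe _ (α.symm ⟨x, hx⟩)).trans (by simp)
    have h : L.PIso S S (extFun (S.subtype.comp α.toMonoidHom))
      (extFun (S.subtype.comp α.symm.toMonoidHom)) :=
      ⟨homOn_extFun _, fun _ hx => hα.mem hx, fun _ hx => hα'.mem hx, e1, e2⟩
    exact ⟨h, le_rfl, h.img_self, fun P f hf => hα.isMap hf fun x hx => by simp only [Function.comp_apply, e1 x (hf.le hx)],
      fun P f hf => hα'.isMap hf fun x hx => by simp only [Function.comp_apply, e2 x (hf.le hx)]⟩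
  obtain ⟨E', e⟩ := t.piso.exists_transp hE.1.le E rfl
  have hE' := t.isLayerOf e hE
  have h1 := hE.2.2 _ _ hE'.1 hE'.2.1
  have h2 := hE'.2.2 _ _ hE.1 hE.2.1
  refine ⟨by rw [Cfsg.FusionSystem.imageAlong_eq_img _ hE.1.le]; exact le_antisymm h2.le h1.le,
    fun P φ hφ φ' hφ' => h2 _ ?_⟩
  have h3 := Cfsg.FusionSystem.mem_hom_iff_isMap.1 hφ
  rw [Cfsg.FusionSystem.mem_hom_iff_isMap]
  have h4 := (Cfsg.FusionSystem.inducedAlong_iff (fun x => (Cfsg.Fus.extFun_coe φ x).symm)
    fun x => (Cfsg.Fus.extFun_coe φ' x).symm).1 hφ'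
  have h5 := e.map_of_rep h3 h4.2.2.2
  rwa [← Cfsg.FusionSystem.imageAlong_eq_img _ h4.1] at h5

end Cfsg.Agent.S5311
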